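import Cfsg.Agent.H7.Basic

/-! Fixed-point-free automorphisms of order three. -/

namespace H1B
open Subgroup Cfsg H7
open scoped commutatorElement

variable {G : Type*} [Group G] {N : Subgroup G} [hN : N.Normal] {g x t u v y z : G}

/-- all elements of the coset `N g` have order dividing three -/
def C3 (N : Subgroup G) (g : G) : Prop := ∀ u ∈ N, (u * g) ^ 3 = 1

omit hN in
theorem C3.mul (h : C3 N g) (hy : y ∈ N) : C3 N (y * g) := fun u hu => mul_assoc u y g ▸ h _ (mul_mem hu hy)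

theorem C3.inv (h : C3 N g) : C3 N g⁻¹ := fun u hu => by
  rw [← inv_eq_one, ← inv_pow, show (u * g⁻¹)⁻¹ = g * u⁻¹ * g⁻¹ * g by group]
  exact h _ (hN.conj_mem _ (inv_mem hu) g)

omit hN in
theorem C3.mul_self (h : C3 N g) : g * g = g⁻¹ := by
  have := h 1 (one_mem N)
  rwa [one_mul, pow_three', ← eq_inv_iff_mul_eq_one] at this

theorem C3.rel (h : C3 N g) (hu : u ∈ N) : u * (g * u * g⁻¹) * (g⁻¹ * u * g) = 1 := by
  calc _ = u * g * u * (g⁻¹ * g⁻¹) * u * g := by group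
    _ = 1 := by rw [h.inv.mul_self, inv_inv, ← h u hu, pow_three]; group

theorem C3.rel' (h : C3 N g) (hu : u ∈ N) : u * (g⁻¹ * u * g) * (g * u * g⁻¹) = 1 := by
  simpa using h.inv.rel hu

omit hN in
theorem C3.cj_cj (h : C3 N x) (v : G) : x * (x * v * x⁻¹) * x⁻¹ = x⁻¹ * v * x := by
  calc _ = x * x * v * (x * x)⁻¹ := by group
    _ = _ := by rw [h.mul_self, inv_inv]

theorem C3.star (h : C3 N x) (hy : y ∈ N) (hv : v ∈ N) : x * ⁅y, v⁆ * x⁻¹ = ⁅y, x⁻¹ * v * x⁆ := by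
  have hu := hN.conj_mem v hv x
  have a := (show C3 N (y * (x⁻¹ * x⁻¹)) by rw [h.inv.mul_self, inv_inv]; exact h.mul hy).rel' hu
  have b := congrArg (fun w => x * w * x⁻¹) ((h.inv.mul hy).rel' hu)
  have c : x * v * x⁻¹ * (x⁻¹ * v * x) = x⁻¹ * v * x * (x * v * x⁻¹) :=
    mul_left_cancel (a := v) (by rw [← mul_assoc v (x * v * x⁻¹), ← mul_assoc v (x⁻¹ * v * x), h.rel hv, h.rel' hv])
  simp only [mul_one, mul_inv_cancel] at b
  rw [show ∀ a b c : G, x * (a * b * c) * x⁻¹ = x * a * x⁻¹ * (x * b * x⁻¹) * (x * c * x⁻¹) from fun a b c => by group,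
    h.cj_cj, mul_eq_one_iff_eq_inv'] at b
  rw [mul_eq_one_iff_eq_inv'] at a
  calc _ = x * (y * x⁻¹ * (x * v * x⁻¹) * (y * x⁻¹)⁻¹) * x⁻¹ * (x * v * x⁻¹)⁻¹ := by group
    _ = (x * ((y * x⁻¹)⁻¹ * (x * v * x⁻¹) * (y * x⁻¹)) * x⁻¹)⁻¹ * (x * v * x⁻¹ * (x⁻¹ * v * x))⁻¹ := by
      rw [b, mul_inv_rev (x⁻¹ * v * x), mul_inv_rev _ (x⁻¹ * v * x), mul_assoc]
    _ = ((y * (x⁻¹ * x⁻¹))⁻¹ * (x * v * x⁻¹) * (y * (x⁻¹ * x⁻¹)))⁻¹ * (x * v * x⁻¹)⁻¹ * (x⁻¹ * v * x)⁻¹ := by rw [c]; group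
    _ = _ := by rw [← mul_inv_rev (x * v * x⁻¹), ← a]; group

theorem comm_memN (hy : y ∈ N) (v : G) : ⁅y, v⁆ ∈ N := by
  rw [commutatorElement_def, mul_assoc, mul_assoc, ← mul_assoc v]
  exact mul_mem hy (hN.conj_mem _ (inv_mem hy) v)

theorem C3.cls (h : C3 N x) (hf : ∀ y ∈ N, x * y * x⁻¹ = y → y = 1) (hy : y ∈ N) (hz : z ∈ N) (hv : v ∈ N) :
    ⁅y, ⁅z, v⁆⁆ = 1 := by
  have i : ∀ v : G, ⁅y * z, v⁆ = ⁅y, ⁅z, v⁆⁆ * ⁅z, v⁆ * ⁅y, v⁆ := fun v => by group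
  have a := h.star (mul_mem hy hz) hv
  rw [i, i, ← h.star hz hv, ← h.star hy hv,
    show ∀ a b c : G, x * (a * b * c) * x⁻¹ = x * a * x⁻¹ * (x * b * x⁻¹) * (x * c * x⁻¹) from fun a b c => by group,
    mul_left_inj, mul_left_inj] at a
  have b := h.star hy (hN.conj_mem _ (comm_memN hz v) x)
  rw [← a, h.cj_cj, show x⁻¹ * (x * ⁅z, v⁆ * x⁻¹) * x = ⁅z, v⁆ by group] at b
  refine hf _ (comm_memN hy _) ?_
  conv_lhs => rw [← b]
  group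

theorem C3.sq_eq_one (h : C3 N x) (hf : ∀ y ∈ N, x * y * x⁻¹ = y → y = 1) (t2 : t * t = 1) (tx : t * x * t⁻¹ = x⁻¹)
    (h4 : ∀ n ∈ N, (n * t) ^ 4 = 1) (hy : y ∈ N) : y ^ 2 = 1 := by
  have ti : t⁻¹ = t := inv_eq_of_mul_eq_one_left t2
  have cz : ∀ a ∈ N, ∀ b ∈ N, ⁅a, b⁆ ∈ N ⊓ cen N := fun a ha b hb =>
    ⟨comm_memN ha b, mem_cen.2 fun c hc => commutatorElement_eq_one_iff_mul_comm.1 (h.cls hf hc ha hb)⟩
  have u2 : ∀ a ∈ N, (a * (t * a * t⁻¹)) ^ 2 = 1 := fun a ha => by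
    rw [← h4 a ha, ti, show 4 = 2 * 2 from rfl, pow_mul, sq (a * t)]
    group
  have tc : ∀ a, t * (x⁻¹ * a * x) * t⁻¹ = x * (t * a * t⁻¹) * x⁻¹ := fun a => by
    calc _ = (t * x * t⁻¹)⁻¹ * (t * a * t⁻¹) * (t * x * t⁻¹) := by group
      _ = _ := by rw [tx, inv_inv]
  have xi := fun a (ha : a ∈ N) => hN.conj_mem' a ha x
  have z2 : ∀ c ∈ N ⊓ cen N, c ^ 2 = 1 := fun c hc => by
    have m : ∀ a ∈ N, ∀ g : G, Commute (g * c * g⁻¹) a := fun a ha g => by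
      have := mem_cen.1 hc.2 _ (hN.conj_mem' a ha g)
      show g * c * g⁻¹ * a = a * (g * c * g⁻¹)
      calc _ = g * (c * (g⁻¹ * a * g)) * g⁻¹ := by group
        _ = _ := by rw [← this]; group
    have a := u2 c hc.1
    have b := congrArg (fun w => x⁻¹ * w * x) (u2 _ (xi c hc.1))
    rw [(m c hc.1 t).symm.mul_pow] at a
    simp only [tc, mul_one, inv_mul_cancel] at b
    rw [show ∀ a b : G, x⁻¹ * (a * b) ^ 2 * x = (x⁻¹ * a * x⁻¹⁻¹ * (x⁻¹ * b * x)) ^ 2 from fun a b => by simp only [sq]; group,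
      show x⁻¹ * c * x = x⁻¹ * c * x⁻¹⁻¹ by group, h.inv.cj_cj, inv_inv,
      show x⁻¹ * (x * (t * c * t⁻¹) * x⁻¹) * x = t * c * t⁻¹ by group,
      (m _ (by simpa using hN.conj_mem c hc.1 x) t).symm.mul_pow, ← a, mul_left_inj] at b
    exact hf _ (pow_mem hc.1 2) (by simpa [conj_pow] using b)
  have s2 : ∀ a ∈ N, a ^ 2 ∈ N ⊓ cen N := fun a ha => ⟨pow_mem ha 2, mem_cen.2 fun b hb => by
    rw [← commutatorElement_eq_one_iff_mul_comm, ← z2 _ (cz b hb a ha), sq, sq,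
      show ⁅b, a * a⁆ = ⁅b, a⁆ * (a * ⁅b, a⁆) * a⁻¹ by group, mem_cen.1 (cz b hb a ha).2 a ha]
    group⟩
  have un : ∀ a ∈ N, a * (t * a * t⁻¹) ∈ N := fun a ha => mul_mem ha (hN.conj_mem a ha t)
  have c1 : ∀ a ∈ N, ∀ b ∈ N, ⁅a * (t * a * t⁻¹), b * (t * b * t⁻¹)⁆ = 1 := fun a ha b hb => by
    have e := u2 _ (mul_mem ha hb)
    have c := cz _ (inv_mem (hN.conj_mem a ha t)) b hb
    have p := u2 a ha
    have q := u2 b hb
    rw [show a * b * (t * (a * b) * t⁻¹) = a * (t * a * t⁻¹) * ⁅(t * a * t⁻¹)⁻¹, b⁆ * (b * (t * b * t⁻¹)) by group,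
      mul_assoc (a * _), ← mem_cen.1 c.2 _ (un b hb), ← mul_assoc,
      (show Commute _ _ from mem_cen.1 c.2 _ (mul_mem (un a ha) (un b hb))).mul_pow, z2 _ c, mul_one] at e
    rw [sq] at e p q
    rw [commutatorElement_def, ← eq_inv_of_mul_eq_one_left p, ← eq_inv_of_mul_eq_one_left q, mul_assoc, e]
  have c2 : ∀ a ∈ N, ∀ b ∈ N, ⁅a * (t * a * t⁻¹), x * (b * (t * b * t⁻¹)) * x⁻¹⁆ = 1 := fun a ha b hb => by
    have := h.star (un a ha) (hN.conj_mem _ (un b hb) x)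
    rw [show ∀ w, x⁻¹ * (x * w * x⁻¹) * x = w from fun w => by group, c1 a ha b hb] at this
    simpa using this
  have gen : ∀ b ∈ N, (∀ a ∈ N, ⁅a * (t * a * t⁻¹), b⁆ = 1) → (∀ a ∈ N, ⁅x * (a * (t * a * t⁻¹)) * x⁻¹, b⁆ = 1) →
      ∀ a ∈ N, ⁅a, b⁆ = 1 := fun b hb p q a ha => by
    have m := hN.conj_mem _ (hN.conj_mem a ha t) x
    have k := cen_le_cen1 hb (mul_mem (cz _ (inv_mem (hN.conj_mem a ha x)) _ m) (s2 _ m)).2
    rw [show ⁅(x * a * x⁻¹)⁻¹, x * (t * a * t⁻¹) * x⁻¹⁆ * (x * (t * a * t⁻¹) * x⁻¹) ^ 2 = (x * a * x⁻¹)⁻¹ * (x⁻¹ * a * x)⁻¹ *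
      (x⁻¹ * a * x * (x * (t * a * t⁻¹) * x⁻¹)) * (x * (a * (t * a * t⁻¹)) * x⁻¹) by rw [sq]; group, ← mul_inv_rev,
      ← eq_inv_of_mul_eq_one_left (mul_assoc a _ _ ▸ h.rel' ha), ← tc] at k
    rw [mul_mem_cancel_right (mem_cen1.2 (commutatorElement_eq_one_iff_mul_comm.1 (q a ha))),
      mul_mem_cancel_right (mem_cen1.2 (commutatorElement_eq_one_iff_mul_comm.1 (p _ (xi a ha))))] at k
    exact commutatorElement_eq_one_iff_mul_comm.2 (mem_cen1.1 k)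
  have sy : ∀ {a b : G}, ⁅a, b⁆ = 1 → ⁅b, a⁆ = 1 := fun k => by rw [← commutatorElement_inv, k, inv_one]
  refine z2 y ⟨hy, mem_cen.2 fun c hc => commutatorElement_eq_one_iff_mul_comm.1 (gen y hy (fun a ha => sy
    (gen _ (un a ha) (fun b hb => c1 b hb a ha) (fun b hb => sy (c2 a ha b hb)) y hy)) (fun a ha => sy
    (gen _ (hN.conj_mem _ (un a ha) x) (fun b hb => c2 b hb a ha) (fun b hb => ?_) y hy)) c hc)⟩
  rw [← conjugate_commutatorElement, c1 b hb a ha, mul_one, mul_inv_cancel]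

end H1B
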