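import Cfsg.Agent.H1.BG3c
import Cfsg.Agent.H1.Top
import Cfsg.Agent.H1.U2
import Cfsg.Agent.H7.Ut

/-! Fixed-point-free groups of automorphisms of order `4` and of type `(p, p)`. -/

set_option autoImplicit false
set_option linter.unusedSectionVars false

namespace H1B
open Subgroup Cfsg H7 H3
open scoped commutatorElement ComplexConjugate

section char
variable {Γ : Type*} [Group Γ] [Finite Γ] {A B Q X : Subgroup Γ} {χ ψ : Γ → ℂ} {p : ℕ}

theorem sum_eq_of_vanish [Fintype A] [Fintype X] (hX : X ≤ A) (f : Γ → ℂ)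
    (h0 : ∀ u ∈ A, u ∉ X → f u = 0) : ∑ u : A, f u = ∑ u : X, f u := by
  classical
  refine (Finset.sum_of_injOn (inclusion hX) (inclusion_injective hX).injOn (by simp [Set.MapsTo])
    (fun u _ hu => h0 u u.2 fun h => hu ⟨⟨u, h⟩, by simp, rfl⟩) fun _ _ => rfl).symm

variable [hp : Fact p.Prime]

theorem ward_faith (hn : A ≤ nrm Q) (hs : Q ⊔ A = ⊤) (eA : EA p A) (oA : ord A = p ^ 2)
    (hc : (ord A).Coprime (ord Q)) (h2 : ⁅Q, Q⁆ ≤ cen Q) (h0 : Q ⊓ cen A = ⊥)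
    (h : IsIrrCharacter Γ ψ) (hk : charKer ψ = ⊥) (hd : dimF ψ A = 0) :
    ∃ X ≤ A, ord X = p ∧ X ≤ cen Q := by
  letI := Fintype.ofFinite A
  have cop : Cop A Q := ⟨hn, hc, Or.inl (solv_of_comm eA.comm)⟩
  by_cases hQ : Q = ⊥
  · obtain ⟨X, h1, h2⟩ := exists_card_p (H := A) hp.out (oA ▸ dvd_pow_self p two_ne_zero)
    exact ⟨X, h1, h2, hQ ▸ le_cen_bot X⟩
  set Z := Q ⊓ cen Q with hZ
  have hZb : Z ≠ ⊥ := nilp_inf_cen_ne_bot (nilp_of_comm_le_cen h2) le_rfl (le_nrm_self Q) hQ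
  have van : ∀ c ∈ A, c ∉ A ⊓ cen Z → ψ c = 0 := fun c hc' hcZ => by
    have n1 : zpowers c ≤ nrm Z := (zpowers_le.2 hc').trans (nrm_center hn)
    haveI : (⁅Z, zpowers c⁆).Normal := normal_of (by
      rw [← hs]
      exact sup_le (le_nrm_of_le_cen (le_cen_symm ((comm_le_left n1).trans inf_le_right)))
        (nrm_commutator (nrm_center hn) (eA.le_nrm (zpowers_le.2 hc'))))
    have h1 := comm_inf_cen_of_comm (isComm_center Q) n1
      (coprime_mono hc (zpowers_le.2 hc') inf_le_left)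
    refine h.eq_zero_of_fpf ⁅Z, zpowers c⁆ ?_ fun n hn e => ?_
    · obtain ⟨n, h3, h4⟩ := exists_ne_one (H := ⁅Z, zpowers c⁆) fun e =>
        hcZ ⟨hc', comm_eq_bot'.1 e (mem_zpowers c)⟩
      exact ⟨n, h3, fun e => h4 (by rwa [← h.isCharacter.mem_charKer, hk] at e)⟩
    · exact h1.le ⟨hn, by rw [cen_zpowers]; exact mem_cen1.2 e⟩
  set X := A ⊓ cen Z with hX
  letI := Fintype.ofFinite X
  have hXd : dimF ψ X = 0 := by
    have e1 := card_mul_dimF ψ X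
    rw [← sum_eq_of_vanish inf_le_left ψ van, ← card_mul_dimF, hd, mul_zero, mul_eq_zero] at e1
    exact e1.resolve_left (card_ne_zero X)
  have oX : ord X = p := card_p_of_lt oA (inf_lt_left.2 fun e => hZb
    (eq_bot_mono (le_inf inf_le_left (le_cen_symm e)) h0)) fun e => by
      rw [e, dimF_bot] at hXd; exact h.deg_ne_zero hXd
  refine ⟨X, inf_le_left, oX, le_cen_symm (cop.le_of_p2 eA oA fun Y hY oY => ?_)⟩
  by_cases e : Y = X
  · rw [e]; exact inf_le_right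
  have hXY := sup_eq_of_p2 eA oA inf_le_left hY oX oY (Ne.symm e)
  have nD : X ≤ nrm (Q ⊓ cen Y) := inf_le_left.trans (nrm_inf hn (nrm_cen (eA.le_nrm hY)))
  have hD : IsMulCommutative (Q ⊓ cen Y : Subgroup Γ) := isComm_of_der (eq_bot_mono (by
    rw [← hXY, cen_sup]
    refine le_inf (comm_le_of_le inf_le_left inf_le_left) (le_inf (le_cen_symm ?_)
      (comm_le_of_le inf_le_right inf_le_right))
    exact inf_le_right.trans (cen_anti (le_inf (comm_le_of_le inf_le_left inf_le_left)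
      ((commutator_mono inf_le_left inf_le_left).trans h2)))) h0)
  have := comm_le_ker nD (oX ▸ hp.out) (coprime_mono hc inf_le_left inf_le_left)
    (fun _ U hU _ => isComm_of_le hD hU) h.isCharacter hXd
  rwa [hk, le_bot_iff, comm_eq_bot] at this

theorem ward_irr (hn : A ≤ nrm Q) (hs : Q ⊔ A = ⊤) (eA : EA p A) (oA : ord A = p ^ 2)
    (hc : (ord A).Coprime (ord Q)) (h2 : ⁅Q, Q⁆ ≤ cen Q) (h0 : Q ⊓ cen A = ⊥)
    (h : IsIrrCharacter Γ ψ) (hd : dimF ψ A = 0) :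
    ∃ X ≤ A, ord X = p ∧ ∀ B, dimF ψ (B ⊔ ⁅Q, X⁆) = dimF ψ B := by
  haveI := h.isClassFunction.charKer_normal
  obtain ⟨φ, h1, h3⟩ := h.exists_quotient (charKer ψ) fun g hg => h.isCharacter.mem_charKer.1 hg
  let f := QuotientGroup.mk' (charKer ψ)
  replace h3 : ψ = fun g => φ (f g) := funext h3
  suffices e : ∃ X ≤ A, ord X = p ∧ ⁅Q, X⁆ ≤ charKer ψ by
    obtain ⟨X, a, b, c⟩ := e
    refine ⟨X, a, b, fun B => ?_⟩
    rw [h3, dimF_comp, dimF_comp, Subgroup.map_sup, (Subgroup.map_eq_bot_iff ⁅Q, X⁆).2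
      (by rwa [QuotientGroup.ker_mk']), sup_bot_eq]
  by_cases hA : A ⊓ charKer ψ = ⊥
  swap
  · obtain ⟨X, a, b⟩ := exists_card_p' (eA.isPGroup.to_le (inf_le_left (b := charKer ψ))) hA
    exact ⟨X, a.trans inf_le_left, b, comm_le_of_le_nrm (a.trans inf_le_right) (le_nrm_of_normal _ _)⟩
  let g := res f ⊤
  have kg : kr g = charKer ψ := ker_mk _
  obtain ⟨X, a, b, c⟩ := ward_faith (im_le_nrm g hn) (by
      rw [← im_sup le_top le_top, hs, im_mk_top]) (eA.im g)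
    (by rw [card_im_of_inf_eq_bot le_top (by rwa [kg]), oA])
    ((hc.coprime_dvd_left (card_im_dvd _ _)).coprime_dvd_right (card_im_dvd _ _))
    (by rw [← im_commutator le_top le_top]; exact im_le_cen g h2)
    (by rw [im_cen_of_cop ⟨hn, hc, Or.inl (solv_of_comm eA.comm)⟩ le_top le_top, h0, im_bot]) h1
    (by
      rw [eq_bot_iff]
      rintro x hx
      obtain ⟨y, rfl⟩ := QuotientGroup.mk'_surjective _ x
      refine (QuotientGroup.eq_one_iff y).2 ?_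
      rw [h3, charKer_comp f (QuotientGroup.mk'_surjective _)]
      exact hx) (by rw [im_top, ← dimF_comp, ← h3, hd])
  have e : im g (A ⊓ pre g X) = X := by rw [im_inf_pre, inf_eq_right.2 a]
  refine ⟨A ⊓ pre g X, inf_le_left, ?_, ?_⟩
  · rw [← card_im_of_inf_eq_bot (f := g) le_top
      (eq_bot_mono (inf_le_inf inf_le_left kg.le) hA), e, b]
  · refine le_trans ((im_le_cen_iff le_top le_top).1 ?_) kg.le
    rw [e]; exact le_cen_symm c

end char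

variable {G G' : Type*} [Group G] [Group G'] [Finite G]
  {A B D K M N P Q R V X : Subgroup G} {p q r s : ℕ}

theorem ward_mod [Fact p.Prime] [Fact s.Prime] (hV : EA s V) (hQV : Q ≤ nrm V) (hAV : A ≤ nrm V)
    (hn : A ≤ nrm Q) (eA : EA p A) (oA : ord A = p ^ 2) (hQs : (ord Q).Coprime s)
    (hAs : (ord A).Coprime s) (hc : (ord A).Coprime (ord Q)) (h2 : ⁅Q, Q⁆ ≤ cen Q)
    (h0 : Q ⊓ cen A = ⊥) (h1 : V ⊓ cen A = ⊥) (hB : B ≤ Q) (hb : V ⊓ cen B ≠ ⊥) :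
    ∃ X ≤ A, ord X = p ∧ V ⊓ cen (B ⊔ ⁅Q, X⁆) ≠ ⊥ := by
  have kD : Q ≤ Q ⊔ A := le_sup_left
  have rD : A ≤ Q ⊔ A := le_sup_right
  letI := Fintype.ofFinite ↥(Q ⊔ A)
  obtain ⟨χ, c1, c2, -⟩ := exists_lift' hV (sup_le hQV hAV) (by
    rw [sup_comm]; exact coprime_sup hn hAs hQs)
  have key : ∀ U ≤ Q ⊔ A, dimF χ (U.subgroupOf _) = 0 ↔ V ⊓ cen U = ⊥ := fun U hU => by
    obtain ⟨d, d1, d2⟩ := c2 U hU
    rw [d1, ← card_eq_one, d2, Nat.pow_eq_one, or_iff_right (Nat.Prime.ne_one Fact.out),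
      Nat.cast_eq_zero]
  obtain ⟨ψ, i1, i2, i3⟩ : ∃ ψ, IsIrrCharacter _ ψ ∧ classInner χ ψ ≠ 0 ∧
      dimF ψ (B.subgroupOf (Q ⊔ A)) ≠ 0 := by
    by_contra! e
    refine hb ((key B (hB.trans kD)).1 ?_)
    letI := Fintype.ofFinite (B.subgroupOf (Q ⊔ A))
    have := card_mul_dimF χ (B.subgroupOf (Q ⊔ A))
    simp only [c1.isClassFunction.apply_eq_sum] at this
    rw [Finset.sum_comm, Finset.sum_eq_zero fun ψ _ => ?_, mul_eq_zero] at this
    · exact this.resolve_left (card_ne_zero _)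
    rw [← Finset.mul_sum, ← card_mul_dimF]
    by_cases h : classInner χ ψ = 0
    · rw [h, zero_mul]
    · rw [e ψ ψ.2 h, mul_zero, mul_zero]
  obtain ⟨n, n1, n2⟩ := dimF_le_of_constituent (d := 0) c1 i1 i2 (by simpa using (key A rD).2 h1)
  obtain rfl := Nat.le_zero.1 n1
  obtain ⟨X, a, b, c⟩ := ward_irr (subgroupOf_le_nrm hn _) subgroupOf_sup_self
    ((ea_subgroupOf rD).2 eA) (by rwa [card_subgroupOf_of_le rD])
    (by rwa [card_subgroupOf_of_le rD, card_subgroupOf_of_le kD])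
    (by rw [← subgroupOf_commutator kD kD, ← im_id, ← im_id]; exact im_le_cen _ h2)
    (by rw [subgroupOf_inf_cen rD, h0, bot_subgroupOf]) i1 (by simpa using n2)
  have xA : X.map (Q ⊔ A).subtype ≤ A := map_le_iff_le_comap.2 a
  refine ⟨X.map (Q ⊔ A).subtype, xA, by rwa [H7.card_map_subtype], fun e => i3 ?_⟩
  have l : B ⊔ ⁅Q, X.map (Q ⊔ A).subtype⁆ ≤ Q ⊔ A :=
    sup_le (hB.trans kD) (comm_le_of_le kD (xA.trans rD))
  obtain ⟨n, n1, n2⟩ := dimF_le_of_constituent (d := 0) c1 i1 i2 (by simpa using (key _ l).2 e)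
  obtain rfl := Nat.le_zero.1 n1
  rw [subgroupOf_sup (hB.trans kD) (comm_le_of_le kD (xA.trans rD)),
    subgroupOf_commutator kD (xA.trans rD), subgroupOf,
    show (X.map (Q ⊔ A).subtype).subgroupOf (Q ⊔ A) = X from
      comap_map_eq_self_of_injective (subtype_injective _) _] at n2
  simpa using (c _).symm.trans n2

theorem ward_EA [hp : Fact p.Prime] [Fact s.Prime] (hV : EA s V) (hQV : Q ≤ nrm V) (hAV : A ≤ nrm V)
    (hRV : R ≤ nrm V) (hn : A ≤ nrm Q) (hRQ : R ≤ nrm Q) (hAR : A ≤ nrm R) (eA : EA p A)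
    (oA : ord A = p ^ 2) (hQs : (ord Q).Coprime s) (hAs : (ord A).Coprime s)
    (hc : (ord A).Coprime (ord Q)) (hc' : (ord A).Coprime (ord R)) (h2 : ⁅Q, Q⁆ ≤ cen Q)
    (h0 : Q ⊓ cen A = ⊥) (h1 : V ⊓ cen A = ⊥) (h3 : R ⊓ cen A = ⊥) (hX : X ≤ A) (oX : ord X = p)
    (hRX : R ≤ cen X) (e1 : Q ≤ ⁅Q, R⁆) (e2 : Q ≤ ⁅Q, X⁆) (hb : V ≠ ⊥) : V ⊓ cen Q ≠ ⊥ := by
  obtain ⟨B, ⟨b1, b2⟩, hm⟩ := exists_maximal_of_wellFoundedGT (fun B => B ≤ Q ∧ V ⊓ cen B ≠ ⊥)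
    ⟨⊥, bot_le, by rwa [inf_eq_left.2 (le_cen_bot V)]⟩
  intro hne
  have nQ : ¬ Q ≤ B := fun e => b2 (by rw [le_antisymm b1 e, hne])
  have key : ∀ x ∈ R, ∃ Y ≤ A, ord Y = p ∧ H2.cj x Y ≤ cmod B Q := fun x hx => by
    have eV := cj_of_mem_nrm (hRV hx)
    have eQ := cj_of_mem_nrm (hRQ hx)
    obtain ⟨Y, y1, y2, y3⟩ := ward_mod (A := H2.cj x A) hV hQV
      (by rw [← eV, ← cj_nrm]; exact H7.cj_mono x hAV) (by rw [← eQ, ← cj_nrm]; exact H7.cj_mono x hn)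
      (eA.cj x) (by rwa [H2.card_cj]) hQs (by rwa [H2.card_cj]) (by rwa [H2.card_cj]) h2
      (by rw [← eQ, ← cj_cen, ← H7.cj_inf, h0, H2.cj_bot])
      (by rw [← eV, ← cj_cen, ← H7.cj_inf, h1, H2.cj_bot]) b1 b2
    have n1 : Y ≤ nrm Q := y1.trans (by rw [← eQ, ← cj_nrm]; exact H7.cj_mono x hn)
    have l : ⁅Q, Y⁆ ≤ B := le_sup_right.trans
      (hm ⟨sup_le b1 (comm_le_left n1), y3⟩ le_sup_left)
    refine ⟨H2.cj x⁻¹ Y, H7.cj_le_iff.2 (by rwa [inv_inv]), by rwa [H2.card_cj], ?_⟩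
    rw [H2.cj_cj_inv, le_cmod, commutator_comm]
    exact ⟨le_nrm_of_comm_le' b1 l, l⟩
  set T := cmod B Q
  have nX : ¬ X ≤ T := fun e => nQ (e2.trans (by rw [commutator_comm]; exact (le_cmod.1 e).2))
  obtain ⟨Y, y1, y2, y3⟩ := key 1 (one_mem R)
  rw [H2.cj_one] at y3
  have hXY : X ≠ Y := fun e => nX (e ▸ y3)
  have k2 : ∀ x ∈ R, H2.cj x Y ≤ T := fun x hx => by
    obtain ⟨W, w1, w2, w3⟩ := key x hx
    by_cases e : W = Y
    · exact e ▸ w3
    refine absurd (fun a ha => ?_) nX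
    have hs : A ≤ R ⊔ T ⊓ (R ⊔ A) := by
      refine (sup_eq_of_p2 eA oA w1 y1 w2 y2 e).ge.trans (sup_le ((H2.cj_le_cj_iff (g := x)).1 ?_)
        (le_sup_of_le_right (le_inf y3 (y1.trans le_sup_right))))
      rw [cj_of_mem (mem_sup_left hx)]
      exact le_sup_of_le_right (le_inf w3 (cj_le_of_mem (mem_sup_left hx) (w1.trans le_sup_right)))
    have hn' : T ⊓ (R ⊔ A) ≤ nrm R := inf_le_right.trans (sup_le (le_nrm_self R) hAR)
    obtain ⟨u, hu, t, ht, e⟩ := (mem_sup_nrm' hn').1 (hs (hX ha))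
    have c : Commute u⁻¹ a := (mem_cen.1 (hRX (inv_mem hu)) a ha).symm
    have e' : t ^ ord R = a ^ ord R := by
      rw [show t = u⁻¹ * a by rw [← e, inv_mul_cancel_left], c.mul_pow,
        pow_card_eq_one'' (inv_mem hu), one_mul]
    exact mem_of_pow_mem' (e' ▸ pow_mem ht.1 _)
      (hc'.symm.coprime_dvd_right (orderOf_dvd_card' (hX ha)))
  have k3 : R ≤ T := by
    have cop : Cop Y R := ⟨y1.trans hAR, coprime_mono hc' y1 le_rfl, Or.inl (solv_of_comm (eA.of_le y1).comm)⟩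
    rw [← cop.comm_eq (eq_bot_mono (le_inf inf_le_left ?_) h3), commutator_le]
    · intro x hx y hy
      rw [commutatorElement_def]
      exact mul_mem (k2 x hx (H2.conj_mem_cj hy)) (inv_mem (y3 hy))
    · rw [← sup_eq_of_p2 eA oA hX y1 oX y2 hXY]
      exact le_cen_sup (inf_le_left.trans hRX) inf_le_right
  exact nQ (e1.trans (by rw [commutator_comm]; exact (le_cmod.1 k3).2))

theorem ward_core [hp : Fact p.Prime] [Fact s.Prime] [Fact q.Prime] (hAK : A ≤ nrm K)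
    (eA : EA p A) (oA : ord A = p ^ 2) (hc : (ord A).Coprime (ord K)) (h0 : K ⊓ cen A = ⊥)
    (hP : IsPGroup s P) (hPK : P ≤ K) (hQK : Q ≤ K) (hRK : R ≤ K) (hKP : K ≤ nrm P)
    (hAP : A ≤ nrm P) (hAQ : A ≤ nrm Q) (hAR : A ≤ nrm R) (hRQ : R ≤ nrm Q) (hQ : IsPGroup q Q)
    (hqs : q ≠ s) (hR : (ord R).Coprime q) (hf : Q ⊓ cen P = ⊥) : R ≤ cen Q := by
  have sA := solv_of_comm eA.comm
  refine Cop.le_of_p2 ⟨hAR, coprime_mono hc le_rfl hRK, Or.inl sA⟩ eA oA fun X hX oX => ?_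
  set S := R ⊓ cen X with hS
  have hSK : S ≤ K := inf_le_left.trans hRK
  have hAS : A ≤ nrm S := nrm_inf hAR (nrm_cen (eA.le_nrm hX))
  have hSQ : S ≤ nrm Q := inf_le_left.trans hRQ
  have hSq : (ord S).Coprime q := coprime_of_le inf_le_left hR
  obtain ⟨D, d1, -, d2, d3, -, d4⟩ := exists_critical hQ (sup_le hSQ hAQ)
  refine cen_of_cen_critical hQ d1 d4 hSQ hSq (comm_eq_bot'.1 ?_)
  have hSD : S ≤ nrm D := le_sup_left.trans d2
  set U := ⁅D, S⁆ with hU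
  have hUD : U ≤ D := comm_le_left hSD
  have hUQ := hUD.trans d1
  have hUK := hUQ.trans hQK
  have hSU : S ≤ nrm U := normalizer_commutator_ge_right _ _
  have hAU : A ≤ nrm U := nrm_commutator (le_sup_right.trans d2) hAS
  have u1 : ⁅U, S⁆ = U := (cop_of_pgroup' hSq (hQ.to_le d1) hSD).comm_comm
  have u2 : ⁅U, U⁆ ≤ cen U := ((commutator_mono hUD hUQ).trans d3).trans
    (inf_le_right.trans (cen_anti hUD))
  have u3 : U ≤ ⁅U, X⁆ := by
    obtain ⟨Y, y1, y2, y3⟩ : ∃ Y ≤ A, ord Y = p ∧ Y ≠ X := by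
      obtain ⟨a, ha, ha'⟩ := SetLike.exists_of_lt (lt_of_card_p oA hX oX)
      exact ⟨zpowers a, zpowers_le.2 ha, by
        rw [card_zpowers_eq, eA.orderOf ha fun e => ha' (e ▸ one_mem X)],
        fun e => ha' (e ▸ mem_zpowers a)⟩
    have hN : Group.IsNilpotent (K ⊓ cen X : Subgroup G) := nilp_of_fpf
      (y1.trans (nrm_inf hAK (nrm_cen (eA.le_nrm hX)))) (y2 ▸ hp.out) (by
        rw [inf_assoc, ← cen_sup, sup_eq_of_p2 eA oA hX y1 oX y2 y3.symm, h0])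
    have h1 : U ⊓ cen X ≤ cen S := nilp_cen_of_coprime hN (inf_le_inf_right _ hUK)
      (inf_le_inf_right _ hRK) (coprime_of_isPGroup (hQ.to_le (inf_le_left.trans hUQ)) hSq).symm
    have cop : Cop X U := ⟨hX.trans hAU, coprime_mono hc hX hUK, Or.inl (solv_of_le hX sA)⟩
    have n1 : S ≤ nrm ⁅U, X⁆ := nrm_commutator hSU (le_nrm_of_le_cen inf_le_right)
    calc U = ⁅⁅U, X⁆ ⊔ U ⊓ cen X, S⁆ := by rw [cop.comm_sup_cen, u1]
      _ ≤ _ := comm_sup_le (le_nrm_self _) (inf_le_left.trans (normalizer_commutator_ge_left _ _))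
        (comm_le_left n1) ((comm_eq_bot.2 h1).le.trans bot_le)
  have hUs : (ord U).Coprime s := coprime_pgroup (hQ.to_le hUQ) hqs
  refine eq_bot_mono (le_inf hUQ (cen_of_sections (A := U ⊔ S ⊔ A) (solv_of_isPGroup hP)
    (sup_le ((sup_le hUK hSK).trans hKP) hAP) (coprime_of_isPGroup hP hUs)
    fun N L l1 l2 l3 l4 l5 r hr he hi => ?_)) hf
  haveI := Fact.mk hr
  have uN := (le_sup_left.trans le_sup_left).trans l3
  have sN := (le_sup_right.trans le_sup_left).trans l3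
  have aN := le_sup_right.trans l3
  have uL := (le_sup_left.trans le_sup_left).trans l4
  have sL := (le_sup_right.trans le_sup_left).trans l4
  have aL := le_sup_right.trans l4
  have hb := im_qm_ne_bot l1 l5
  have cAP : (ord A).Coprime (ord P) := coprime_mono hc le_rfl hPK
  have iA : A ⊓ kr (qm N) = ⊥ := by
    rw [kr_qm]; exact eq_bot_of_coprime (coprime_mono cAP le_rfl (l1.le.trans l2))
  have fx : ∀ W ≤ K, W ≤ nrm N → A ≤ nrm W → im (qm N) W ⊓ cen (im (qm N) A) = ⊥ :=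
    fun W w1 w2 w3 => by
      rw [im_cen_of_cop ⟨w3, coprime_mono hc le_rfl w1, Or.inl sA⟩ aN w2,
        eq_bot_mono (inf_le_inf_right _ w1) h0, im_bot]
  have cp : ∀ W ≤ K, (ord (im (qm N) A)).Coprime (ord (im (qm N) W)) := fun W w1 =>
    ((coprime_mono hc le_rfl w1).coprime_dvd_left (card_im_dvd _ _)).coprime_dvd_right
      (card_im_dvd _ _)
  have := ward_EA he (im_le_nrm _ uL) (im_le_nrm _ aL) (im_le_nrm _ sL) (im_le_nrm _ hAU)
    (im_le_nrm _ hSU) (im_le_nrm _ hAS) (eA.im _) (by rw [card_im_of_inf_eq_bot aN iA, oA])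
    (coprime_of_EA_im he hb l2 (coprime_of_isPGroup hP hUs)) (coprime_of_EA_im he hb l2 cAP)
    (cp U hUK) (cp S hSK) (by rw [← im_commutator uN uN]; exact im_le_cen _ u2)
    (fx U hUK uN hAU) (fx L (l2.trans hPK) l5 aL) (fx S hSK sN hAS) (im_mono _ hX)
    (by rw [card_im_of_inf_eq_bot (hX.trans aN) (eq_bot_mono (inf_le_inf_right _ hX) iA), oX])
    (im_le_cen _ inf_le_right) (by rw [← im_commutator uN sN, u1])
    (by rw [← im_commutator uN (hX.trans aN)]; exact im_mono _ u3) hb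
  rcases hi (L ⊓ cmod N U) (le_inf l1.le (le_cmod.2 ⟨le_nrm_self N, comm_le_left uN⟩)) inf_le_left
    (nrm_inf l4 (nrm_cmod l3 (sup_le (sup_le (le_nrm_self U) hSU) hAU))) with e | e
  · refine absurd (eq_bot_iff.2 fun z hz => ?_) this
    obtain ⟨y, hy, rfl⟩ := (mem_im_of_le l5).1 hz.1
    have : y ∈ L ⊓ cmod N U := ⟨hy, zpowers_le.1 (le_cmod.2 ⟨zpowers_le.2 (l5 hy),
      (im_qm_le_cen (zpowers_le.2 (l5 hy)) uN).1 (by
        rw [im_zpowers (l5 hy)]; exact zpowers_le.2 hz.2)⟩)⟩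
    rw [mem_bot, ev_eq_one_iff (l5 hy), kr_qm]; exact e ▸ this
  · exact (le_cmod.1 (inf_eq_left.1 e)).2

theorem ward_quot [hp : Fact p.Prime] [Fact s.Prime] (hK : Group.IsSolvable K) (hAK : A ≤ nrm K)
    (eA : EA p A) (oA : ord A = p ^ 2) (hc : (ord A).Coprime (ord K)) (h0 : K ⊓ cen A = ⊥)
    (hO : Op' s K = ⊥) : Group.IsNilpotent (im (qm (Op s K)) K) := by
  set P := Op s K
  have hn : K ≤ nrm P := le_nrm_Opi _ _
  have hAP : A ≤ nrm P := nrm_Opi _ hAK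
  have cop : Cop A K := ⟨hAK, hc, Or.inr hK⟩
  set H := im (qm P) K
  refine nilp_of_le (le_Fit_of_pRes (solv_im _ hK) le_rfl (le_nrm_self H) fun q hq => ?_) (nilp_Fit H)
  haveI := Fact.mk hq
  by_cases hqs : q = s
  · subst hqs
    rw [show Op q H = ⊥ from Opi_im_qm _ _]; exact le_cen_bot _
  set Y := Omod {q} P K
  have hAY : A ≤ nrm Y := nrm_Omod _ hAP hAK
  obtain ⟨Q, hQ, hAQ⟩ := (cop.right (Omod_le _ _ _) hAY).exists_syl q
  have hQK := hQ.le.trans (Omod_le _ _ _)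
  have e1 : P ⊔ Q = Y := syl_Omod_sup hQ (Opi_le _ _) hn
  have e2 : im (qm P) Q = Op q H := by
    rw [← im_qm_sup' (hQK.trans hn), e1, im_qm_Omod _ hn]
  have e3 : im (qm P) (K ⊓ nrm Q) = H := by
    have : K ⊓ nrm Q ⊔ Y = K := syl_frattini hQ (Omod_le _ _ _) (le_nrm_Omod _ _ _)
    rw [← e1, sup_comm P, ← sup_assoc, sup_eq_left.2 (le_inf hQK (le_nrm_self Q))] at this
    rw [← im_qm_sup (inf_le_left.trans hn), this]
  refine pRes_le_of_sylows (nrm_cen (le_nrm_Opi _ H)) fun r hr hrq => ?_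
  haveI := Fact.mk hr
  obtain ⟨R, hR, hAR⟩ := (cop.right inf_le_left (nrm_inf hAK (nrm_nrm hAQ))).exists_syl r
  refine ⟨_, e3 ▸ syl_im hR (inf_le_left.trans hn) _, ?_⟩
  rw [← e2]
  refine im_le_cen _ (ward_core hAK eA oA hc h0 (isPGroup_Op s K) (Opi_le _ _) hQK
    (hR.le.trans inf_le_left) hn hAP hAQ hAR (hR.le.trans inf_le_right) hQ.isPGroup hqs
    (coprime_pgroup hR.isPGroup hrq) (eq_bot_mono (le_inf ((inf_le_inf_right _ hQK).trans
      (cen_Op_le hK hO)) inf_le_left) (inf_eq_bot_of_isPGroup (isPGroup_Op s K)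
        (coprime_pgroup hQ.isPGroup hqs))))

/-- Ward's theorem. -/
theorem ward [hp : Fact p.Prime] (hK : Group.IsSolvable K) (hAK : A ≤ nrm K)
    (eA : EA p A) (oA : ord A = p ^ 2) (h0 : K ⊓ cen A = ⊥) (hD : D ≤ K) (h : D ≤ ⁅D, K⁆) :
    Group.IsNilpotent D := by
  have hc : (ord A).Coprime (ord K) := by
    rw [oA]
    refine (((Nat.Prime.coprime_iff_not_dvd hp.out).2 fun hd => ?_)).pow_left _
    obtain ⟨P, h1, h2⟩ := exists_syl_inv eA.isPGroup hAK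
    exact pgroup_inf_cen_ne_bot' eA.isPGroup h1.isPGroup h2 (syl_ne_bot h1 hd)
      (eq_bot_mono (inf_le_inf_right _ h1.le) h0)
  refine nilp_of_npc fun s hs _ => ?_
  haveI := Fact.mk hs
  set N := Op' s K
  have hn : K ≤ nrm N := le_nrm_Opi _ _
  have hAN : A ≤ nrm N := nrm_Opi _ hAK
  have hq := ward_quot (s := s) (solv_im (qm N) hK) (im_le_nrm _ hAK) (eA.im _)
    (by rw [card_im_of_inf_eq_bot hAN (by
      rw [kr_qm]; exact eq_bot_of_coprime (coprime_mono hc le_rfl (Opi_le _ _))), oA])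
    ((hc.coprime_dvd_left (card_im_dvd _ _)).coprime_dvd_right (card_im_dvd _ _))
    (by rw [im_cen_of_cop ⟨hAK, hc, Or.inr hK⟩ hAN hn, h0, im_bot]) (Opi_im_qm _ _)
  refine npc_of_im (hD.trans hn) (by
    rw [kr_qm]; exact coprime_of_le inf_le_right (coprime_Op' s K)) (npc_of_pgroup ?_)
  set K' := im (qm N) K
  have hn' : K' ≤ nrm (Op s K') := le_nrm_Opi _ _
  have hD' : im (qm N) D ≤ K' := im_mono _ hD
  refine (isPGroup_Op s K').to_le ((im_qm_eq_bot (hD'.trans hn')).1 (le_bot_iff.1 ?_))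
  refine nilp_le_of_le_sup_comm hq (im_mono _ hD') (le_nrm_bot _) ?_
  rw [bot_sup_eq, ← im_commutator (hD'.trans hn') hn', ← im_commutator (hD.trans hn) hn]
  exact im_mono _ (im_mono _ h)

section four
variable {σ x : G}

/-- for a fixed-point-free automorphism, `x ↦ [σ, x⁻¹]` is onto -/
theorem exists_eq_comm (hσ : σ ∈ nrm K) (h0 : K ⊓ cen1 σ = ⊥) (hx : x ∈ K) :
    ∃ g ∈ K, σ * g⁻¹ * σ⁻¹ * g = x := by
  let f : K → K := fun g => ⟨σ * g⁻¹ * σ⁻¹ * g, mul_mem (nconj_mem hσ (inv_mem g.2)) g.2⟩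
  have hf : Function.Injective f := fun a b e => by
    have e : σ * a⁻¹ * σ⁻¹ * a = σ * b⁻¹ * σ⁻¹ * b := congrArg Subtype.val e
    have : (a : G) * (b : G)⁻¹ ∈ K ⊓ cen1 σ := ⟨K.mul_mem a.2 (K.inv_mem b.2), mem_cen1.2 (by
      have e2 : (b : G) = σ * b * σ⁻¹ * (σ * (a : G)⁻¹ * σ⁻¹ * a) := by
        simp only [coe_inv] at e; rw [e]; group
      calc (a : G) * (b : G)⁻¹ * σ = a * (σ * b * σ⁻¹ * (σ * (a : G)⁻¹ * σ⁻¹ * a))⁻¹ * σ := by
            rw [← e2]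
        _ = _ := by group)⟩
    rw [h0, mem_bot, mul_inv_eq_one] at this
    exact Subtype.ext this
  obtain ⟨g, hg⟩ := (Finite.injective_iff_surjective.1 hf) ⟨x, hx⟩
  exact ⟨g, g.2, congrArg Subtype.val hg⟩

theorem eq_one_of_conj_fpf (hσ : σ ∈ nrm K) (h0 : K ⊓ cen1 σ = ⊥) {c : G} (hc : c ∈ K) (hx : x ∈ K)
    (e : σ * c * σ⁻¹ = x * c * x⁻¹) : c = 1 := by
  obtain ⟨g, hg, rfl⟩ := exists_eq_comm hσ h0 hx
  have : g * c * g⁻¹ ∈ K ⊓ cen1 σ := ⟨K.mul_mem (K.mul_mem hg hc) (K.inv_mem hg), mem_cen1.2 (by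
    calc g * c * g⁻¹ * σ = σ * g * σ⁻¹ * (σ * g⁻¹ * σ⁻¹ * g * c * (σ * g⁻¹ * σ⁻¹ * g)⁻¹) *
          (σ * g⁻¹) := by group
      _ = _ := by rw [← e]; group)⟩
  rw [h0, mem_bot] at this
  simpa using this

theorem comm_of_inverted (hσ : σ ∈ nrm K) (h0 : K ⊓ cen1 σ = ⊥) (hx : x ∈ K)
    (e : σ ^ 2 * x * (σ ^ 2)⁻¹ = x⁻¹) : Commute x (σ * x * σ⁻¹) := by
  have hy := nconj_mem hσ hx
  set y := σ * x * σ⁻¹ with hy'
  have e1 : σ * y * σ⁻¹ = x⁻¹ := by rw [← e, hy', pow_two]; group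
  have := eq_one_of_conj_fpf hσ h0 (c := x⁻¹ * y⁻¹ * x * y)
    (mul_mem (mul_mem (mul_mem (inv_mem hx) (inv_mem hy)) hx) hy) hx (by
      calc σ * (x⁻¹ * y⁻¹ * x * y) * σ⁻¹ =
          (σ * x * σ⁻¹)⁻¹ * (σ * y * σ⁻¹)⁻¹ * (σ * x * σ⁻¹) * (σ * y * σ⁻¹) := by group
        _ = _ := by rw [e1, ← hy']; group)
  calc x * y = y * x * (x⁻¹ * y⁻¹ * x * y) := by group
    _ = y * x := by rw [this, mul_one]

theorem isComm_of_sq_cen (hσ : σ ∈ nrm K) (h0 : K ⊓ cen1 σ = ⊥) (h : σ ^ 2 ∈ cen K) :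
    IsMulCommutative K := by
  have inv : ∀ x ∈ K, σ * x * σ⁻¹ = x⁻¹ := fun x hx => by
    obtain ⟨g, hg, rfl⟩ := exists_eq_comm hσ h0 hx
    have := conj_eq_of_mem_cen h (inv_mem hg)
    calc σ * (σ * g⁻¹ * σ⁻¹ * g) * σ⁻¹ = σ ^ 2 * g⁻¹ * (σ ^ 2)⁻¹ * (σ * g * σ⁻¹) := by
          rw [pow_two]; group
      _ = _ := by rw [this]; group
  refine isComm_iff'.2 fun a ha b hb => inv_injective ?_
  rw [← inv _ (mul_mem ha hb), ← conj_mul, inv a ha, inv b hb, mul_inv_rev]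

theorem cop_four (h4 : σ ^ 4 = 1) (hσ : σ ∈ nrm K) (h0 : K ⊓ cen1 σ = ⊥) : (ord K).Coprime 2 := by
  haveI : Fact (Nat.Prime 2) := ⟨Nat.prime_two⟩
  refine coprime_iff_not_dvd.2 fun hd => ?_
  have h2 : IsPGroup 2 (zpowers σ) := H7.isPGroup_zpowers (k := 2) h4
  obtain ⟨P, h1, h3⟩ := exists_syl_inv h2 (zpowers_le.2 hσ)
  exact pgroup_inf_cen_ne_bot' h2 h1.isPGroup h3 (syl_ne_bot h1 hd)
    (eq_bot_mono (inf_le_inf h1.le (cen_zpowers σ).le) h0)

theorem four_quot [Fact s.Prime] (hK : Group.IsSolvable K) (h4 : σ ^ 4 = 1) (hσ : σ ∈ nrm K)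
    (h0 : K ⊓ cen1 σ = ⊥) (hO : Op' s K = ⊥) : ⁅K, K⁆ ≤ Op s K := by
  haveI : Fact (Nat.Prime 2) := ⟨Nat.prime_two⟩
  have h2 : IsPGroup 2 (zpowers σ) := H7.isPGroup_zpowers (k := 2) h4
  have ho := cop_four h4 hσ h0
  have hAK := zpowers_le.2 hσ
  have cop := cop_of_pgroup h2 ho hAK
  set P := Op s K
  have hn : K ≤ nrm P := le_nrm_Opi _ _
  have hAP : zpowers σ ≤ nrm P := nrm_Opi _ hAK
  have hσP := hAP (mem_zpowers σ)
  set H := im (qm P) K
  set Y := K ⊓ pre (qm P) (Fit H)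
  have hAY : zpowers σ ≤ nrm Y := nrm_inf hAK (le_nrm_pre hAP (nrm_Fit (im_le_nrm _ hAK)))
  obtain ⟨Q, hQ, hAQ⟩ := (cop.right inf_le_left hAY).exists_hall (solv_of_le inf_le_left hK) {s}ᶜ
  have hQK := hQ.le.trans inf_le_left
  have eY : im (qm P) Y = Fit H := by rw [im_inf_pre, inf_eq_right.2 (Fit_le H)]
  have e1 : im (qm P) Q = Fit H := by
    have := hQ.im (inf_le_left.trans hn) (qm P)
    rw [eY] at this
    exact (this.eq_of_le this.le le_rfl ((piN_Opi _ _).of_le (Fit_le_Opi (by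
      rw [compl_compl]; exact Opi_im_qm _ _)))).symm
  have hQs := piN_compl_iff.1 hQ.pi
  have t2 : σ ^ 2 * σ ^ 2 = 1 := by rw [← pow_add, h4]
  have key : ∀ x ∈ Q, σ ^ 2 * x * (σ ^ 2)⁻¹ = x⁻¹ → x = 1 := fun x hx e => by
    have c := comm_of_inverted hσ h0 (hQK hx) e
    have hy := conj_mem hAQ (mem_zpowers σ) hx
    set y := σ * x * σ⁻¹ with hy'
    have e1 : σ * y * σ⁻¹ = x⁻¹ := by rw [← e, hy', pow_two]; group
    have cc : zpowers x ≤ cen (zpowers y) := by rw [cen_zpowers, zpowers_le]; exact mem_cen1.2 c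
    set X := zpowers x ⊔ zpowers y
    have hXQ : X ≤ Q := sup_le (zpowers_le.2 hx) (zpowers_le.2 hy)
    have nX : zpowers σ ≤ nrm X := zpowers_le.2 (mem_nrm_of_cj_le (by
      rw [H7.cj_sup, H7.cj_zpowers, H7.cj_zpowers, e1, zpowers_inv, sup_comm]))
    have hX : IsMulCommutative X := isComm_sup (isComm_zpowers x) (isComm_zpowers y) cc
    have inv : ∀ u ∈ X, σ ^ 2 * u * (σ ^ 2)⁻¹ = u⁻¹ := fun u hu => by
      obtain ⟨a, ⟨i, rfl⟩, b, ⟨j, rfl⟩, rfl⟩ := (mem_sup_nrm (le_nrm_of_le_cen cc)).1 hu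
      have e2 : σ ^ 2 * y * (σ ^ 2)⁻¹ = y⁻¹ := by
        calc σ ^ 2 * y * (σ ^ 2)⁻¹ = σ * (σ * y * σ⁻¹) * σ⁻¹ := by rw [pow_two]; group
          _ = _ := by rw [e1, hy']; group
      simp only
      rw [← conj_mul, ← conj_zpow, ← conj_zpow, e, e2, inv_zpow, inv_zpow, mul_inv_rev (x ^ i)]
      exact (c.zpow_zpow i j).inv_inv
    have reg : Reg (zpowers σ) X := fun a ha a1 => eq_bot_iff.2 fun u hu => by
      have hτ : σ ^ 2 ∈ zpowers a := by
        classical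
        have hm := mem_zpowers_iff_mem_range_orderOf.1 ha
        obtain ⟨i, hi, rfl⟩ := Finset.mem_image.1 hm
        have : i < 4 := (Finset.mem_range.1 hi).trans_le (orderOf_le_of_pow_eq_one (by norm_num) h4)
        interval_cases i
        · exact absurd (pow_zero σ) a1
        · exact ⟨2, by simp [zpow_ofNat]⟩
        · exact mem_zpowers _
        · exact ⟨2, by simp only [zpow_ofNat]; rw [← pow_mul, show 3 * 2 = 4 + 2 by rfl, pow_add, h4, one_mul]⟩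
      have h5 := inv u hu.1
      rw [conj_eq_of_mem_cen (A := zpowers u) (by
        rw [cen_zpowers]; exact zpowers_le.2 (mem_cen1_comm.1 hu.2) hτ) (mem_zpowers u)] at h5
      refine mem_of_pow_mem' (n := 2) (by rw [pow_two]; nth_rw 2 [h5]; simp) ?_
      exact (ho.coprime_dvd_left (orderOf_dvd_card' (hQK (hXQ hu.1)))).symm
    have := cen_of_frob (solv_of_le (Opi_le _ _) hK) ((hXQ.trans hQK).trans hn) hAP nX reg
      (coprime_of_isPGroup (isPGroup_Op s K) (coprime_of_le hXQ hQs))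
      (coprime_mono cop.cop le_rfl (Opi_le _ _))
      (eq_bot_mono (inf_le_inf (Opi_le _ _) (cen_zpowers σ).le) h0)
    have hx' : x ∈ X := mem_sup_left (mem_zpowers x)
    exact (inf_eq_bot_of_isPGroup (isPGroup_Op s K) hQs).le
      ⟨cen_Op_le hK hO ⟨hQK hx, this hx'⟩, hx⟩
  have hτ : zpowers (σ ^ 2) ≤ zpowers σ := zpowers_le.2 (pow_mem (mem_zpowers σ) 2)
  have k1 : zpowers (σ ^ 2) ≤ cen Q := zpowers_le.2 (mem_cen.2 fun u hu => by
    have := key (u * (σ ^ 2 * u⁻¹ * (σ ^ 2)⁻¹)) (mul_mem hu (conj_mem hAQ (hτ (mem_zpowers _))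
      (inv_mem hu))) (by
        calc σ ^ 2 * (u * (σ ^ 2 * u⁻¹ * (σ ^ 2)⁻¹)) * (σ ^ 2)⁻¹ =
            σ ^ 2 * u * (σ ^ 2)⁻¹ * ((σ ^ 2 * σ ^ 2) * u⁻¹ * (σ ^ 2 * σ ^ 2)⁻¹) := by group
          _ = _ := by rw [t2]; group)
    calc u * σ ^ 2 = u * (σ ^ 2 * u⁻¹ * (σ ^ 2)⁻¹) * (σ ^ 2 * u) := by group
      _ = _ := by rw [this, one_mul])
  have k2 := cen_of_cen_Fit (solv_im (qm P) hK) (im_le_nrm _ (hτ.trans hAK))
    (((coprime_mono cop.cop hτ le_rfl).coprime_dvd_left (card_im_dvd _ _)).coprime_dvd_right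
      (card_im_dvd _ _)) (by rw [← e1]; exact im_le_cen _ k1)
  rw [im_zpowers (pow_mem hσP 2), zpowers_le, ev_pow hσP] at k2
  refine (im_qm_le_cen hn hn).1 (isComm_iff.1 (isComm_of_sq_cen
    (im_le_nrm (qm P) hAK (ev_mem_im (mem_zpowers σ))) ?_ k2))
  rw [im_cen1_of_coprime hAP hn hAK cop.cop (mem_zpowers σ), h0, im_bot]

/-- Gorenstein–Herstein: fixed-point-free automorphisms of order dividing `4`. -/
theorem nilp_der_of_four (hK : Group.IsSolvable K) (h4 : σ ^ 4 = 1) (hσ : σ ∈ nrm K)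
    (h0 : K ⊓ cen1 σ = ⊥) : Group.IsNilpotent (⁅K, K⁆ : Subgroup G) := by
  haveI : Fact (Nat.Prime 2) := ⟨Nat.prime_two⟩
  have h2 : IsPGroup 2 (zpowers σ) := H7.isPGroup_zpowers (k := 2) h4
  have hAK := zpowers_le.2 hσ
  have cop := cop_of_pgroup h2 (cop_four h4 hσ h0) hAK
  refine nilp_of_npc fun s hs _ => ?_
  haveI := Fact.mk hs
  set N := Op' s K
  have hn : K ≤ nrm N := le_nrm_Opi _ _
  have hAN : zpowers σ ≤ nrm N := nrm_Opi _ hAK
  have hσN := hAN (mem_zpowers σ)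
  have hq := four_quot (s := s) (σ := ev (qm N) σ) (solv_im (qm N) hK)
    (by rw [← ev_pow hσN, h4, ev_one]) (im_le_nrm (qm N) hAK (ev_mem_im (mem_zpowers σ)))
    (by rw [im_cen1_of_coprime hAN hn hAK cop.cop (mem_zpowers σ), h0, im_bot]) (Opi_im_qm _ _)
  refine npc_of_im ((comm_le_of_le le_rfl le_rfl).trans hn) (by
    rw [kr_qm]; exact coprime_of_le inf_le_right (coprime_Op' s K)) (npc_of_pgroup ?_)
  rw [im_commutator hn hn]
  exact (isPGroup_Op s _).to_le hq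

end four

end H1B
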