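import Cfsg.Agent.H1.Mono

/-! The hexacode. -/

set_option maxRecDepth 100000
set_option linter.unusedSectionVars false

namespace H1B
open Cfsg Finset

namespace Hx

/-- a model of the field with four elements -/
abbrev K := ZMod 2 × ZMod 2

/-- multiplication -/
def mu (a b : K) : K := (a.1 * b.1 + a.2 * b.2, a.1 * b.2 + a.2 * b.1 + a.2 * b.2)

/-- the generators -/
def gen : Fin 3 → Fin 6 → K :=
  ![![(0, 1), (1, 1), (1, 1), (0, 1), (1, 1), (0, 1)],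
    ![(1, 1), (0, 1), (0, 1), (1, 1), (1, 1), (0, 1)],
    ![(1, 1), (0, 1), (1, 1), (0, 1), (0, 1), (1, 1)]]

/-- the encoder -/
def enc (v : K × K × K) (i : Fin 6) : K := mu v.1 (gen 0 i) + mu v.2.1 (gen 1 i) + mu v.2.2 (gen 2 i)

/-- parity checks -/
def chk (x : Fin 6 → K) : Prop := x 3 = x 0 + x 1 + x 2 ∧
  x 4 = mu (1, 1) (x 0) + mu (0, 1) (x 1) + x 2 ∧ x 5 = mu (0, 1) (x 0) + mu (1, 1) (x 1) + x 2

instance (x : Fin 6 → K) : Decidable (chk x) := by unfold chk; infer_instance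

theorem chk_enc : ∀ v, chk (enc v) := by decide +kernel

/-- the decoder -/
def dcd (x : Fin 6 → K) : K × K × K := 
  (mu (0, 1) (x 0) + mu (1, 1) (x 1) + mu (0, 0) (x 2),
   mu (1, 1) (x 0) + mu (1, 1) (x 1) + mu (1, 0) (x 2),
   mu (0, 0) (x 0) + mu (1, 0) (x 1) + mu (1, 0) (x 2))

theorem dcd_enc : ∀ v, dcd (enc v) = v := by decide +kernel

theorem enc_inj (v w : K × K × K) (h : ∀ i, enc v i = enc w i) : v = w := by
  rw [← dcd_enc v, funext h, dcd_enc]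

theorem wt_chk : ∀ v, (∀ i, enc v i = 0) ∨ (univ.filter fun i => enc v i ≠ 0).card = 4 ∨
    (univ.filter fun i => enc v i ≠ 0).card = 6 := by decide +kernel

theorem c4 : (univ.filter fun v => (univ.filter fun i => enc v i ≠ 0).card = 4).card = 45 := by
  decide +kernel

theorem c6 : (univ.filter fun v => (univ.filter fun i => enc v i ≠ 0).card = 6).card = 18 := by
  decide +kernel

/-- the data -/
def dat : List ((Fin 6 → Fin 6) × (Fin 6 → K)) := [(![0, 1, 2, 3, 4, 5], ![(1, 0), (1, 0), (1, 0), (1, 0), (1, 0), (1, 0)]), (![1, 0, 2, 3, 5, 4], ![(1, 0), (1, 0), (1, 0), (1, 0), (1, 0), (1, 0)]), (![2, 0, 1, 3, 4, 5], ![(1, 0), (1, 0), (1, 0), (1, 0), (1, 1), (0, 1)]), (![3, 0, 1, 2, 5, 4], ![(1, 0), (1, 0), (1, 0), (1, 0), (1, 1), (0, 1)]), (![4, 0, 1, 2, 3, 5], ![(1, 0), (1, 1), (0, 1), (1, 0), (1, 1), (0, 1)]), (![5, 0, 1, 2, 4, 3], ![(1, 0), (0, 1), (1, 1), (1, 0), (1, 1), (0, 1)]), (![0,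 2, 1, 3, 5, 4], ![(1, 0), (1, 0), (1, 0), (1, 0), (0, 1), (1, 1)]), (![0, 3, 1, 2, 4, 5], ![(1, 0), (1, 0), (1, 0), (1, 0), (0, 1), (1, 1)]), (![0, 4, 1, 2, 5, 3], ![(1, 0), (0, 1), (1, 1), (0, 1), (1, 1), (1, 0)]), (![0, 5, 1, 2, 3, 4], ![(1, 0), (1, 1), (0, 1), (1, 1), (1, 0), (0, 1)]), (![0, 1, 3, 2, 5, 4], ![(1, 0), (1, 0), (1, 0), (1, 0), (1, 0), (1, 0)]), (![0, 1, 4, 2, 3, 5], ![(1, 0), (1, 1), (0, 1), (0, 1), (0, 1), (0, 1)]), (![0, 1, 5, 2, 4, 3], ![(1, 0), (0, 1), (1, 1), (1, 1), (1, 1), (1, 1)]), (![0, 1, 2, 4, 5, 3], ![(1, 0), (1, 1), (0, 1), (0, 1), (0, 1), (0, 1)]), (![0, 1, 2, 5, 3, 4], ![(1, 0), (0, 1), (1, 1), (1, 1), (1, 1), (1, 1)])]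

theorem dat_ok' : dat.all (fun e => decide ((∀ p q, e.1 p = e.1 q → p = q) ∧ (∀ i, e.2 i ≠ 0) ∧
    ∀ j i, mu (e.2 i) (gen j (e.1 i)) = enc (dcd fun i => mu (e.2 i) (gen j (e.1 i))) i)) = true := by
  decide +kernel

theorem dat_ok : ∀ e ∈ dat, (∀ p q, e.1 p = e.1 q → p = q) ∧ (∀ i, e.2 i ≠ 0) ∧
    ∀ j i, mu (e.2 i) (gen j (e.1 i)) = enc (dcd fun i => mu (e.2 i) (gen j (e.1 i))) i :=
  fun e he => of_decide_eq_true (List.all_eq_true.1 dat_ok' e he)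

theorem dat_step : ∀ k < 4, ∀ q : Fin 6, (∀ j < k, q ≠ Fin.ofNat 6 j) →
    ∃ e ∈ dat, (∀ j < k, e.1 (Fin.ofNat 6 j) = Fin.ofNat 6 j) ∧ e.1 (Fin.ofNat 6 k) = q := by
  decide +kernel

variable {F : Type*} [Field F] [Fintype F] [DecidableEq F] {ω : F}

/-- the identification -/
def ph (ω : F) (a : K) : F := (a.1.val : F) + (a.2.val : F) * ω

theorem two (hF : Fintype.card F = 4) : (2 : F) = 0 := by
  have h : ((4 : ℕ) : F) = 0 := hF ▸ FiniteField.cast_card_eq_zero F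
  have : (2 : F) * 2 = 0 := by rw [← h]; norm_num
  simpa using this

theorem K_cases : ∀ a : K, a = (0, 0) ∨ a = (1, 0) ∨ a = (0, 1) ∨ a = (1, 1) := by decide

theorem ph00 : ph ω (0, 0) = 0 := by simp [ph]
theorem ph10 : ph ω (1, 0) = 1 := by simp [ph, ZMod.val_one]
theorem ph01 : ph ω (0, 1) = ω := by simp [ph, ZMod.val_one]
theorem ph11 : ph ω (1, 1) = 1 + ω := by simp [ph, ZMod.val_one]

theorem val_add (hF : Fintype.card F = 4) (a b : ZMod 2) :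
    ((a + b).val : F) = a.val + b.val := by
  haveI : CharP F 2 := CharTwo.of_one_ne_zero_of_two_eq_zero one_ne_zero (two hF)
  simp only [ZMod.natCast_val]
  exact ZMod.cast_add (dvd_refl 2) a b

theorem val_mul (hF : Fintype.card F = 4) (a b : ZMod 2) :
    ((a * b).val : F) = a.val * b.val := by
  haveI : CharP F 2 := CharTwo.of_one_ne_zero_of_two_eq_zero one_ne_zero (two hF)
  simp only [ZMod.natCast_val]
  exact ZMod.cast_mul (dvd_refl 2) a b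

theorem ph_add (hF : Fintype.card F = 4) (a b : K) : ph ω (a + b) = ph ω a + ph ω b := by
  simp only [ph, Prod.fst_add, Prod.snd_add, val_add hF]; ring

theorem ph_mu (hF : Fintype.card F = 4) (hω : ω ^ 2 + ω + 1 = 0) (a b : K) :
    ph ω (mu a b) = ph ω a * ph ω b := by
  simp only [ph, mu, val_add hF, val_mul hF]
  linear_combination (-(a.2.val : F) * b.2.val) * hω + ((a.2.val : F) * b.2.val * (ω + 1)) * two hF

theorem ph_eq_zero (hF : Fintype.card F = 4) (hω : ω ^ 2 + ω + 1 = 0) {a : K} :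
    ph ω a = 0 ↔ a = 0 := by
  refine ⟨fun h => ?_, fun h => h ▸ ph00⟩
  rcases K_cases a with rfl | rfl | rfl | rfl
  · rfl
  · rw [ph10] at h; exact absurd h one_ne_zero
  · rw [ph01] at h; simp [h] at hω
  · rw [ph11] at h
    have : (1 : F) = 0 := by linear_combination hω - ω * h
    exact absurd this one_ne_zero

theorem ph_inj (hF : Fintype.card F = 4) (hω : ω ^ 2 + ω + 1 = 0) : Function.Injective (ph ω) := by
  intro a b h
  have h1 : ph ω (a + b) = 0 := by rw [ph_add hF, h]; linear_combination ph ω b * two hF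
  rw [ph_eq_zero hF hω] at h1
  exact (by decide : ∀ a b : K, a + b = 0 → a = b) a b h1

theorem ph_surj (hF : Fintype.card F = 4) (hω : ω ^ 2 + ω + 1 = 0) :
    Function.Surjective (ph ω) :=
  ((Fintype.bijective_iff_injective_and_card _).2 ⟨ph_inj hF hω, by rw [hF]; decide⟩).2

theorem hex_eq (hF : Fintype.card F = 4) (hω : ω ^ 2 + ω + 1 = 0) :
    hexacode F ω = Submodule.span F {fun i => ph ω (gen 0 i), fun i => ph ω (gen 1 i),
      fun i => ph ω (gen 2 i)} := by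
  have h : ω ^ 2 = 1 + ω := by linear_combination hω - (1 + ω) * two hF
  have e0 : (fun i => ph ω (gen 0 i)) = ![ω, 1 + ω, 1 + ω, ω, 1 + ω, ω] := by
    funext i; fin_cases i
    exacts [ph01, ph11, ph11, ph01, ph11, ph01]
  have e1 : (fun i => ph ω (gen 1 i)) = ![1 + ω, ω, ω, 1 + ω, 1 + ω, ω] := by
    funext i; fin_cases i
    exacts [ph11, ph01, ph01, ph11, ph11, ph01]
  have e2 : (fun i => ph ω (gen 2 i)) = ![1 + ω, ω, 1 + ω, ω, ω, 1 + ω] := by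
    funext i; fin_cases i
    exacts [ph11, ph01, ph11, ph01, ph01, ph11]
  rw [hexacode, h, e0, e1, e2]

theorem mem_iff (hF : Fintype.card F = 4) (hω : ω ^ 2 + ω + 1 = 0) {x : Fin 6 → F} :
    x ∈ hexacode F ω ↔ ∃ v, (fun i => ph ω (enc v i)) = x := by
  rw [hex_eq hF hω, Submodule.mem_span_triple]
  constructor
  · rintro ⟨a, b, c, rfl⟩
    obtain ⟨a, rfl⟩ := ph_surj hF hω a
    obtain ⟨b, rfl⟩ := ph_surj hF hω b
    obtain ⟨c, rfl⟩ := ph_surj hF hω c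
    exact ⟨(a, b, c), funext fun i => by simp [enc, ph_add hF, ph_mu hF hω]⟩
  · rintro ⟨v, rfl⟩
    exact ⟨ph ω v.1, ph ω v.2.1, ph ω v.2.2, funext fun i => by simp [enc, ph_add hF, ph_mu hF hω]⟩

theorem set_eq (hF : Fintype.card F = 4) (hω : ω ^ 2 + ω + 1 = 0) (q : (Fin 6 → F) → Prop)
    (r : K × K × K → Prop) [DecidablePred r] (h : ∀ v, q (fun i => ph ω (enc v i)) ↔ r v) :
    {x | x ∈ hexacode F ω ∧ q x}.ncard = (univ.filter r).card := by
  have hi : Function.Injective fun v i => ph ω (enc v i) := fun v w h =>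
    enc_inj v w fun i => ph_inj hF hω (congrFun h i)
  rw [← Set.ncard_coe_finset, ← Set.ncard_image_of_injective _ hi]
  congr 1
  ext x
  simp only [Set.mem_setOf_eq, coe_filter, mem_univ, true_and, Set.mem_image, mem_iff hF hω]
  exact ⟨by rintro ⟨⟨v, rfl⟩, h1⟩; exact ⟨v, (h v).1 h1, rfl⟩,
    by rintro ⟨v, h1, rfl⟩; exact ⟨⟨v, rfl⟩, (h v).2 h1⟩⟩

theorem par (hF : Fintype.card F = 4) (hω : ω ^ 2 + ω + 1 = 0) {x : Fin 6 → F}
    (hx : x ∈ hexacode F ω) : x 3 = x 0 + x 1 + x 2 ∧ x 4 = (1 + ω) * x 0 + ω * x 1 + x 2 ∧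
      x 5 = ω * x 0 + (1 + ω) * x 1 + x 2 := by
  obtain ⟨v, rfl⟩ := (mem_iff hF hω).1 hx
  obtain ⟨h1, h2, h3⟩ := chk_enc v
  refine ⟨?_, ?_, ?_⟩
  · simp only [h1, ph_add hF]
  · simp only [h2, ph_add hF, ph_mu hF hω, ph11, ph01]
  · simp only [h3, ph_add hF, ph_mu hF hω, ph11, ph01]

theorem row (hF : Fintype.card F = 4) (hω : ω ^ 2 + ω + 1 = 0) (r : Fin 6 → K)
    (h : ∀ i, enc (dcd r) i = r i) : (fun i => ph ω (r i)) ∈ hexacode F ω :=
  (mem_iff hF hω).2 ⟨dcd r, funext fun i => by rw [h]⟩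

theorem rows (hF : Fintype.card F = 4) (hω : ω ^ 2 + ω + 1 = 0) :
    ![1, 0, 0, 1, 1 + ω, ω] ∈ hexacode F ω ∧ ![0, 1, 0, 1, ω, 1 + ω] ∈ hexacode F ω ∧
      ![0, 0, 1, 1, 1, 1] ∈ hexacode F ω := by
  refine ⟨?_, ?_, ?_⟩
  · convert row hF hω ![(1, 0), (0, 0), (0, 0), (1, 0), (1, 1), (0, 1)] (by decide +kernel) using 1
    funext i; fin_cases i
    exacts [ph10.symm, ph00.symm, ph00.symm, ph10.symm, ph11.symm, ph01.symm]
  · convert row hF hω ![(0, 0), (1, 0), (0, 0), (1, 0), (0, 1), (1, 1)] (by decide +kernel) using 1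
    funext i; fin_cases i
    exacts [ph00.symm, ph10.symm, ph00.symm, ph10.symm, ph01.symm, ph11.symm]
  · convert row hF hω ![(0, 0), (0, 0), (1, 0), (1, 0), (1, 0), (1, 0)] (by decide +kernel) using 1
    funext i; fin_cases i
    exacts [ph00.symm, ph00.symm, ph10.symm, ph10.symm, ph10.symm, ph10.symm]

theorem diag (hF : Fintype.card F = 4) (hω : ω ^ 2 + ω + 1 = 0) (c : Fin 6 → Fˣ)
    (h : ∀ x ∈ hexacode F ω, monomialMap 1 c x ∈ hexacode F ω) (i j : Fin 6) : c i = c j := by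
  obtain ⟨r0, r1, r2⟩ := rows hF hω
  have e0 : (c 3 : F) * 1 = c 0 * 1 + c 1 * 0 + c 2 * 0 := (par hF hω (h _ r0)).1
  have e1 : (c 3 : F) * 1 = c 0 * 0 + c 1 * 1 + c 2 * 0 := (par hF hω (h _ r1)).1
  have e2 : (c 3 : F) * 1 = c 0 * 0 + c 1 * 0 + c 2 * 1 := (par hF hω (h _ r2)).1
  have e4 : (c 4 : F) * 1 = (1 + ω) * (c 0 * 0) + ω * (c 1 * 0) + c 2 * 1 :=
    (par hF hω (h _ r2)).2.1
  have e5 : (c 5 : F) * 1 = ω * (c 0 * 0) + (1 + ω) * (c 1 * 0) + c 2 * 1 :=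
    (par hF hω (h _ r2)).2.2
  simp only [mul_one, mul_zero, add_zero, zero_add] at e0 e1 e2 e4 e5
  have : ∀ i, (c i : F) = c 3 := by
    intro i; fin_cases i
    exacts [e0.symm, e1.symm, e2.symm, rfl, e4.trans e2.symm, e5.trans e2.symm]
  exact Units.ext ((this i).trans (this j).symm)

theorem swap_not (hF : Fintype.card F = 4) (hω : ω ^ 2 + ω + 1 = 0) :
    Equiv.swap 4 5 ∉ monoP (hexacode F ω) := by
  rintro ⟨c, h⟩
  obtain ⟨r0, -, r2⟩ := rows hF hω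
  have e0 : (c 3 : F) * 1 = c 0 * 1 + c 1 * 0 + c 2 * 0 := (par hF hω (h _ r0)).1
  have e1 : (c 4 : F) * ω = (1 + ω) * (c 0 * 1) + ω * (c 1 * 0) + c 2 * 0 :=
    (par hF hω (h _ r0)).2.1
  have e2 : (c 3 : F) * 1 = c 0 * 0 + c 1 * 0 + c 2 * 1 := (par hF hω (h _ r2)).1
  have e4 : (c 4 : F) * 1 = (1 + ω) * (c 0 * 0) + ω * (c 1 * 0) + c 2 * 1 :=
    (par hF hω (h _ r2)).2.1
  exact (c 0).ne_zero (by linear_combination -e1 + ω * e4 - ω * e2 + ω * e0)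

theorem step (hF : Fintype.card F = 4) (hω : ω ^ 2 + ω + 1 = 0) :
    ∀ k < 4, ∀ q : Fin 6, (∀ j < k, q ≠ Fin.ofNat 6 j) → ∃ h ∈ monoP (hexacode F ω),
      (∀ j < k, h (Fin.ofNat 6 j) = Fin.ofNat 6 j) ∧ h (Fin.ofNat 6 k) = q := by
  intro k hk q hq
  obtain ⟨e, he, h1, h2⟩ := dat_step k hk q hq
  obtain ⟨d1, d2, d3⟩ := dat_ok e he
  have key : ∀ j, (fun i => ph ω (e.2 i) * ph ω (gen j (e.1 i))) ∈ hexacode F ω := by
    intro j
    exact (mem_iff hF hω).2 ⟨_, funext fun i => by rw [← d3 j, ph_mu hF hω]⟩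
  obtain ⟨σ, hσ, h⟩ := mono_of_fun (hexacode F ω) (f := e.1) d1
    (fun i => Units.mk0 (ph ω (e.2 i)) fun h => d2 i ((ph_eq_zero hF hω).1 h))
    fun x hx => span_map_mem e.1 (fun i => ph ω (e.2 i)) (by
      rintro _ (rfl | rfl | rfl)
      exacts [key 0, key 1, key 2]) x (hex_eq hF hω ▸ hx)
  exact ⟨σ, hσ, fun j hj => (h _).trans (h1 j hj), (h _).trans h2⟩

theorem eq_alt (hF : Fintype.card F = 4) (hω : ω ^ 2 + ω + 1 = 0) :
    monoP (hexacode F ω) = alternatingGroup (Fin 6) := by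
  apply Equiv.Perm.eq_alternatingGroup_of_index_eq_two
  rw [Subgroup.index_eq_two_iff]
  have key : ∀ g, g ∈ monoP (hexacode F ω) ∨ g * Equiv.swap 4 5 ∈ monoP (hexacode F ω) := by
    intro g
    obtain ⟨h, hh, h1⟩ := chain_tr 4 (Fin.ofNat 6) (by decide) (step hF hω) g
    have h2 : h⁻¹ * g = 1 ∨ h⁻¹ * g = Equiv.swap 4 5 := by
      generalize h⁻¹ * g = u at h1
      have e0 : u 0 = 0 := h1 0 (by omega)
      have e1 : u 1 = 1 := h1 1 (by omega)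
      have e2 : u 2 = 2 := h1 2 (by omega)
      have e3 : u 3 = 3 := h1 3 (by omega)
      have n0 : ∀ i, u i = 0 ↔ i = 0 := fun i => u.injective.eq_iff' e0
      have n1 : ∀ i, u i = 1 ↔ i = 1 := fun i => u.injective.eq_iff' e1
      have n2 : ∀ i, u i = 2 ↔ i = 2 := fun i => u.injective.eq_iff' e2
      have n3 : ∀ i, u i = 3 ↔ i = 3 := fun i => u.injective.eq_iff' e3
      have n45 : u 4 ≠ u 5 := u.injective.ne (by decide)
      have hh : ∀ a b : Fin 6, a ≠ 0 → a ≠ 1 → a ≠ 2 → a ≠ 3 → b ≠ 0 → b ≠ 1 → b ≠ 2 → b ≠ 3 →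
          a ≠ b → (a = 4 ∧ b = 5) ∨ (a = 5 ∧ b = 4) := by decide
      rcases hh (u 4) (u 5) (by simp [n0]) (by simp [n1]) (by simp [n2]) (by simp [n3])
        (by simp [n0]) (by simp [n1]) (by simp [n2]) (by simp [n3]) n45 with ⟨a, b⟩ | ⟨a, b⟩
      · left; ext1 i; fin_cases i
        exacts [e0, e1, e2, e3, a, b]
      · right; ext1 i; fin_cases i
        exacts [e0, e1, e2, e3, a, b]
    rcases h2 with h2 | h2
    · exact Or.inl (inv_mul_eq_one.1 h2 ▸ hh)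
    · right
      rw [inv_mul_eq_iff_eq_mul.1 h2, mul_assoc, Equiv.swap_mul_self, mul_one]
      exact hh
  refine ⟨Equiv.swap 4 5, fun g => ?_⟩
  rcases key g with h | h
  · exact Or.inr ⟨h, fun h1 => swap_not hF hω ((Subgroup.mul_mem_cancel_left _ h).1 h1)⟩
  · refine Or.inl ⟨h, fun h1 => swap_not hF hω ((Subgroup.mul_mem_cancel_left _ h1).1 h)⟩

theorem card_diag (hF : Fintype.card F = 4) (hω : ω ^ 2 + ω + 1 = 0) :
    Nat.card {c : Fin 6 → Fˣ // ∀ x ∈ hexacode F ω, monomialMap 1 c x ∈ hexacode F ω} = 3 := by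
  have : Nat.card Fˣ = 3 := by rw [Nat.card_units, Nat.card_eq_fintype_card, hF]
  rw [← this]
  symm
  refine Nat.card_eq_of_bijective (fun u => ⟨fun _ => u, fun x hx => ?_⟩) ⟨fun u v h => ?_, ?_⟩
  · exact (hexacode F ω).smul_mem (u : F) hx
  · exact congrFun (congrArg Subtype.val h) 0
  · rintro ⟨c, hc⟩
    exact ⟨c 0, Subtype.ext (funext fun i => diag hF hω c hc 0 i)⟩

end Hx
end H1B
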