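import Cfsg.Agent.H1.LS4
import Cfsg.Agent.H7.FF4
import Cfsg.Prelude.Def_JComponents

/-! `J(T)`-components: local facts. -/

set_option linter.unusedSectionVars false

namespace H1B
open Subgroup Cfsg H7
open H1 (ncl)
open scoped commutatorElement H2

variable {G : Type*} [Group G] [Finite G] {A B C D E H J K L M N P Q R S T U V W X Y Z : Subgroup G}
  {a b c g t x y z : G}

abbrev WK (K : Subgroup G) : Subgroup G := ⁅Z1 2 (Op 2 K), K⁆

theorem sylTwo_iff : IsSylowTwoIn T L ↔ IsSylowIn 2 T L :=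
  ⟨fun h => ⟨h.1, h.2.1, fun d => Nat.not_even_iff_odd.2 h.2.2 (even_iff_two_dvd.2 d)⟩,
    fun h => ⟨h.1, h.2, Nat.not_even_iff_odd.1 fun e => h.3 e.two_dvd⟩⟩

theorem omegaCenterOf_eq : omegaCenterOf X = Z1 2 X := omegaOne_eq

theorem wOf_eq : wOf K = WK K := by rw [wOf, omegaCenterOf_eq, pCoreOf_eq]

theorem nrm_WK (h : A ≤ nrm K) : A ≤ nrm (WK K) := nrm_commutator (nrm_Z1 (nrm_Opi _ h)) h

theorem cj_WK (g : G) (K : Subgroup G) : cj g (WK K) = WK (cj g K) := by rw [cj_commutator, cj_Z1, cj_Opi]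

theorem WK_le (K : Subgroup G) : WK K ≤ Z1 2 (Op 2 K) := comm_le_left (nrm_Z1 (le_nrm_Opi _ K))

theorem ea_WK (K : Subgroup G) : EA 2 (WK K) := (ea_Z1 2 _).of_le (WK_le K)

theorem WK_le_O (K : Subgroup G) : WK K ≤ Op 2 K := (WK_le K).trans (Z1_le _ _)

theorem O_le_cen_WK (K : Subgroup G) : Op 2 K ≤ cen (WK K) := (le_cen_Z1 _ _).trans (cen_anti (WK_le K))

theorem split3 (hU : EA 2 U) (hn : K ≤ nrm U) (hR : R ≤ K) (hi : R.relIndex K = 3) (hc : R ≤ cen U) :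
    ⁅U, K⁆ ⊓ cen K = ⊥ ∧ ⁅U, K⁆ ⊔ U ⊓ cen K = U := by
  haveI : Fact (Nat.Prime 3) := ⟨Nat.prime_three⟩
  obtain ⟨P, hP⟩ := H2.exists_isSylowIn 3 K
  have e := hP.sup_eq_of_relIndex hR (k := 1) hi
  have c : (ord P).Coprime 2 := (coprime_of_isPGroup hP.2 (by decide)).symm
  have k := cop_of_pgroup' c hU.isPGroup (hP.1.trans hn)
  have h1 : ⁅U, K⁆ = ⁅U, P⁆ := le_antisymm (e ▸ comm_sup_le' (le_nrm_of_le_cen (hc.trans (cen_anti
    (comm_le_left (hP.1.trans hn))))) (nrm_comm_right _ _) ((comm_eq_bot'.2 hc).le.trans bot_le) le_rfl)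
    (commutator_mono le_rfl hP.1)
  refine ⟨eq_bot_iff.2 ((inf_le_inf h1.le (cen_anti hP.1)).trans (comm_inf_cen_of_comm hU.comm (hP.1.trans hn)
    (coprime_of_isPGroup hU.isPGroup c)).le), le_antisymm (sup_le (comm_le_left hn) inf_le_left)
    (k.comm_sup_cen.ge.trans (sup_le_sup h1.ge (le_inf inf_le_left (e ▸ le_cen_sup
      (inf_le_left.trans (le_cen_symm hc)) inf_le_right))))⟩

theorem cen_of_card_two (h : ord X ≤ 2) (hn : K ≤ nrm X) : K ≤ cen X := fun k hk => mem_cen.2 fun x hx => by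
  classical
  by_cases e : x = 1
  · simp [e]
  have m := conj_mem hn hk hx
  have e2 : zpowers x = X := eq_of_le_of_card_le (zpowers_le.2 hx) (h.trans (by
    rw [Nat.card_zpowers]; exact (Nat.two_le_iff _).2 ⟨(orderOf_pos x).ne', mt orderOf_eq_one_iff.1 e⟩))
  have o : orderOf x ≤ 2 := by rw [← Nat.card_zpowers, e2]; exact h
  rw [← e2, mem_zpowers_iff_mem_range_orderOf] at m
  obtain ⟨i, hi, m⟩ := Finset.mem_image.1 m
  have := Finset.mem_range.1 hi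
  obtain rfl | rfl : i = 0 ∨ i = 1 := by omega
  · exact absurd (by simpa using m.symm) e
  · rw [pow_one] at m; exact (mul_inv_eq_iff_eq_mul.1 m.symm).symm

theorem idx_cmod3 (hR : R ≤ K) (hi : R.relIndex K = 3) (hn : K ≤ nrm R) (h1 : A ≤ nrm K) (h2 : A ≤ nrm R) :
    (cmod R K).relIndex A ≤ 2 := by
  haveI : Fact (Nat.Prime 3) := ⟨Nat.prime_three⟩
  have c : ord (im (qm R) K) = 3 := by rw [card_im hn, kr_qm, hi]
  haveI := isCyclic_of_prime_card c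
  have n : im (qm R) A ≤ nrm (im (qm R) K) := im_le_nrm _ h1
  have k : (cen (im (qm R) K)).relIndex (im (qm R) A) ≤ 2 := by
    have := card_im (f := act (im (qm R) K)) n
    rw [kr_act] at this
    rw [← this]
    exact (card_le_card_group _).trans (by rw [IsCyclic.card_mulAut, c]; decide)
  rw [← relIndex_pre h2] at k
  refine le_trans (Nat.le_of_dvd (relIndex_pos _ _) (relIndex_dvd_of_le_left _ ?_)) k
  have l : pre (qm R) (cen (im (qm R) K)) ≤ nrm R := pre_le _ _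
  exact le_cmod.2 ⟨l, ((im_le_cen_iff l hn).1 (im_pre_le _ _)).trans (kr_qm R).le⟩

theorem comm_le_cen_invol (hE : EA 2 E) (ha : a ∈ nrm E) (h2 : a ^ 2 = 1) : ⁅E, zpowers a⁆ ≤ cen (zpowers a) :=
  fun x hx => by
    obtain ⟨v, hv, rfl⟩ := (mem_comm_zp hE.le_cen ha).1 hx
    have m : ⁅v, a⁆ ∈ E := (comm_le_left (zpowers_le.2 ha)) hx
    have i : a⁻¹ = a := inv_eq_of_mul_eq_one_right (by rw [← pow_two, h2])
    have j : ⁅v, a⁆⁻¹ = ⁅v, a⁆ := inv_eq_of_mul_eq_one_right (by rw [← pow_two, hE.pow m])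
    rw [cen_zpowers, mem_cen1]
    calc ⁅v, a⁆ * a = v * a * v⁻¹ := by group
      _ = a * (a⁻¹ * v * a * v⁻¹) := by
        have := hE.mul_comm hv (nconj_mem ha (inv_mem hv))
        have e : v * a * v⁻¹ = v * (a * v⁻¹ * a⁻¹) * a := by group
        rw [e, this, i]
        have := hE.pow hv
        have i' : v⁻¹ = v := inv_eq_of_mul_eq_one_right (by rw [← pow_two, this])
        rw [i']
        have := hE.mul_comm hv (nconj_mem ha hv)
        rw [i] at this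
        calc a * v * a * v * a = a * (v * (a * v * a)) := by group
          _ = _ := by rw [this]
      _ = a * ⁅v, a⁆ := by rw [← j, i, commutatorElement_inv, commutatorElement_def, i]

theorem card_le_four (hA : H2.MX 2 P A) (hU : EA 2 U) (hUP : U ≤ P) (hAU : A ≤ nrm U) (hK : K ≤ nrm U)
    (hR : R ≤ K) (hi : R.relIndex K = 3) (hn : K ≤ nrm R) (h1 : A ≤ nrm K) (h2 : A ≤ nrm R) (hc : R ≤ cen U)
    (h0 : U ⊓ cen K = ⊥) (hne : ¬ ⁅A, K⁆ ≤ R) : ord U ≤ 4 := by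
  obtain ⟨t, ht, x, hx, e⟩ : ∃ t ∈ A, ∃ x ∈ K, ⁅t, x⁆ ∉ R := by
    by_contra! c; exact hne (commutator_le.2 c)
  have eA : EA 2 A := hA.2.1
  have k0 := card_le_mul_inf_hyper (p := 2) le_rfl (idx_cmod3 hR hi hn h1 h2)
  have key : ∀ X ≤ U ⊓ cen1 t, ∀ B ≤ cmod R K ⊓ A, B ≤ cen X → ord B * (ord X * ord X) ≤ ord A * ord (U ⊓ A) := by
    intro X hX B hB c
    have l1 := hX.trans inf_le_left
    have l2 : cj x X ≤ U := cj_le_of_mem_nrm (hK hx) l1
    have i : X ⊓ cj x X = ⊥ := eq_bot_iff.2 (h0.le.trans' (le_inf (inf_le_left.trans l1) (le_cen_symm ?_)))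
    · have c2 : B ≤ cen (cj x X) := by
        rw [← cj_cen, le_cj_iff]
        exact (H1.cj_le_ncl (K.inv_mem hx)).trans (H1.ncl_eq_sup_commutator.le.trans (sup_le c
          ((le_cmod.1 (hB.trans inf_le_left)).2.trans (hc.trans (cen_anti l1)))))
      have c3 := le_cen_sup c c2
      have l3 := sup_le l1 l2
      have a1 := card_sup_mul_card_inf (le_nrm_of_le_cen c3)
      rw [card_sup_of_inf_eq_bot (l1.trans (hU.le_nrm l2)) i, H2.card_cj] at a1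
      rw [← a1]
      exact Nat.mul_le_mul (hA.2.2 _ (sup_le (hB.trans (inf_le_right.trans hA.1)) (l3.trans hUP))
        ((eA.of_le (hB.trans inf_le_right)).sup (hU.of_le l3) c3)) (card_le_of_le (le_inf (inf_le_right.trans l3)
        (inf_le_left.trans (hB.trans inf_le_right))))
    · rw [← H1.sup_zpowers_eq_of_relIndex_prime (hi ▸ Nat.prime_three) hR
        (comm_le_right h1 (commutator_mem_commutator ht hx)) e]
      refine sup_le (hc.trans (cen_anti (inf_le_left.trans l1))) (zpowers_le.2 ?_)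
      have m : t ∈ cen X := le_cen1_iff.1 (hX.trans inf_le_right)
      rw [show ⁅t, x⁆ = t * (x * t⁻¹ * x⁻¹) by group]
      exact mul_mem (cen_anti inf_le_left m) (cen_anti inf_le_right (cj_cen x X ▸ H7.conj_mem_cj.2 (inv_mem m)))
  have p1 := card_pos' (cmod R K ⊓ A)
  have p2 := card_pos' (U ⊓ A)
  have y2 : ord (U ⊓ A) ≤ 2 := by
    have := key (U ⊓ A) (inf_le_inf_left _ (eA.le_cen1 ht)) _ le_rfl
      (inf_le_right.trans (eA.le_cen.trans (cen_anti inf_le_right)))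
    nlinarith [Nat.mul_le_mul_right (ord (U ⊓ A)) k0, Nat.mul_pos p1 p2]
  have x2 : ord (U ⊓ cen1 t) ≤ 2 := by
    by_contra! c
    have pX : IsPGroup 2 (U ⊓ cen1 t : Subgroup G) := hU.isPGroup.to_le inf_le_left
    have c4 := pow_succ_le_of_lt (n := 1) pX c
    obtain ⟨n, hn'⟩ := card_pgroup pX
    obtain ⟨X, l, cX, nX⟩ := H1.exists_normal_card_eq_pow (k := 2) (H7.isPGroup_sup hAU eA.isPGroup hU.isPGroup)
      (inf_le_left.trans le_sup_right : U ⊓ cen1 t ≤ A ⊔ U) (sup_le (nrm_inf hAU (nrm_cen1 (eA.le_cen1 ht)))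
        (hU.le_nrm inf_le_left)) (hn' ▸ pow_dvd_pow _ ((Nat.pow_le_pow_iff_right (by decide)).1 (hn' ▸ c4)))
    have i := H1B.relIndex_cen_le (eA.isPGroup.to_le (inf_le_right : cmod R K ⊓ A ≤ A)) (pX.to_le l)
      (inf_le_right.trans (le_sup_left.trans nX)) cX.le
    have k1 := card_le_mul_inf_hyper (p := 2) le_rfl i
    have := key X l (cen X ⊓ (cmod R K ⊓ A)) inf_le_right inf_le_left
    rw [cX] at this
    nlinarith [Nat.mul_le_mul_left (ord A) y2]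
  rw [← card_comm_zp hU.le_cen (hAU ht), cen_zpowers]
  exact Nat.mul_le_mul ((card_le_of_le (le_inf (comm_le_left (zpowers_le.2 (hAU ht)))
    (cen_zpowers t ▸ comm_le_cen_invol hU (hAU ht) (eA.pow ht)))).trans x2) x2

theorem mx_star (hA : H2.MX 2 P A) (hW : EA 2 W) (hWP : W ≤ P) (hc : ord W = 4) (hn : A ≤ nrm W) :
    H2.MX 2 P (cen W ⊓ A ⊔ W) := by
  have eA : EA 2 A := hA.2.1
  refine hA.of_card (sup_le (inf_le_right.trans hA.1) hWP) ((eA.of_le inf_le_right).sup hW inf_le_left) ?_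
  by_cases c : A ≤ cen W
  · exact card_le_of_le (le_sup_left.trans' (le_inf c le_rfl))
  have k := card_le_mul_inf_hyper (p := 2) le_rfl (H1B.relIndex_cen_le eA.isPGroup hW.isPGroup hn hc.le)
  have a := card_sup_mul_card_inf (le_nrm_of_le_cen (inf_le_left : cen W ⊓ A ≤ cen W))
  have b := mul_card_le_of_lt hW.isPGroup (lt_of_le_of_ne (inf_le_right : cen W ⊓ A ⊓ W ≤ W) fun e =>
    c (eA.le_cen.trans (cen_anti (e.ge.trans (inf_le_left.trans inf_le_right)))))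
  rw [hc] at a b
  nlinarith

structure JC (J K : Subgroup G) : Prop where
  pg : IsPGroup 2 J
  res : pRes 2 K = K
  comm : ⁅K, J⁆ = K
  idx : (Op 2 K).relIndex K = 3
  syl : ∀ S, IsSylowIn 2 S (K ⊔ J) → J ≤ S → JJ 2 S = J
  card : ord (WK K) = 4

theorem jc_iff (hT : IsPGroup 2 T) : IsJComponent T K ↔ JC (JJ 2 T) K := by
  have e : closure {g : G | g ∈ K ∧ Odd (orderOf g)} = pRes 2 K := by simp only [odd_iff_coprime]; rfl
  rw [IsJComponent, e, pCoreOf_eq, wOf_eq]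
  simp only [sylTwo_iff]
  exact ⟨fun h => ⟨hT.to_le (H2.thompsonE_le T), h.1, h.2.1, h.2.2.1, h.2.2.2.1, h.2.2.2.2.1⟩,
    fun h => ⟨h.res, h.comm, h.idx, h.syl, h.card, fun w hw => by rw [← pow_two, (ea_WK K).pow hw]⟩⟩

namespace JC
variable (h : JC J K)
include h

theorem nJ : J ≤ nrm K := h.comm ▸ nrm_comm_right K J

theorem nJ_W : J ≤ nrm (WK K) := nrm_WK h.nJ

theorem cjg (g : G) : JC (cj g J) (cj g K) := by
  refine ⟨H7.isPGroup_cj.2 h.pg, by rw [← H2.cj_pRes, h.res], by rw [← cj_commutator, h.comm],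
    by rw [← cj_Opi, relIndex_cj, h.idx], fun S s l => ?_, by rw [← cj_WK, H2.card_cj, h.card]⟩
  have := h.syl (cj g⁻¹ S) (by simpa only [H7.cj_sup, H2.cj_inv_cj] using s.cj g⁻¹) (H7.cj_le_iff.1 l)
  rw [← this, ← H2.cj_J, ← H7.cj_mul, mul_inv_cancel, H2.cj_one]

theorem le_ncl : K ≤ ncl J K := h.comm.ge.trans (comm_le_ncl' _ _)

theorem res_sup : pRes 2 (K ⊔ J) = K := by rw [pRes_sup_pg h.pg h.nJ, h.res]

theorem nrm_of (h1 : K ≤ nrm Q) (h2 : Q ≤ nrm J) : Q ≤ nrm K := by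
  have e : ncl J K = K ⊔ J := le_antisymm (H1.ncl_le_of_le le_sup_right le_sup_left) (sup_le h.le_ncl H1.le_ncl)
  exact h.res_sup ▸ le_nrm_pRes (e ▸ nrm_ncl_of h1 h2)

theorem W_inf : WK K ⊓ cen K = ⊥ :=
  (split3 (ea_Z1 2 _) (nrm_Z1 (le_nrm_Opi _ K)) (Opi_le _ _) h.idx (le_cen_Z1 _ _)).1

theorem W_ne : WK K ≠ ⊥ := fun e => by have := h.card; rw [e, card_bot] at this; omega

theorem eq_bot (h1 : X ≤ WK K) (h2 : K ≤ cen X) : X = ⊥ := eq_bot_iff.2 (h.W_inf.le.trans' (le_inf h1 (le_cen_symm h2)))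

theorem not_cen : ¬ K ≤ cen (WK K) := fun c => h.W_ne (h.eq_bot le_rfl c)

theorem le_O (h1 : X ≤ K) (h2 : X ≤ cen (WK K)) : X ≤ Op 2 K :=
  (le_inf h1 h2).trans ((H1.eq_or_eq_of_relIndex_prime (h.idx ▸ Nat.prime_three) (le_inf (Opi_le _ _) (O_le_cen_WK K))
    inf_le_left).resolve_right fun e => h.not_cen (e.ge.trans inf_le_right)).le

theorem le_of (hn : K ≤ nrm N) (hJ : J ≤ N) : K ≤ N := h.le_ncl.trans (H1.ncl_le hJ hn)

theorem not_J : ¬ J ≤ cen (WK K) := fun c => h.not_cen (h.le_of (nrm_cen (nrm_WK (le_nrm_self K))) c)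

theorem not_pg : ¬ IsPGroup 2 K := fun c => h.not_cen ((Op_eq_self c).ge.trans (O_le_cen_WK K))

theorem irr (h1 : X ≤ WK K) (h2 : K ≤ nrm X) (h3 : X ≠ ⊥) : X = WK K := by
  by_contra c
  have := mul_card_le_of_lt (ea_WK K).isPGroup (lt_of_le_of_ne h1 c)
  rw [h.card] at this
  exact h3 (h.eq_bot h1 (cen_of_card_two (by omega) h2))

theorem comm_W : ⁅WK K, K⁆ = WK K := h.irr (comm_le_left (nrm_WK (le_nrm_self K))) (nrm_comm_right _ _)
  fun e => h.not_cen (comm_eq_bot'.1 e)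

theorem le_of_sup_O (h1 : X ≤ K) (hn : K ≤ nrm X) (h2 : ¬ X ≤ Op 2 K) : K ≤ X := by
  have e := (H1.eq_or_eq_of_relIndex_prime (h.idx ▸ Nat.prime_three) (le_sup_left : Op 2 K ≤ Op 2 K ⊔ X)
    (sup_le (Opi_le _ _) h1)).resolve_left fun e => h2 (le_sup_right.trans e.le)
  exact h.res.ge.trans (pRes_le_of_le_sup (isPGroup_Op 2 K) ((Opi_le _ _).trans hn) e.ge)

theorem comm_eq (hn : A ≤ nrm K) (hc : ¬ A ≤ cen (WK K)) (hA : IsPGroup 2 A) : ⁅K, A⁆ = K := by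
  refine le_antisymm (comm_le_left hn) (h.le_of_sup_O (comm_le_left hn) (nrm_comm_left _ _) fun c => hc ?_)
  have n := nrm_WK hn
  have k : K ≤ nrm ⁅WK K, A⁆ := le_nrm_of_cj_le fun k hk => by
    rw [cj_commutator, cj_of_mem_nrm (nrm_WK (le_nrm_self K) hk)]
    refine (commutator_mono le_rfl ((H1.cj_le_ncl hk).trans H1.ncl_eq_sup_commutator.le)).trans
      (comm_sup_le' (nrm_comm_right _ _) ?_ le_rfl ?_)
    · exact le_nrm_of_le_cen ((commutator_comm A K).le.trans (c.trans ((O_le_cen_WK K).trans (cen_anti (comm_le_left n)))))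
    · exact (comm_eq_bot'.2 ((commutator_comm A K).le.trans (c.trans (O_le_cen_WK K)))).le.trans bot_le
  by_contra d
  exact (pgroup_comm_lt hA (ea_WK K).isPGroup n h.W_ne).ne (h.irr (comm_le_left n) k fun e => d (comm_eq_bot'.1 e))

theorem O_comm : Op 2 K ≤ ⁅Op 2 K, K⁆ := by
  haveI : Fact (Nat.Prime 3) := ⟨Nat.prime_three⟩
  obtain ⟨P, hP⟩ := H2.exists_isSylowIn 3 K
  have e := hP.sup_eq_of_relIndex (Opi_le _ _) (k := 1) h.idx
  have l : ⁅Op 2 K, K⁆ ≤ Op 2 K := comm_le_left (le_nrm_Opi _ K)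
  have n : P ≤ nrm ⁅Op 2 K, K⁆ := hP.1.trans (nrm_comm_right _ _)
  have l2 := sup_le (l.trans (Opi_le _ _)) hP.1
  have k := h.le_of_sup_O l2 (e.ge.trans (sup_le (le_nrm_of_comm_le' l2 ((commutator_comm _ _).le.trans le_sup_left))
    (le_sup_right.trans (le_nrm_self _)))) fun c => h.not_pg ((isPGroup_Op 2 K).to_le
      (e.ge.trans (sup_le le_rfl (le_sup_right.trans c))))
  refine (le_inf ((Opi_le _ _).trans k) le_rfl).trans ((modular' n l).le.trans (sup_le le_rfl ?_))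
  exact (inf_comm _ _).le.trans ((inf_eq_bot_of_isPGroup (isPGroup_Op 2 K)
    (coprime_of_isPGroup hP.2 (by decide)).symm).le.trans bot_le)

theorem Z0 : ord (Z1 2 J ⊓ WK K) = 2 ∧ Z1 2 J ⊓ ((K ⊔ J) ⊓ cen (K ⊔ J)) ⊔ Z1 2 J ⊓ WK K = Z1 2 J := by
  obtain ⟨T, hT, l⟩ := H2.exists_isSylowIn_ge h.pg (le_sup_right : J ≤ K ⊔ J)
  have e := h.syl T hT l
  have nK : K ⊔ J ≤ nrm K := sup_le (le_nrm_self K) h.nJ
  have nW := nrm_WK nK
  have nR : K ⊔ J ≤ nrm (Op 2 K) := nrm_Opi _ nK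
  have eW := ea_WK K
  have RT : Op 2 K ≤ T := hT.le_of_normal (isPGroup_Op 2 K) ((Opi_le _ _).trans le_sup_left) (hT.1.trans nR)
  have WT := (WK_le_O K).trans RT
  set Q := (K ⊔ J) ⊓ cen (WK K)
  have nQ : K ⊔ J ≤ nrm Q := nrm_inf (le_nrm_self _) (nrm_cen nW)
  have QT : Q ≤ T := hT.le_of_normal (pgroup_of_pRes ((isPGroup_Op 2 K).to_le (h.le_O ((H2.pRes_mono inf_le_left).trans
    h.res_sup.le) ((H2.pRes_le _).trans inf_le_right)))) inf_le_left (hT.1.trans nQ)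
  have st : ∀ B, H2.MX 2 T B → H2.MX 2 T (cen (WK K) ⊓ B ⊔ WK K) ∧ H2.MX 2 Q (cen (WK K) ⊓ B ⊔ WK K) := fun B hB =>
    have a := mx_star hB eW WT h.card (hB.1.trans (hT.1.trans nW))
    ⟨a, a.of_le (le_inf (a.1.trans hT.1) (sup_le inf_le_left eW.le_cen)) QT⟩
  obtain ⟨A, hA⟩ := H2.exists_mx (P := T) 2
  obtain ⟨a1, a2⟩ := st A hA
  have WJ : WK K ≤ J := le_sup_right.trans (a1.le_J.trans e.le)
  have JQ : JJ 2 Q ≤ J := (a1.J_le a2.1 QT).trans e.le
  have z1 : Z1 2 J ≤ Z1 2 (JJ 2 Q) := le_Z1 (ea_Z1 _ _) ((congrArg (Z1 2) e).ge.trans (a1.Om_ZJ_le.trans a2.le_J))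
    ((Z1_le_cen _ _).trans (cen_anti JQ))
  have w1 : WK K ≤ Z1 2 (JJ 2 Q) := le_Z1 eW (le_sup_right.trans a2.le_J)
    (le_cen_symm ((H2.thompsonE_le Q).trans inf_le_right))
  have c1 : K ⊔ J ≤ cmod (WK K) (Z1 2 (JJ 2 Q)) := by
    have : J ≤ cmod (WK K) (Z1 2 (JJ 2 Q)) := e.ge.trans (H2.J_le_iff.2 fun B hB => le_cmod.2
      ⟨hB.1.trans (hT.1.trans nW), (commutator_mono le_rfl (st B hB).2.Om_ZJ_le).trans (comm_sup_le'
        (le_nrm_of_le_cen inf_le_left) (le_nrm_self _) ((comm_eq_bot.2 ((EA.le_cen hB.2.1).trans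
          (cen_anti inf_le_right))).le.trans bot_le) (comm_le_right (hB.1.trans (hT.1.trans nW))))⟩)
    exact sup_le (h.le_of (le_sup_left.trans (nrm_cmod nW (nrm_Z1 (H2.nrm_J nQ)))) this) this
  have lU := sup_le z1 w1
  have c2 := (commutator_comm _ _).le.trans (le_cmod.1 c1).2
  have nU := le_nrm_of_comm_le' lU (c2.trans le_sup_right)
  have nN := nrm_inf nR (nrm_cen nU)
  have c3 : Op 2 K ≤ cen (Z1 2 J ⊔ WK K) := by
    have : K ≤ cmod (Op 2 K ⊓ cen (Z1 2 J ⊔ WK K)) (Op 2 K) := h.le_of (le_sup_left.trans (nrm_cmod nN nR))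
      (le_cmod.2 ⟨le_sup_right.trans nN, le_inf (comm_le_right (le_sup_right.trans nR)) (le_cen_sup ((comm_le_left
        (RT.trans (e ▸ H2.nrm_J (le_nrm_self T)))).trans (le_cen_Z1 _ _))
          ((comm_le_right (le_sup_right.trans nR)).trans (O_le_cen_WK K)))⟩)
    exact h.O_comm.trans ((commutator_comm _ _).le.trans ((le_cmod.1 this).2.trans inf_le_right))
  have eU := (ea_Z1 _ _).of_le lU
  have sp := (split3 eU (le_sup_left.trans nU) (Opi_le _ _) h.idx c3).2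
  have wz : ∀ w ∈ WK K, w ∈ cen J → w ∈ Z1 2 J := fun w hw c => mem_Z1.2 ⟨WJ hw, le_cen1_iff.2 c, eW.pow hw⟩
  refine ⟨?_, le_antisymm (sup_le inf_le_left inf_le_left) fun z hz => ?_⟩
  · have b1 := mul_card_le_of_lt eW.isPGroup (lt_of_le_of_ne (inf_le_right : Z1 2 J ⊓ WK K ≤ _) fun e =>
      h.not_J (le_cen_symm (e.ge.trans (inf_le_left.trans (Z1_le_cen _ _)))))
    have b2 := Nat.le_of_dvd (card_pos' _) (dvd_card_of_isPGroup (eW.isPGroup.to_le (inf_le_right : Z1 2 J ⊓ WK K ≤ _))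
      fun e => pgroup_inf_cen_ne_bot' h.pg eW.isPGroup h.nJ_W h.W_ne (eq_bot_iff.2 fun w hw =>
        e.le ⟨wz w hw.1 hw.2, hw.1⟩))
    rw [h.card] at b1
    omega
  have nC : J ≤ nrm ((Z1 2 J ⊔ WK K) ⊓ cen K) := nrm_inf (le_sup_right.trans nU) (nrm_cen h.nJ)
  obtain ⟨w, hw, c, hc, rfl⟩ := (mem_sup_nrm' (le_nrm_of_le_cen (inf_le_left.trans (eU.le_cen.trans
    (cen_anti le_sup_right))))).1 ((sp.ge.trans (sup_le_sup_right ((commutator_mono lU le_sup_left).trans c2) _))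
      (mem_sup_left hz))
  have m : w ∈ Z1 2 J := wz w hw (mem_cen.2 fun j hj => by
    have b := conj_eq_of_mem_cen (le_cen_Z1 2 J hj) hz
    have b2 : w⁻¹ * (j * w * j⁻¹) = c * (j * c * j⁻¹)⁻¹ := by
      rw [eq_mul_inv_iff_mul_eq, mul_assoc, inv_mul_eq_iff_eq_mul, ← b]; group
    have b3 : w⁻¹ * (j * w * j⁻¹) ∈ WK K ⊓ cen K := mem_inf.2 ⟨mul_mem (inv_mem hw) (conj_mem h.nJ_W hj hw),
      b2 ▸ (mul_mem hc (inv_mem (conj_mem nC hj hc))).2⟩
    rw [h.W_inf, mem_bot, inv_mul_eq_one] at b3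
    exact mul_inv_eq_iff_eq_mul.1 b3.symm)
  have m2 : c ∈ Z1 2 J := (mul_mem_cancel_left m).1 hz
  exact mul_mem (mem_sup_right ⟨m, hw⟩) (mem_sup_left ⟨m2, mem_sup_right (Z1_le _ _ m2),
    (cen_sup K J).ge ⟨hc.2, Z1_le_cen _ _ m2⟩⟩)

end JC

end H1B
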