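import Cfsg.Agent.H1.JC

/-! `J(T)`-components inside an overgroup `L` of `T`. -/

set_option linter.unusedSectionVars false

namespace H1B
open Subgroup Cfsg H7
open H1 (ncl)
open scoped commutatorElement H2

variable {G : Type*} [Group G] [Finite G] {A B C D E H J K K' L M N P Q R S T U V W X Y Z : Subgroup G}
  {a b c d g t x y z : G}

theorem J_eq_of_conj (h : JJ 2 T ≤ cj g T) : JJ 2 (cj g T) = JJ 2 T := by
  refine (eq_of_le_of_card_le (H2.J_le_iff.2 fun A hA => H2.MX.le_J ⟨hA.le_J.trans h, hA.2.1, fun B hB e => ?_⟩)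
    (by rw [← H2.cj_J, H2.card_cj])).symm
  exact (H2.card_cj g⁻¹ B).ge.trans (hA.2.2 _ (by simpa using (H7.cj_le_iff (g := g⁻¹)).2 (by simpa using hB)) (EA.cj e _))

theorem J_eq_of_syl (hT : IsSylowIn 2 T L) (hS : IsPGroup 2 S) (h1 : S ≤ L) (h2 : JJ 2 T ≤ S) : JJ 2 S = JJ 2 T := by
  obtain ⟨g, -, l⟩ := hT.exists_cj_le hS h1
  have l' := H7.cj_le_iff.1 l
  have e := J_eq_of_conj (h2.trans l')
  exact (H2.J_eq_of_le (e.le.trans h2) l').trans e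

theorem comm_le_WK (hU : EA 2 U) (hn : K ≤ nrm U) (h1 : U ≤ nrm K) (h2 : U ⊓ K ≤ Op 2 K) (hi : (Op 2 K).relIndex K = 3)
    (hc : Op 2 K ≤ cen U) : ⁅U, K⁆ ≤ WK K := by
  have l : ⁅U, K⁆ ≤ Z1 2 (Op 2 K) := le_Z1 (hU.of_le (comm_le_left hn)) ((comm_le_inf h1 hn).trans h2)
    ((comm_le_left hn).trans (le_cen_symm hc))
  refine (commutator_mono (split3 hU hn (Opi_le _ _) hi hc).2.ge le_rfl).trans (comm_sup_le (l.trans ((ea_Z1 _ _).le_nrm
    (WK_le K))) (le_nrm_of_le_cen (inf_le_right.trans (cen_anti ((WK_le_O K).trans (Opi_le _ _)))))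
      (commutator_mono l le_rfl) ((comm_eq_bot.2 inf_le_right).le.trans bot_le))

theorem ff_N (h : FFS 2 V H) (hg : ∀ K, (∀ B ≤ H, TV 2 V B → B ≤ K) → H ≤ K) (hB : B ≤ H) (t : TV 2 V B) :
    ord ⁅Op' 2 H, B⁆ = 3 ∧ H ≤ nrm ⁅Op' 2 H, B⁆ ∧ ⁅H, B⁆ ≤ ⁅Op' 2 H, B⁆ ∧ ¬ B ≤ cen ⁅Op' 2 H, B⁆ ∧
      ⁅V, B⁆ ≤ ⁅V, ⁅Op' 2 H, B⁆⁆ := by
  obtain ⟨⟨e⟩, -, -, e2, -⟩ := h.main hB t
  have pB : IsPGroup 2 B := IsPGroup.of_card (n := 1) t.card
  have n : B ≤ nrm ⁅Op' 2 H, B⁆ := nrm_comm_right _ _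
  have c := coprime_of_le (comm_le_left (h.nF hB)) (coprime_Op' 2 H)
  have c3 : ord ⁅Op' 2 H, B⁆ = 3 := by
    have := card_sup_of_inf_eq_bot n (inf_eq_bot_of_isPGroup pB c)
    rw [sup_comm, Nat.card_congr e.toEquiv, card_sl2p, t.card] at this
    omega
  have nH : H ≤ nrm ⁅Op' 2 H, B⁆ := by
    have := le_nrm_pRes (p := 2) (h.nrm_E hg hB t)
    rwa [pRes_sup_pg pB n, pRes_of_coprime c] at this
  haveI := isCyclic_of_prime_card t.card
  refine ⟨c3, nH, (commutator_mono (h.sup_cen hg hB t).ge le_rfl).trans (comm_sup_le ((h.QE_le hB).trans nH)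
    (inf_le_left.trans nH) (comm_sup_le (le_nrm_self _) n (comm_le_left n) ((comm_eq_bot.2 (H7.isComm_iff.1
      IsCyclic.isMulCommutative)).le.trans bot_le)) ((commutator_comm _ _).le.trans ((commutator_mono le_sup_right
        le_rfl).trans ((h.comm_cen hg hB t).le.trans bot_le)))), fun k => ?_,
          (commutator_mono le_rfl le_sup_right).trans e2.ge⟩
  rw [← (h.cop hB pB le_rfl (h.nF hB)).comm_comm, comm_eq_bot'.2 k, card_bot] at c3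
  omega

structure LT2 (T L : Subgroup G) : Prop where
  syl : IsSylowIn 2 T L
  solv : Group.IsSolvable L
  n : L ⊓ cen (Z1 2 (Op 2 L)) ≤ nrm T

namespace LT2
variable (h : LT2 T L)
include h

local notation "Q" => Op 2 L
local notation "Y" => Z1 2 (Op 2 L)
local notation "C" => L ⊓ cen (Z1 2 (Op 2 L))
local notation "E" => JJ 2 L
local notation "J" => JJ 2 T

theorem QT : Q ≤ T := Op_le_of_sylow h.syl
theorem QC : Q ≤ C := le_inf (Opi_le _ _) (le_cen_Z1 _ _)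
theorem nQ : L ≤ nrm Q := le_nrm_Opi _ _
theorem nY : L ≤ nrm Y := nrm_Z1 h.nQ
theorem nC : L ≤ nrm C := nrm_inf (le_nrm_self _) (nrm_cen h.nY)
theorem nE : L ≤ nrm E := H2.nrm_J (le_nrm_self _)
theorem EL : E ≤ L := H2.thompsonE_le L
theorem JT : J ≤ T := H2.thompsonE_le T
theorem JE : J ≤ E := J_syl_le h.syl
theorem JL : J ≤ L := h.JE.trans h.EL
theorem QJ : Q ≤ nrm J := H2.nrm_J (h.QT.trans (le_nrm_self T))

theorem inf_le (hD : D ≤ L) (hn : L ≤ nrm D) (h1 : D ≤ C ⊔ T ⊓ D) : T ⊓ D ≤ Q :=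
  le_Op_of_sn ((SN.of_normal inf_le_right (h1.trans (sup_le (nrm_inf h.n (inf_le_left.trans hn)) (le_nrm_self _)))).trans
    (SN.of_normal hD hn)) (h.syl.2.to_le inf_le_left)

theorem TC : T ⊓ C ≤ Q := h.inf_le inf_le_left h.nC le_sup_left

theorem pgQ (h1 : X ≤ C) (h2 : IsPGroup 2 X) : X ≤ Q :=
  ((syl_inf h.syl inf_le_left (h.syl.1.trans h.nC)).le_of_le_normalizer h2 h1
    (h1.trans (nrm_inf h.n (le_nrm_self _)))).trans h.TC

theorem cE : ⁅C, E⁆ ≤ Q := by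
  have : T ≤ cmod Q C := le_cmod.2 ⟨h.syl.1.trans h.nQ, (comm_le_inf (h.syl.1.trans h.nC) h.n).trans h.TC⟩
  refine (commutator_comm _ _).le.trans (le_cmod.1 (J_le_of_syl fun S hS => (H2.thompsonE_le S).trans ?_)).2
  obtain ⟨g, hg, rfl⟩ := h.syl.exists_cj_eq hS
  exact cj_le_of_mem_nrm (nrm_cmod h.nQ h.nC hg) this

theorem invol (hb : b ∈ E) (h2 : b ^ 2 = 1) (hc : ⁅d, b⁆ ∈ C) : ⁅d, b⁆ ∈ Q := by
  have m := h.cE (commutator_mem_commutator hc hb)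
  have i : b⁻¹ = b := inv_eq_of_mul_eq_one_right (by rw [← pow_two, h2])
  have e : ⁅⁅d, b⁆, b⁆ = ⁅d, b⁆ ^ 2 := by
    calc ⁅⁅d, b⁆, b⁆ = ⁅d, b⁆ * (b * b * d * b⁻¹ * d⁻¹ * b⁻¹) := by group
      _ = _ := by rw [← pow_two b, h2, one_mul, pow_two, commutatorElement_def, i]
  obtain ⟨k, hk⟩ := isPGroup_iff_mem.1 (isPGroup_Op 2 L) _ m
  exact h.pgQ (zpowers_le.2 hc) (isPGroup_zpowers (k := k + 1) (by rw [pow_succ', pow_mul, ← e, hk])) (mem_zpowers _)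

theorem omod : Omod {2} (cen Y) L ≤ cen Y := by
  set D := Omod {2} (cen Y) L
  have l : D ≤ L := Omod_le _ _ _
  have h2 := syl_sup_normal (syl_inf h.syl l (h.syl.1.trans (le_nrm_Omod _ _ _))) (N := cen Y ⊓ D) inf_le_right
    (by rw [inf_relIndex_right]; exact piN_relIndex_Omod _ (nrm_cen h.nY))
  exact h2.ge.trans (sup_le inf_le_left ((h.inf_le l (le_nrm_Omod _ _ _) (h2.ge.trans (sup_le_sup_right
    (le_inf (inf_le_right.trans l) inf_le_left) _))).trans (le_cen_Z1 _ _)))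

theorem frat : L ⊓ nrm J ⊔ E = L := frattini_J h.syl h.EL h.nE h.JE

theorem E_le (hJ : J ≤ X) (hn : E ≤ nrm X) : E ≤ X := by
  have n : L ≤ nrm (ncl J E) := h.frat.ge.trans (sup_le (H1.nrm_ncl inf_le_right (inf_le_left.trans h.nE)) H1.le_nrm_ncl)
  refine le_trans (J_le_of_syl fun S hS => ?_) (H1.ncl_le hJ hn)
  obtain ⟨g, hg, rfl⟩ := h.syl.exists_cj_eq hS
  exact H2.cj_J g T ▸ cj_le_of_mem_nrm (n hg) H1.le_ncl

theorem mkJC (h1 : Q ≤ M) (h2 : M ≤ L) (hi : (Q).relIndex M = 3) (hn : J ≤ nrm M) (hc : ¬ ⁅M, J⁆ ≤ C) :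
    JC J (pRes 2 M) ∧ pRes 2 M ⊔ Q = M := by
  set K := pRes 2 M
  have sQ : IsSylowIn 2 Q M := ⟨h1, isPGroup_Op 2 L, by rw [hi]; decide⟩
  have e : K ⊔ Q = M := sQ.pRes_sup
  have l : K ≤ M := H2.pRes_le _
  have lL := l.trans h2
  have nK : M ≤ nrm K := nrm_pRes' 2 M
  have nJ : J ≤ nrm K := le_nrm_pRes hn
  have o : Op 2 K = Q ⊓ K := le_antisymm (le_inf ((Opi_le_of_normal _ l nK).trans (Op_le_of_sylow sQ)) (Opi_le _ _))
    (inf_le_Opi _ lL)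
  have i : (Op 2 K).relIndex K = 3 := by rw [o, inf_relIndex_right, ← relIndex_sup_nrm (lL.trans h.nQ), e, hi]
  have nc : ¬ ⁅K, J⁆ ≤ C := fun c => hc (e ▸ comm_sup_le (lL.trans h.nC) ((Opi_le _ _).trans h.nC) c
    ((comm_le_left (h.JL.trans h.nQ)).trans h.QC))
  have c : ⁅K, J⁆ = K := le_antisymm (comm_le_left nJ) (pRes_le_of_le_sup (isPGroup_Op 2 L)
    (nrm_commutator (h1.trans nK) h.QJ) ((H1.eq_or_eq_of_relIndex_prime (hi ▸ Nat.prime_three) le_sup_left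
      (sup_le h1 ((comm_le_left nJ).trans l))).resolve_left fun e => nc (le_sup_right.trans (e.le.trans h.QC))).ge)
  have oQ : Op 2 K ≤ Q := o.le.trans inf_le_left
  have w0 := (split3 (ea_Z1 2 _) (nrm_Z1 (le_nrm_Opi _ K)) (Opi_le _ _) i (le_cen_Z1 _ _)).1
  refine ⟨⟨h.syl.2.to_le h.JT, H2.pRes_pRes _, c, i, fun S s l => J_eq_of_syl h.syl s.2 (s.1.trans (sup_le lL h.JL)) l,
    le_antisymm ?_ ?_⟩, e⟩
  · obtain ⟨A, hA, a⟩ : ∃ A, H2.MX 2 T A ∧ ¬ ⁅A, K⁆ ≤ Op 2 K := by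
      by_contra! k
      exact nc ((commutator_comm _ _).le.trans ((le_cmod.1 (H2.J_le_iff.2 fun A hA => le_cmod.2
        ⟨nrm_Opi _ (hA.le_J.trans nJ), k A hA⟩)).2.trans (oQ.trans h.QC)))
    have n := hA.le_J.trans nJ
    exact card_le_four hA (ea_WK K) ((WK_le_O K).trans (oQ.trans h.QT)) (nrm_WK n) (nrm_WK (le_nrm_self K)) (Opi_le _ _) i
      (le_nrm_Opi _ _) n (nrm_Opi _ n) (O_le_cen_WK K) w0 a
  · refine pow_succ_le_of_lt (n := 1) (ea_WK K).isPGroup (lt_of_not_ge fun k => nc (c.le.trans (le_inf lL ?_)))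
    have b : WK K = ⊥ := eq_bot_iff.2 (w0.le.trans' (le_inf le_rfl (le_cen_symm (cen_of_card_two k
      (nrm_WK (le_nrm_self K))))))
    exact comm_eq_bot'.1 (eq_bot_iff.2 ((comm_le_WK (ea_Z1 _ _) (lL.trans h.nY) ((Z1_le _ _).trans (h1.trans nK))
      ((inf_le_inf_right _ (Z1_le _ _)).trans o.ge) i (oQ.trans (le_cen_Z1 _ _))).trans b.le))

theorem exists_comp {G' : Type*} [Group G'] [Finite G'] {φ : ↥(nrm Y) →* G'} (k : kr φ = cen Y) {N' : Subgroup G'}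
    (c3 : ord N' = 3) (l : N' ≤ im φ E) (n : im φ E ≤ nrm N') (nc : ¬ im φ E ≤ cen N') :
    ∃ K ≤ L, JC J K ∧ im φ K = N' := by
  have l0 : E ⊔ Q ≤ L := sup_le h.EL (Opi_le _ _)
  set N := (E ⊔ Q) ⊓ pre φ N'
  have lN : N ≤ L := inf_le_left.trans l0
  have iN : im φ N = N' := by rw [im_inf_pre, inf_eq_right.2 (l.trans (im_mono _ le_sup_left))]
  have QN : Q ≤ N := le_inf le_sup_right ((le_cen_Z1 _ _).trans (k.ge.trans (kr_le_pre _ _)))
  have nN : E ≤ nrm N := nrm_inf (h.EL.trans (nrm_sup h.nE h.nQ)) (le_nrm_pre (h.EL.trans h.nY) n)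
  have nc' : ¬ ⁅N, J⁆ ≤ C := fun c => nc ((im_le_iff (h.EL.trans h.nY)).2 (h.E_le ((im_le_iff (h.JL.trans h.nY)).1
    (iN ▸ le_cen_symm ((im_le_cen_iff (lN.trans h.nY) (h.JL.trans h.nY)).2 (c.trans (inf_le_right.trans k.ge)))))
      (le_nrm_pre (h.EL.trans h.nY) (nrm_cen n))))
  have i3 : (N ⊓ cen Y).relIndex N = 3 := by rw [inf_relIndex_left, ← k, ← card_im (lN.trans h.nY), iN, c3]
  have QZ : Q ≤ N ⊓ cen Y := le_inf QN (le_cen_Z1 _ _)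
  have ZC : N ⊓ cen Y ≤ C := inf_le_inf_right _ lN
  have d := lN.trans h.nQ
  have dJ := h.JL.trans h.nQ
  have i3' := (relIndex_im (f := qm Q) d ((kr_qm _).le.trans QZ)).trans i3
  have zc : ⁅N ⊓ cen Y, E ⊔ Q⁆ ≤ Q := comm_sup_le' (h.EL.trans h.nQ) (le_nrm_self _) ((commutator_mono ZC le_rfl).trans h.cE)
    (comm_le_right (inf_le_left.trans d))
  have ab := H1.isMulCommutative_of_relIndex_prime (i3' ▸ Nat.prime_three) (im_mono _ inf_le_left)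
    ((im_le_cen_iff (inf_le_left.trans d) d).2 ((commutator_mono le_rfl inf_le_left).trans (zc.trans (kr_qm _).ge)))
  have od : (ord (im (qm Q) N)).Coprime 2 := by
    rw [card_im d, kr_qm, ← relIndex_mul_relIndex _ _ _ QZ inf_le_left, i3]
    refine Nat.Coprime.mul_left (coprime_iff_not_dvd.2 ?_) (by decide)
    exact (H2.isSylowIn_of_maximal (isPGroup_Op 2 L) QZ fun P p _ l => h.pgQ (l.trans ZC) p).3
  have pJ := isPGroup_im (qm Q) (h.syl.2.to_le h.JT)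
  have nJ := im_le_nrm (qm Q) (h.JE.trans nN)
  have co := cop_of_pgroup pJ od nJ
  have cz := (H1.eq_or_eq_of_relIndex_prime (i3' ▸ Nat.prime_three) (le_inf (im_mono _ inf_le_left)
    ((im_le_cen_iff (inf_le_left.trans d) dJ).2 ((commutator_mono le_rfl (h.JE.trans le_sup_left)).trans
      (zc.trans (kr_qm _).ge)))) inf_le_left).resolve_right fun e => nc' (((im_le_cen_iff d dJ).1
        (e.ge.trans inf_le_right)).trans ((kr_qm _).le.trans h.QC))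
  have lM : ⁅N, J⁆ ≤ N := comm_le_left (h.JE.trans nN)
  have iM : im (qm Q) (⁅N, J⁆ ⊔ Q) = ⁅im (qm Q) N, im (qm Q) J⁆ := by
    rw [← im_commutator d dJ, ← im_sup_kr (lM.trans d), kr_qm]
  have dM := (sup_le lM QN).trans d
  have cM : (Q).relIndex (⁅N, J⁆ ⊔ Q) = 3 := by
    have a := card_sup_of_inf_eq_bot (le_nrm_of_le_cen ((comm_le_left nJ).trans ((H7.isComm_iff.1 ab).trans
      (cen_anti inf_le_left)))) (eq_bot_iff.2 ((inf_le_inf_left _ inf_le_right).trans (comm_inf_cen_of_comm ab nJ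
        (coprime_of_isPGroup pJ od).symm).le) : ⁅im (qm Q) N, im (qm Q) J⁆ ⊓ (im (qm Q) N ⊓ cen (im (qm Q) J)) = ⊥)
    rw [co.comm_sup_cen, cz, ← relIndex_mul_card' (im_mono (qm Q) (inf_le_left : N ⊓ cen Y ≤ N)), i3', ← iM,
      card_im dM, kr_qm] at a
    exact (Nat.eq_of_mul_eq_mul_right (card_pos' _) a).symm
  have c2 : ⁅N, J⁆ ≤ ⁅⁅N, J⁆ ⊔ Q, J⁆ ⊔ Q := by
    have cl := (comm_le_of_le ((sup_le lM QN).trans lN) h.JL).trans h.nQ
    have := (im_le_im_iff (f := qm Q) (lM.trans d) cl).1 (by rw [im_commutator dM dJ, iM, co.comm_comm, im_commutator d dJ])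
    rwa [kr_qm] at this
  have nc2 : ¬ ⁅⁅N, J⁆ ⊔ Q, J⁆ ≤ C := fun c => nc' (c2.trans (sup_le c h.QC))
  obtain ⟨j, e⟩ := h.mkJC le_sup_right ((sup_le lM QN).trans lN) cM (nrm_sup (nrm_comm_right _ _) dJ) nc2
  have lK := (H2.pRes_le (p := 2) _).trans (sup_le lM QN)
  refine ⟨_, lK.trans lN, j, ((H1.eq_or_eq_of_relIndex_prime (N := ⊥) (by rw [relIndex_bot_left, c3]; decide) bot_le
    ((im_mono _ lK).trans iN.le)).resolve_left fun b => nc2 ?_)⟩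
  have := ((im_eq_bot_iff (lK.trans (lN.trans h.nY))).1 b).trans k.le
  exact (commutator_mono (e.ge.trans (sup_le (le_inf (lK.trans lN) this) h.QC)) le_rfl).trans
    (comm_le_left (h.JL.trans h.nC))

theorem ff : ∃ (ι : Y →* Hol Y) (φ : ↥(nrm Y) →* Hol Y), Fth Y ι φ ∧ ∀ X', (∀ B ≤ im φ E, ∀ K ≤ L, JC J K →
    ord (im φ K) = 3 → im φ E ≤ nrm (im φ K) → ⁅im φ E, B⁆ ≤ im φ K → ⁅im ι Y, B⁆ ≤ ⁅im ι Y, im φ K⁆ → B ≤ X') →
      im φ E ≤ X' := by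
  obtain ⟨ι, φ, F⟩ := exists_fth Y
  have f := F.ffs (ea_Z1 2 _) h.nY (ps_of_solv h.solv) h.omod h.EL h.nE
  have g := F.gen (ea_Z1 2 _) ((Z1_le _ _).trans (Opi_le _ _)) h.nY f
  refine ⟨ι, φ, F, fun X' hX => g X' fun B hB t => ?_⟩
  obtain ⟨a1, a2, a3, a4, a5⟩ := ff_N f g hB t
  obtain ⟨K, k1, k2, k3⟩ := h.exists_comp F.ker a1 (le_sup_left.trans (f.QE_le hB)) a2 fun c => a4 (hB.trans c)
  rw [← k3] at a1 a2 a3 a5
  exact hX B hB K k1 k2 a1 a2 a3 a5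

theorem KE (k : JC J K) (l : K ≤ L) : K ≤ pRes 2 E := k.res.ge.trans (H2.pRes_mono (k.le_of (l.trans h.nE) h.JE))

theorem KE' (k : JC J K) (l : K ≤ L) : K ≤ E := (h.KE k l).trans (H2.pRes_le _)

theorem ab : ⁅pRes 2 E, pRes 2 E⁆ ≤ C := by
  haveI : Fact (Nat.Prime 3) := ⟨Nat.prime_three⟩
  obtain ⟨ι, φ, F, g⟩ := h.ff
  set Z := Op 3 (im φ E) ⊓ cen (Op 3 (im φ E))
  have nZ : im φ E ≤ nrm Z := nrm_center (le_nrm_Opi _ _)
  have d := h.EL.trans h.nY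
  have lJ := im_mono φ h.JE
  have lX : im φ J ⊔ Z ≤ im φ E := sup_le lJ (inf_le_left.trans (Opi_le _ _))
  have n : im φ E ≤ nrm (im φ J ⊔ Z) := g _ fun B hB K k1 k2 a1 a2 a3 _ => le_nrm_of_comm_le' lX (a3.trans
    (le_sup_right.trans' (le_inf (le_Op (im_mono _ (h.KE' k2 k1)) a2 (IsPGroup.of_card (n := 1) a1))
      (le_cen_symm (le_cen_of_card a1 (isPGroup_Op 3 _) ((Opi_le _ _).trans a2))))))
  have l := pRes_le_of_le_sup (isPGroup_im φ (h.syl.2.to_le h.JT)) (lJ.trans nZ) ((im_le_iff d).2 (h.E_le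
    ((im_le_iff (h.JL.trans h.nY)).1 le_sup_left) (le_nrm_pre d n)))
  rw [← im_pRes d] at l
  have d' := (H2.pRes_le (p := 2) _).trans d
  exact le_inf (comm_le_of_le ((H2.pRes_le _).trans h.EL) ((H2.pRes_le _).trans h.EL)) (((im_le_cen_iff d' d').1
    (l.trans (inf_le_right.trans (cen_anti (l.trans inf_le_left))))).trans F.ker.le)

theorem gen (hJ : J ≤ X) (hX : ∀ K ≤ L, JC J K → K ≤ X) : E ≤ X := by
  obtain ⟨ι, φ, F, g⟩ := h.ff
  set X0 := J ⊔ sSup {K | K ≤ L ∧ JC J K}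
  have l : X0 ≤ E := sup_le h.JE (sSup_le fun K k => h.KE' k.2 k.1)
  have d := h.EL.trans h.nY
  have n : im φ E ≤ nrm (im φ X0) := g _ fun B hB K k1 k2 _ _ a3 _ => le_nrm_of_comm_le' (im_mono _ l) (a3.trans
    (im_mono _ (le_sup_right.trans' (le_sSup ⟨k1, k2⟩))))
  have l2 := h.E_le (le_sup_left.trans (le_pre_im (l.trans d))) (le_nrm_pre d n)
  rw [pre_im (l.trans d), F.ker] at l2
  have l3 := (le_inf l2 le_rfl).trans (modular (nrm_cen (l.trans d)) l).le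
  have l4 : E ≤ Q ⊔ X0 := h.E_le (le_sup_left.trans le_sup_right) (l3.trans (sup_le (le_sup_right.trans (le_nrm_self _))
    (le_nrm_of_comm_le ((comm_sup_le ((Opi_le _ _).trans h.nQ) (l.trans (h.EL.trans h.nQ)) (comm_le_left
      (inf_le_right.trans (h.EL.trans h.nQ))) ((commutator_comm _ _).le.trans ((commutator_mono (le_inf (inf_le_right.trans
        h.EL) inf_le_left) l).trans h.cE))).trans le_sup_left))))
  refine (h.E_le le_sup_left (l4.trans (sup_le (nrm_sup h.QJ (nrm_sSup fun a ha K k => ?_)) (le_nrm_self _)))).trans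
    (sup_le hJ (sSup_le fun K k => hX K k.1 k.2))
  rwa [cj_of_mem_nrm (k.2.nrm_of (k.1.trans h.nQ) h.QJ ha)]

end LT2

end H1B
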