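import Cfsg.Agent.H1.JC2

/-! `J(T)`-components: subnormality, uniqueness, and the global consequences. -/

set_option linter.unusedSectionVars false

namespace H1B
open Subgroup Cfsg H7
open H1 (ncl)
open scoped commutatorElement H2

variable {G : Type*} [Group G] [Finite G] {A B C D E H J K K' L M N P Q R S T U V W X Y Z : Subgroup G}
  {a b c d g t x y z : G}

theorem JC.sq_mem (h : JC J K) (hx : x ∈ K) (h2 : x ^ 2 ∈ Op 2 K) : x ∈ Op 2 K := by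
  by_contra c
  obtain ⟨k, hk⟩ := isPGroup_iff_mem.1 (isPGroup_Op 2 K) _ h2
  refine h.not_pg (H1.sup_zpowers_eq_of_relIndex_prime (h.idx ▸ Nat.prime_three) (Opi_le _ _) hx c ▸ sup_comm _ (Op 2 K) ▸
    H7.isPGroup_sup (zpowers_le.2 (le_nrm_Opi _ _ hx)) (isPGroup_zpowers (k := k + 1) ?_) (isPGroup_Op 2 K))
  rw [pow_succ', pow_mul, hk]

namespace LT2
variable (h : LT2 T L)
include h

local notation "Q" => Op 2 L
local notation "Y" => Z1 2 (Op 2 L)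
local notation "C" => L ⊓ cen (Z1 2 (Op 2 L))
local notation "E" => JJ 2 L
local notation "J" => JJ 2 T

section
variable (k : JC (JJ 2 T) K) (l : K ≤ L)
include k l

theorem Qn : Q ≤ nrm K := k.nrm_of (l.trans h.nQ) h.QJ

theorem res_Q : pRes 2 (K ⊔ Q) = K := by rw [pRes_sup_pg (isPGroup_Op 2 L) (h.Qn k l), k.res]

theorem nrm_of_Q (hA : A ≤ nrm (K ⊔ Q)) : A ≤ nrm K := h.res_Q k l ▸ le_nrm_pRes hA

theorem nKQ : C ≤ nrm (K ⊔ Q) := le_nrm_of_comm_le ((comm_sup_le (l.trans h.nQ) (le_nrm_self _) ((commutator_comm _ _).le.trans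
  ((commutator_mono le_rfl (h.KE' k l)).trans h.cE)) (comm_le_left (inf_le_left.trans h.nQ))).trans le_sup_right)

theorem nKC : pRes 2 E ≤ nrm (K ⊔ C) := le_nrm_of_comm_le ((comm_sup_le (l.trans h.nC) (le_nrm_self _)
  ((commutator_mono (h.KE k l) le_rfl).trans h.ab) (comm_le_left ((H2.pRes_le _).trans (h.EL.trans h.nC)))).trans le_sup_right)

theorem sn : SN L K :=
  ((SN.of_normal le_sup_left (sup_le (le_nrm_self _) (h.Qn k l))).trans (SN.of_normal (sup_le_sup_left h.QC _)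
    (sup_le (le_sup_left.trans (le_nrm_self _)) (h.nKQ k l)))).trans ((SN.of_normal (sup_le_sup_right (h.KE k l) _)
      (sup_le (h.nKC k l) (le_sup_right.trans (le_nrm_self _)))).trans (SN.of_normal (sup_le ((H2.pRes_le _).trans h.EL)
        inf_le_left) (nrm_sup (le_nrm_pRes h.nE) h.nC)))

theorem OQ : Op 2 K ≤ Q := Opi_le_of_sn _ (h.sn k l)

theorem WY : WK K ≤ Y := le_Z1 (ea_WK K) ((WK_le_O K).trans (h.OQ k l)) (le_cen_symm (by
  by_contra c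
  exact k.not_pg ((isPGroup_Op 2 L).to_le ((k.comm_eq (h.Qn k l) c (isPGroup_Op 2 L)).ge.trans
    (comm_le_right (l.trans h.nQ))))))

theorem YK : ⁅Y, K⁆ = WK K := le_antisymm (comm_le_WK (ea_Z1 _ _) (l.trans h.nY) ((Z1_le _ _).trans (h.Qn k l))
  ((inf_le_inf_right _ (Z1_le _ _)).trans (inf_le_Opi _ l)) k.idx ((h.OQ k l).trans (le_cen_Z1 _ _)))
  (k.comm_W.ge.trans (commutator_mono (h.WY k l) le_rfl))

theorem CW : C ≤ cen (WK K) := inf_le_right.trans (cen_anti (h.WY k l))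

theorem nW : pRes 2 E ≤ nrm (WK K) := by
  have : ⁅K ⊔ C, Y⁆ = WK K := by
    rw [comm_sup_cen inf_le_right, commutator_comm, h.YK k l]
    rw [commutator_comm, h.YK k l]; exact le_nrm_of_le_cen (h.CW k l)
  exact this ▸ nrm_commutator (h.nKC k l) ((H2.pRes_le _).trans (h.EL.trans h.nY))

variable (k' : JC (JJ 2 T) K') (l' : K' ≤ L)
include k' l'

theorem le_of_W (e : WK K = WK K') : K ≤ K' := by
  obtain ⟨u, hu, u1⟩ := exists_ne_one k.W_ne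
  have lD := sup_le (h.KE k l) (h.KE k' l')
  have nD := lD.trans (h.nW k l)
  have i := relIndex_cen1_le (R := K ⊔ K') fun r hr => comm_le_right nD (commutator_mem_commutator hr hu)
  have cu : C ≤ cen1 u := (h.CW k l).trans (cen_le_cen1 hu)
  have n0 : K ⊔ K' ≤ nrm ((K ⊔ K') ⊓ cen1 u) := le_nrm_of_comm_le' inf_le_left (le_inf (comm_le_of_le le_rfl le_rfl)
    ((commutator_mono lD lD).trans (h.ab.trans cu)))
  have c0 : (K ⊔ K') ⊓ cen1 u ≤ cen (WK K) := le_cen_symm ((k.irr inf_le_left (le_sup_left.trans (nrm_inf nD (nrm_cen n0)))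
    fun b => u1 (mem_bot.1 (b.le ⟨hu, le_cen1_iff.1 inf_le_right⟩))).ge.trans inf_le_right)
  set D := (K ⊔ K') ⊓ cen1 u
  have i2 : D.relIndex (K' ⊔ D) = 3 := by
    rw [relIndex_sup_nrm (le_sup_right.trans n0), ← inf_relIndex_right, ← k'.idx]
    congr 1
    exact le_antisymm (k'.le_O inf_le_right (e ▸ inf_le_left.trans c0)) (le_inf (le_inf ((Opi_le _ _).trans le_sup_right)
      ((h.OQ k' l').trans (h.QC.trans cu))) (Opi_le _ _))
  have l2 : K' ⊔ D ≤ K ⊔ K' := sup_le le_sup_right inf_le_left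
  have i3 := relIndex_mul_relIndex D _ _ le_sup_right l2
  rw [i2, inf_relIndex_left] at i3
  rw [k.card] at i
  have e2 := relIndex_eq_one.1 (show (K' ⊔ D).relIndex (K ⊔ K') = 1 by have := relIndex_pos (K' ⊔ D) (K ⊔ K'); omega)
  have r : pRes 2 D ≤ C := le_inf ((H2.pRes_le _).trans (inf_le_left.trans (sup_le l l'))) (pRes_le_cen_of_chain
    (ea_WK K).isPGroup ((commutator_mono le_rfl inf_le_left).trans (comm_sup_le' (le_sup_left.trans nD)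
      (le_sup_right.trans nD) (h.YK k l).le (e ▸ (h.YK k' l').le))) ((H2.pRes_le _).trans c0))
  obtain ⟨P, hP⟩ := H2.exists_isSylowIn 2 D
  have l3 : K ≤ K' ⊔ C := k.res.ge.trans (pRes_le_of_le_sup hP.2 (hP.1.trans (inf_le_left.trans (lD.trans (h.nKC k' l'))))
    (le_sup_left.trans (e2.trans (sup_le (le_sup_left.trans le_sup_right) (hP.pRes_sup.ge.trans
      (sup_le (r.trans (le_sup_right.trans le_sup_right)) le_sup_left))))))
  refine k.res.ge.trans (pRes_le_of_le_sup (isPGroup_Op 2 L) (h.Qn k' l') (k.comm.ge.trans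
    ((commutator_mono l3 le_rfl).trans (comm_sup_le (le_sup_right.trans (le_nrm_self _)) (sup_comm K' _ ▸ h.nKQ k' l')
      (k'.comm.le.trans le_sup_right) (((commutator_mono le_rfl h.JE).trans h.cE).trans le_sup_left)))))

theorem uniq (e : WK K ⊓ WK K' ≠ ⊥) : K = K' := by
  have a := k.irr inf_le_left (nrm_inf (nrm_WK (le_nrm_self _)) ((h.KE k l).trans (h.nW k' l'))) e
  have b := k'.irr inf_le_right (nrm_inf ((h.KE k' l').trans (h.nW k l)) (nrm_WK (le_nrm_self _))) e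
  exact le_antisymm (h.le_of_W k l k' l' (a.symm.trans b)) (h.le_of_W k' l' k l (b.symm.trans a))

theorem W_disj (e : K ≠ K') : WK K ⊓ WK K' = ⊥ := by_contra fun c => e (h.uniq k l k' l' c)

theorem cen_W (e : K ≠ K') : K' ≤ cen (WK K) := comm_eq_bot'.1 (eq_bot_iff.2 ((h.W_disj k l k' l' e).le.trans'
  (le_inf (comm_le_left ((h.KE k' l').trans (h.nW k l))) ((commutator_mono (h.WY k l) le_rfl).trans (h.YK k' l').le))))

theorem nrm_ne (e : K ≠ K') : K' ≤ nrm K := by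
  obtain ⟨A, hA, a⟩ : ∃ A, H2.MX 2 T A ∧ ¬ A ≤ cen (WK K') := by
    by_contra! c; exact k'.not_J (H2.J_le_iff.2 c)
  have n := hA.le_J.trans k.nJ_W
  have n' := hA.le_J.trans k'.nJ_W
  have WT := (h.WY k l).trans ((Z1_le _ _).trans h.QT)
  have WT' := (h.WY k' l').trans ((Z1_le _ _).trans h.QT)
  have b : ¬ cen (WK K) ⊓ A ≤ cen (WK K') := fun c => by
    have s := mx_star hA (ea_WK K) WT k.card n
    have m : WK K' ≤ cen (WK K) ⊓ A ⊔ WK K := fun w hw => s.mem (WT' hw) (le_cen_symm (sup_le c ((h.WY k l).trans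
      ((ea_Z1 _ _).le_cen.trans (cen_anti (h.WY k' l'))))) hw) ((ea_WK _).pow hw)
    exact a (comm_eq_bot'.1 (eq_bot_iff.2 ((h.W_disj k l k' l' e).le.trans' (le_inf ((commutator_mono m le_rfl).trans
      (comm_sup_le (le_nrm_of_le_cen inf_le_left) (le_nrm_self _) ((comm_eq_bot.2 (inf_le_right.trans
        (EA.le_cen hA.2.1))).le.trans bot_le) (comm_le_left n))) (comm_le_left n')))))
  have eB := EA.of_le hA.2.1 (inf_le_right : cen (WK K) ⊓ A ≤ A)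
  have BJ := (inf_le_right : cen (WK K) ⊓ A ≤ A).trans hA.le_J
  have c := k'.comm_eq (BJ.trans k'.nJ) b eB.isPGroup
  have c2 : K' ≤ cmod Q K := c.ge.trans ((comm_le_ncl' _ _).trans (H1.ncl_le_iff.2 fun g hg x hx => ?_))
  · exact h.nrm_of_Q k l (le_nrm_of_comm_le ((comm_sup_le (l.trans h.nQ) (le_nrm_self _) ((commutator_comm _ _).le.trans
      (le_cmod.1 c2).2) (comm_le_left (l'.trans h.nQ))).trans le_sup_right))
  obtain ⟨y, hy, rfl⟩ := mem_cj'.1 hx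
  have m1 : g * y * g⁻¹ ∈ E := mul_mem (mul_mem (h.KE' k' l' hg) (h.JE (BJ hy))) (inv_mem (h.KE' k' l' hg))
  have m2 : g * y * g⁻¹ ∈ cen (WK K) := mul_mem (mul_mem (h.cen_W k l k' l' e hg) hy.1) (inv_mem (h.cen_W k l k' l' e hg))
  have m3 : g * y * g⁻¹ ∈ nrm (K ⊔ C) := mul_mem (mul_mem (h.nKC k l (h.KE k' l' hg)) (nrm_sup k.nJ (h.JL.trans h.nC) (BJ hy)))
    (inv_mem (h.nKC k l (h.KE k' l' hg)))
  refine mem_cmod.2 ⟨h.nQ (h.EL m1), fun d hd => ?_⟩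
  rw [← commutatorElement_inv]
  refine inv_mem (h.invol m1 (by rw [conj_pow, eB.pow hy]; group) ?_)
  have : (C ⊔ K) ⊓ cen (WK K) ≤ C := (modular' (l.trans h.nC) (h.CW k l)).le.trans (sup_le le_rfl
    ((k.le_O inf_le_left inf_le_right).trans ((h.OQ k l).trans h.QC)))
  exact this ⟨sup_comm K C ▸ (comm_le_left (zpowers_le.2 m3) (commutator_mem_commutator (mem_sup_left hd) (mem_zpowers _))),
    comm_le_right (nrm_cen (nrm_WK (le_nrm_self K))) (commutator_mem_commutator hd m2)⟩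

end

theorem nrm_E (k : JC J K) (l : K ≤ L) : E ≤ nrm K := h.gen k.nJ fun K' l' k' => by
  by_cases e : K = K'
  · exact e ▸ le_nrm_self K
  · exact h.nrm_ne k l k' l' e

theorem cj_jc (k : JC J K) (l : K ≤ L) (hg : g ∈ L) : JC J (cj g K) := by
  obtain ⟨n, hn, e, he, rfl⟩ := (mem_sup_nrm (inf_le_left.trans h.nE)).1 (h.frat.ge hg)
  have := k.cjg n
  rwa [cj_of_mem_nrm hn.2, ← cj_of_mem_nrm (h.nrm_E k l he), ← H7.cj_mul] at this

theorem nU : L ≤ nrm (sSup (WK '' {K | K ≤ L ∧ JC J K})) := nrm_sSup fun a ha _ ⟨K, k, e⟩ =>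
  ⟨cj a K, ⟨cj_le_of_mem ha k.1, h.cj_jc k.2 k.1 ha⟩, by rw [← cj_WK, e]⟩

theorem UY : sSup (WK '' {K | K ≤ L ∧ JC J K}) ≤ Y := sSup_le fun _ ⟨_, k, e⟩ => e ▸ h.WY k.2 k.1

theorem cen_U : E ⊓ cen (sSup (WK '' {K | K ≤ L ∧ JC J K})) ≤ C := by
  obtain ⟨ι, φ, F, g⟩ := h.ff
  set U := sSup (WK '' {K | K ≤ L ∧ JC J K})
  have d := h.EL.trans h.nY
  have nU := (F.le_nrm h.UY d).2 (h.EL.trans h.nU)
  have c := (le_cmod.1 (g (cmod (im ι U) (im ι Y)) fun B hB K k1 k2 _ _ _ a => le_cmod.2 ⟨hB.trans nU,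
    (commutator_comm _ _).le.trans (a.trans (by
      rw [← F.comm le_rfl (k1.trans h.nY), h.YK k2 k1]; exact im_mono _ (le_sSup ⟨K, ⟨k1, k2⟩, rfl⟩)))⟩)).2
  rw [commutator_comm, ← F.comm le_rfl d, F.im_le (comm_le_left d)] at c
  have l : E ⊓ cen U ≤ L := inf_le_left.trans h.EL
  exact le_inf l ((le_Omod l (nrm_inf h.nE (nrm_cen h.nU)) ((piN_relIndex_iff (nrm_cen (l.trans h.nY))).2
    (pRes_le_cen_of_chain ((ea_Z1 2 _).isPGroup.to_le h.UY) ((commutator_mono le_rfl inf_le_left).trans c)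
      ((H2.pRes_le _).trans inf_le_right)))).trans h.omod)

theorem exists_not_le (hn : L ⊓ nrm J ≤ M) (hL : ¬ L ≤ M) : ∃ K ≤ L, JC J K ∧ ¬ K ≤ M := by
  by_contra! c
  exact hL (h.frat.ge.trans (sup_le hn (h.gen ((le_inf h.JL (le_nrm_self _)).trans hn) c)))

theorem exists_jc (hn : ¬ J ≤ Q) : ∃ K ≤ L, JC J K := by
  by_contra! c
  have e := le_antisymm h.JE (h.gen le_rfl fun K l k => (c K l k).elim)
  exact hn (le_Op h.JL (e ▸ h.nE) (h.syl.2.to_le h.JT))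

theorem nrm_W_of_sn {J' : Subgroup G} (k : JC J' K) (l : K ⊔ J ≤ L) (s : SN (K ⊔ J) K) (e : L ≤ K ⊔ J ⊔ Q) : J ≤ nrm (WK K) := by
  set H := K ⊔ J
  set U := sSup (WK '' {K | K ≤ L ∧ JC J K})
  have lK := le_sup_left.trans l
  have EH : E ≤ H := (h.E_le H1.le_ncl (h.EL.trans (e.trans (sup_le H1.le_nrm_ncl (nrm_ncl_of (l.trans h.nQ) h.QJ))))).trans
    (H1.ncl_le_of_le le_sup_right le_rfl)
  have oH : Op 2 H ≤ Q := le_sup_left.trans (le_Op (sup_le ((Opi_le _ _).trans l) (Opi_le _ _)) (e.trans (sup_le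
    (nrm_sup (le_nrm_Opi _ _) (l.trans h.nQ)) (le_sup_right.trans (le_nrm_self _))))
      (H7.isPGroup_sup ((Opi_le _ _).trans (l.trans h.nQ)) (isPGroup_Op _ _) (isPGroup_Op _ _)))
  have on : Op 2 H ≤ nrm K := k.res ▸ s.OpNrm
  have oK : Op 2 K ≤ Q := (Opi_le_of_sn _ s).trans oH
  have UH : U ≤ Op 2 H := (le_inf (h.UY.trans (Z1_le _ _)) (sSup_le fun _ ⟨K, k, e⟩ => e ▸ (WK_le_O K).trans
    ((Opi_le _ _).trans ((h.KE' k.2 k.1).trans EH)))).trans (inf_le_Opi _ l)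
  have cU : ⁅U, K⁆ ≤ WK K := comm_le_WK ((ea_Z1 _ _).of_le h.UY) (lK.trans h.nU) (UH.trans on)
    ((inf_le_inf_right _ UH).trans (inf_le_Opi _ le_sup_left)) k.idx (oK.trans ((le_cen_Z1 _ _).trans (cen_anti h.UY)))
  by_cases c : K ≤ cen U
  · have : J ≤ cmod (Op 2 H) K := H2.J_le_iff.2 fun A hA a ha => mem_cmod.2 ⟨le_nrm_Opi _ _ (mem_sup_right (hA.le_J ha)),
      fun x hx => by
        have m := commutator_mem_commutator hx (h.JE (hA.le_J ha))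
        have m1 := comm_le_right (lK.trans h.nE) m
        rw [← commutatorElement_inv]
        exact inv_mem (inf_le_Opi _ l ⟨h.invol (h.JE (hA.le_J ha)) (EA.pow hA.2.1 ha) (h.cen_U ⟨m1, comm_le_left
          (h.EL.trans (nrm_cen h.nU)) (commutator_mono c le_rfl m)⟩), EH m1⟩)⟩
    have n : J ≤ nrm (K ⊔ Op 2 H) := le_nrm_of_comm_le ((comm_sup_le (le_sup_left.trans (le_nrm_Opi _ _)) (le_nrm_self _)
      ((commutator_comm _ _).le.trans (le_cmod.1 this).2) (comm_le_left (le_cmod.1 this).1)).trans le_sup_right)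
    have := le_nrm_pRes (p := 2) n
    rw [pRes_sup_pg (isPGroup_Op _ _) on, k.res] at this
    exact nrm_WK this
  obtain ⟨K1, l1, k1, c1⟩ : ∃ K1 ≤ L, JC J K1 ∧ ¬ K ≤ cen (WK K1) := by
    by_contra! d; exact c (le_cen_sSup fun _ ⟨K, k, e⟩ => e ▸ d K k.1 k.2)
  have c2 := (commutator_mono (le_sSup ⟨K1, ⟨l1, k1⟩, rfl⟩ : WK K1 ≤ U) le_rfl).trans cU
  by_cases n : K ≤ nrm K1
  · have := (k.irr c2 (nrm_comm_right _ _) fun b => c1 (comm_eq_bot'.1 b)).ge.trans (comm_le_left (nrm_WK n))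
    exact eq_of_le_of_card_le this (k1.card.trans k.card.symm).le ▸ k1.nJ_W
  obtain ⟨x, hx, n⟩ := SetLike.not_le_iff_exists.1 n
  have k2 := h.cj_jc k1 l1 (lK hx)
  have l2 := cj_le_of_mem (lK hx) l1
  have k3 := h.cj_jc k2 l2 (lK hx)
  have l3 := cj_le_of_mem (lK hx) l2
  have e12 : K1 ≠ cj x K1 := fun b => n (cj_eq_self_iff.1 b.symm)
  have e23 : cj x K1 ≠ cj x (cj x K1) := fun b => e12 (by simpa only [H2.cj_inv_cj] using congrArg (cj x⁻¹) b)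
  have e13 : K1 ≠ cj x (cj x K1) := fun b => by
    rw [← H7.cj_mul, ← pow_two, eq_comm, cj_eq_self_iff] at b
    rcases H1.eq_or_eq_of_relIndex_prime (k.idx ▸ Nat.prime_three) (le_inf (Opi_le _ _) (oK.trans (h.Qn k1 l1)))
      inf_le_left with e | e
    · exact n (h.Qn k1 l1 (oK (k.sq_mem hx (e.le ⟨pow_mem hx 2, b⟩))))
    · exact n (e.ge hx).2
  have w := (h.WY k1 l1).trans ((ea_Z1 _ _).le_cen)
  have wK : WK K1 ≤ nrm (WK K) := le_nrm_of_le_cen ((h.WY k1 l1).trans (le_cen_symm ((WK_le_O K).trans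
    (oK.trans (le_cen_Z1 _ _)))))
  have nX : K ≤ nrm (WK K1 ⊔ WK K) := le_nrm_of_comm_le ((comm_sup_le wK (le_nrm_self _) c2 k.comm_W.le).trans le_sup_right)
  have a2 : WK (cj x K1) ≤ WK K1 ⊔ WK K := cj_WK x K1 ▸ cj_le_of_mem_nrm (nX hx) le_sup_left
  have a3 : WK (cj x (cj x K1)) ≤ WK K1 ⊔ WK K := cj_WK x _ ▸ cj_le_of_mem_nrm (nX hx) a2
  have b := eq_of_le_of_card_le (sup_le le_sup_left a2) (by
    rw [card_sup_of_inf_eq_bot (le_nrm_of_le_cen (w.trans (cen_anti (h.WY k2 l2)))) (h.W_disj k1 l1 k2 l2 e12), k2.card,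
      ← k.card]
    exact Nat.le_of_dvd (Nat.mul_pos (card_pos' _) (card_pos' _)) (card_sup_dvd wK))
  exact (k3.not_cen ((le_cen_sup (h.cen_W k1 l1 k3 l3 e13) (h.cen_W k2 l2 k3 l3 e23)).trans (cen_anti (a3.trans b.ge)))).elim

end LT2

structure HypZ (G : Type*) [Group G] : Prop where
  c : IsCharacteristicTwoType G
  s : ∀ N : Subgroup G, IsTwoLocal N → Group.IsSolvable N
  z : ∀ S : Sylow 2 G, cen (omegaCenterOf (S : Subgroup G)) ≤ nrm (S : Subgroup G)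

namespace HypZ
variable (h : HypZ G)
include h

theorem lt (hT : IsSylowIn 2 T L) (ne : Op 2 L ≠ ⊥) (hc : cen (Op 2 L) ≤ Op 2 L) : LT2 T L := by
  obtain ⟨S, hS⟩ := hT.2.exists_le_sylow
  have QS := (Op_le_of_sylow hT).trans hS
  have c := (Z1_le_cen 2 (S : Subgroup G)).trans (cen_anti QS)
  have n := (cen_anti (le_Z1 (ea_Z1 _ _) (c.trans hc) c)).trans (omegaCenterOf_eq (X := (S : Subgroup G)) ▸ h.z S)
  refine ⟨hT, solv_of_le (le_nrm_Opi _ _) (h.s _ ⟨_, isPGroup_Op 2 L, ne, rfl⟩), ?_⟩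
  rw [← hT.eq_of_le (S.isPGroup'.to_le inf_le_left) (le_inf hS hT.1) inf_le_right]
  exact nrm_inf (inf_le_right.trans n) (inf_le_left.trans (le_nrm_self _))

theorem loc (hL : IsTwoLocal L) : Op 2 L ≠ ⊥ ∧ cen (Op 2 L) ≤ Op 2 L := by
  obtain ⟨R, h1, h2, rfl⟩ := hL
  have l := le_Op (le_nrm_self R) le_rfl h1
  exact ⟨fun e => h2 (eq_bot_iff.2 (l.trans e.le)), (le_inf ((cen_anti l).trans (cen_le_nrm R)) le_rfl).trans
    (chp_iff.1 (h.c.2 R h1 h2))⟩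

theorem lt_of (hL : L ∈ jOvergroups T) (ne : T ≠ ⊥) : LT2 T L := by
  obtain ⟨h1, -, h3⟩ := hL
  rw [pCoreOf_eq] at h3
  exact h.lt (sylTwo_iff.1 h1) (fun e => ne (eq_bot_iff.2 ((le_cen_bot T).trans (e ▸ h3)))) h3

theorem zero (k : JC J K) (h0 : ∀ S, J ≤ S → IsSylowIn 2 S (nrm (WK K)) → JJ 2 S = J) :
    nrm K = nrm (WK K) ∧ ∀ g, cj g J ≤ nrm (WK K) → JC (cj g J) K := by
  obtain ⟨T, hT, l⟩ := H2.exists_isSylowIn_ge k.pg k.nJ_W
  obtain rfl := h0 T l hT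
  have a := h.loc ⟨_, (ea_WK K).isPGroup, k.W_ne, rfl⟩
  have t := h.lt hT a.1 a.2
  have lK := nrm_WK (le_nrm_self K)
  have n : nrm (WK K) ≤ nrm K := fun g hg => cj_eq_self_iff.1 (t.uniq (t.cj_jc k lK hg) (cj_le_of_mem hg lK) k lK (by
    rw [← cj_WK, cj_of_mem_nrm hg, inf_idem]; exact k.W_ne))
  refine ⟨le_antisymm (nrm_WK le_rfl) n, fun g hg => ?_⟩
  obtain ⟨m, hm, l⟩ := hT.exists_cj_le (H7.isPGroup_cj.2 k.pg) hg
  rw [← H7.cj_mul, H2.cj_J] at l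
  have e := J_eq_of_conj (T := cj (m * g) T) (g := (m * g)⁻¹) (by rwa [H2.cj_inv_cj])
  rw [H2.cj_inv_cj, ← H2.cj_J, H7.cj_mul, eq_comm, H7.cj_eq_iff] at e
  have := k.cjg m⁻¹
  rwa [← e, cj_of_mem_nrm (n (inv_mem hm))] at this

theorem mxE (hA : H2.MX 2 T A) : maxElemAbelianOrder T = ord A := by
  have m := fun B : Subgroup T => (mx_top_iff (p := 2) (A := B)).symm
  refine IsGreatest.csSup_eq ⟨⟨A.subgroupOf T, (m _).2 ⟨le_top, (ea_subgroupOf hA.1).2 hA.2.1, fun B _ e => ?_⟩,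
    card_subgroupOf_of_le hA.1⟩, ?_⟩
  · rw [card_subgroupOf_of_le hA.1, ← card_map_subtype]
    exact hA.2.2 _ (map_subtype_le _) (EA.map e _)
  · rintro _ ⟨B, hB, rfl⟩
    exact (card_map_subtype T B).ge.trans (hA.2.2 _ (map_subtype_le _) (EA.map hB.1 _))

theorem J_eq_max (hT : T ∈ maxStraddlingTwoSubgroups M) (hS : S ∈ straddlingTwoSubgroups M) (l : JJ 2 T ≤ S) :
    JJ 2 S = JJ 2 T ∧ ord S ≤ ord T := by
  obtain ⟨a1, a2⟩ := hT.2 S hS
  obtain ⟨A, hA⟩ := H2.exists_mx (P := T) 2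
  obtain ⟨B, hB⟩ := H2.exists_mx (P := S) 2
  rw [h.mxE hA, h.mxE hB] at a1 a2
  obtain ⟨a3, a4⟩ := a2 (le_antisymm a1 (hB.2.2 _ (hA.le_J.trans l) hA.2.1))
  have e := eq_of_le_of_card_le (H2.J_le_iff.2 fun D hD => (hB.of_card (hD.le_J.trans l) hD.2.1
    (a1.trans (hD.2.2 _ hA.1 hA.2.1))).le_J) a3
  exact ⟨e.symm, a4 (by rw [e])⟩

theorem nrm_J_le (S : Sylow 2 G) (hM : nrm (JJ 2 (S : Subgroup G)) ≤ M) (hT : T ∈ maxStraddlingTwoSubgroups M) :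
    nrm (JJ 2 T) ≤ M := by
  by_contra c
  obtain ⟨p, ne, l, -⟩ := hT.1
  obtain ⟨R, hR, l2⟩ := H2.exists_isSylowIn_ge p l
  have j : JJ 2 T ≠ ⊥ := fun e => H2.ZJ_ne_bot (Or.inr rfl) p ne (eq_bot_iff.2 (inf_le_left.trans e.le))
  have l3 : T ≤ R ⊓ nrm (JJ 2 T) := le_inf l2 (H2.nrm_J (le_nrm_self T))
  have e := eq_of_le_of_card_le l3 (h.J_eq_max hT ⟨hR.2.to_le inf_le_left, fun e => ne (eq_bot_iff.2 (l3.trans e.le)),
    inf_le_left.trans hR.1, _, ⟨_, p.to_le (H2.thompsonE_le T), j, rfl⟩, inf_le_right, c⟩ ((H2.thompsonE_le T).trans l3)).2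
  obtain rfl : T = R := by_contra fun k => (pgroup_lt_nrm hR.2 (lt_of_le_of_ne l2 k)).not_ge
    ((inf_le_inf_left _ (H2.nrm_J le_rfl)).trans e.ge)
  obtain ⟨g, hg, e⟩ := (syl_le S ((H2.nrm_J (le_nrm_self _)).trans hM)).exists_cj_eq hR
  exact c (by rw [← e, ← H2.cj_J, ← cj_nrm]; exact cj_le_of_mem hg hM)

theorem strad (S : Sylow 2 G) (hM : nrm (JJ 2 (S : Subgroup G)) ≤ M) (hT : T ∈ maxStraddlingTwoSubgroups M)
    (hL : IsTwoLocal L) (hLM : ¬ L ≤ M) (hR : IsSylowIn 2 R L) (l : JJ 2 T ≤ R) :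
    JJ 2 R = JJ 2 T ∧ R ∈ straddlingTwoSubgroups M ∧ ord R ≤ ord T ∧ L ∈ jOvergroups R := by
  have n := h.nrm_J_le S hM hT
  obtain ⟨p, ne, -⟩ := hT.1
  have j : JJ 2 T ≠ ⊥ := fun e => H2.ZJ_ne_bot (Or.inr rfl) p ne (eq_bot_iff.2 (inf_le_left.trans e.le))
  have l3 : JJ 2 T ≤ R ⊓ nrm (JJ 2 T) := le_inf l (le_nrm_self _)
  have s : R ⊓ nrm (JJ 2 T) ∈ straddlingTwoSubgroups M := ⟨hR.2.to_le inf_le_left, fun e => j (eq_bot_iff.2
    (l3.trans e.le)), inf_le_right.trans n, L, hL, inf_le_left.trans hR.1, hLM⟩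
  obtain ⟨a, b⟩ := h.J_eq_max hT s l3
  have e : R ⊓ nrm (JJ 2 T) = R := by_contra fun k => (pgroup_lt_nrm hR.2 (lt_of_le_of_ne inf_le_left k)).not_ge
    (inf_le_inf_left _ ((H2.nrm_J le_rfl).trans (congrArg (fun X => nrm X) a).le))
  rw [e] at a b s
  refine ⟨a, s, b, sylTwo_iff.2 hR, ?_, by rw [pCoreOf_eq]; exact (h.loc hL).2⟩
  rw [pCoreOf_eq]
  exact fun c => hLM (n.trans' (a ▸ H2.J_eq_of_le c (Op_le_of_sylow hR) ▸ H2.nrm_J (le_nrm_Opi _ _)))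

theorem strad' (S : Sylow 2 G) (hM : nrm (JJ 2 (S : Subgroup G)) ≤ M) (hT : T ∈ maxStraddlingTwoSubgroups M)
    (hL : IsTwoLocal L) (hLM : ¬ L ≤ M) (l : T ≤ L) : L ∈ jOvergroups T := by
  obtain ⟨R, hR, l2⟩ := H2.exists_isSylowIn_ge hT.1.1 l
  obtain ⟨-, -, a, b⟩ := h.strad S hM hT hL hLM hR ((H2.thompsonE_le T).trans l2)
  exact eq_of_le_of_card_le l2 a ▸ b

theorem of_sn (hL : L ∈ jOvergroups T) (ne : T ≠ ⊥) (k : JC J K) (l : K ≤ L) (s : SN (K ⊔ JJ 2 T) K) :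
    JJ 2 T ≤ nrm (WK K) := by
  have t := h.lt_of hL ne
  obtain ⟨-, -, h3⟩ := hL
  rw [pCoreOf_eq] at h3
  have l1 : K ⊔ JJ 2 T ⊔ Op 2 L ≤ L := sup_le (sup_le l t.JL) (Opi_le _ _)
  obtain ⟨R, hR, l2⟩ := H2.exists_isSylowIn_ge (t.syl.2.to_le t.JT) (le_sup_right.trans le_sup_left :
    JJ 2 T ≤ K ⊔ JJ 2 T ⊔ Op 2 L)
  have o := Opi_le_Opi (π := {2}) l1 le_sup_right
  have e := J_eq_of_syl t.syl hR.2 (hR.1.trans l1) l2
  have t' := h.lt hR (fun e => ne (eq_bot_iff.2 ((le_cen_bot T).trans (eq_bot_iff.2 (o.trans e.le) ▸ h3))))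
    ((cen_anti o).trans (h3.trans o))
  have := t'.nrm_W_of_sn k (by rw [e]; exact le_sup_left) (by rwa [e]) (by rw [e]; exact sup_le_sup_left o _)
  rwa [e] at this

end HypZ

end H1B
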