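import Cfsg.Agent.H1.Inv
import Cfsg.Agent.H8.Sm1

/-! Simple groups of order 168. -/

set_option linter.unusedSectionVars false

namespace H1B
open Subgroup Cfsg H7

namespace L27
variable {G : Type*} [Group G] [Finite G] [IsSimpleGroup G]

instance f3 : Fact (Nat.Prime 3) := ⟨by norm_num⟩
instance f7 : Fact (Nat.Prime 7) := ⟨by norm_num⟩

theorem nc (h : Nat.card G = 168) : ¬ IsMulCommutative G :=
  H8.not_comm_of_not_prime (by rw [h]; norm_num)

theorem cardP {p k m : ℕ} [hp : Fact p.Prime] (P : Sylow p G) (h : Nat.card G = p ^ k * m)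
    (hm : ¬ p ∣ m) : ord (P : Subgroup G) = p ^ k := by
  have hm0 : m ≠ 0 := by rintro rfl; simp at hm
  rw [P.card_eq_multiplicity, h, Nat.factorization_mul (pow_ne_zero _ hp.out.ne_zero) hm0,
    Finsupp.add_apply, Nat.factorization_eq_zero_of_not_dvd hm, hp.out.factorization_pow]
  simp

theorem syl {p m : ℕ} [hp : Fact p.Prime] (h : Nat.card G = p ^ 1 * m) (hm : ¬ p ∣ m) {x : G}
    (hx : orderOf x = p) : ∃ P : Sylow p G, (P : Subgroup G) = zpowers x ∧ cen (P : Subgroup G) = cen1 x := by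
  obtain ⟨P, hP⟩ := (IsPGroup.of_card (n := 1) (G := zpowers x)
    (by rw [Nat.card_zpowers, hx, pow_one])).exists_le_sylow
  have : (P : Subgroup G) = zpowers x := (H7.eq_of_le_of_card_le hP
    (by rw [cardP P h hm, Nat.card_zpowers, hx, pow_one])).symm
  exact ⟨P, this, by rw [this, zpowers_eq_closure, centralizer_closure]⟩

theorem seven (h : Nat.card G = 168) (P : Sylow 7 G) : Nat.card (Sylow 7 G) = 8 ∧
    ord (cen (P : Subgroup G)) = 7 := by
  have hP : ord (P : Subgroup G) = 7 := cardP (k := 1) (m := 24) P h (by norm_num)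
  obtain ⟨e, c, h1, h2, h3, -, h5⟩ := H8.sylow_prime_facts (nc h) P hP
  have h6 : Nat.card (Sylow 7 G) % 7 = 1 % 7 := card_sylow_modEq_one 7 G
  have h7 : Nat.card (Sylow 7 G) ≠ 1 := by
    intro e
    haveI := (Nat.card_eq_one_iff_unique.1 e).1
    rcases (P.normal_of_subsingleton).eq_bot_or_eq_top with e | e
    · rw [e, Subgroup.card_bot] at hP; omega
    · rw [e, card_top, h] at hP; omega
  rw [h] at h5
  have h8 : Nat.card (Sylow 7 G) ∣ 24 := ⟨e * c, by linarith⟩
  have h9 := Nat.le_of_dvd (by norm_num) h8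
  have h10 := Nat.le_of_dvd (by norm_num) h1
  generalize Nat.card (Sylow 7 G) = n at *
  have : n = 8 := by interval_cases n <;> simp_all
  subst this
  refine ⟨rfl, ?_⟩
  interval_cases e <;> omega

theorem cen7 (h : Nat.card G = 168) {x : G} (hx : orderOf x = 7) : ord (cen1 x) = 7 := by
  obtain ⟨P, -, e⟩ := syl (m := 24) h (by norm_num) hx
  exact e ▸ (seven h P).2

theorem n7 (h : Nat.card G = 168) : Nat.card (Sylow 7 G) = 8 := (seven h default).1

theorem cnt7 (h : Nat.card G = 168) : {x : G | orderOf x = 7}.ncard = 48 := by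
  rw [H8.ncard_order_prime (default : Sylow 7 G) (cardP (k := 1) (m := 24) _ h (by norm_num)), n7 h]

theorem nrm7 (h : Nat.card G = 168) (P : Sylow 7 G) : ord (nrm (P : Subgroup G)) = 21 := by
  have h1 := P.card_eq_index_normalizer
  have h2 := (nrm (P : Subgroup G)).card_mul_index
  rw [n7 h] at h1
  have h3 : (nrm (P : Subgroup G)).index = 8 := h1.symm
  rw [h3, h] at h2
  omega

theorem not_dvd_cen {p : ℕ} [hp : Fact p.Prime] (hc : ∀ x : G, orderOf x = p → ord (cen1 x) = p)
    {g : G} (h1 : g ≠ 1) (h2 : orderOf g ≠ p) : ¬ p ∣ ord (cen1 g) := by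
  intro hd
  obtain ⟨y, hy⟩ := exists_prime_orderOf_dvd_card' p hd
  have hy' : orderOf (y : G) = p := by rw [orderOf_coe, hy]
  have h3 := orderOf_dvd_natCard (cen1 (y : G)) (x := g) (mem_cen1.2 (mem_cen1.1 y.2).symm)
  rw [hc _ hy'] at h3
  rcases (Nat.dvd_prime hp.out).1 h3 with e | e
  · exact h1 (orderOf_eq_one_iff.1 e)
  · exact h2 e

theorem three (h : Nat.card G = 168) {y : G} (hy : orderOf y = 3) : Nat.card (Sylow 3 G) = 28 ∧
    ord (cen1 y) = 3 := by
  obtain ⟨P, -, hc⟩ := syl (m := 56) h (by norm_num) hy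
  have hP : ord (P : Subgroup G) = 3 := cardP (k := 1) (m := 56) P h (by norm_num)
  obtain ⟨e, c, h1, h2, h3, -, h5⟩ := H8.sylow_prime_facts (nc h) P hP
  have h6 : Nat.card (Sylow 3 G) % 3 = 1 % 3 := card_sylow_modEq_one 3 G
  have hy1 : y ≠ 1 := by rintro rfl; simp at hy
  have h7 := not_dvd_cen (fun x => cen7 h) hy1 (by omega)
  have h8 : Nat.card (Sylow 3 G) ≠ 7 := by
    intro e7
    have c1 := H8.ncard_order_prime P hP
    rw [e7] at c1
    let Q : Sylow 7 G := default
    have hQ : ord (Q : Subgroup G) = 7 := cardP (k := 1) (m := 24) Q h (by norm_num)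
    have hs : (nrm (Q : Subgroup G) : Set G) \ (Q : Subgroup G) ⊆ {x : G | orderOf x = 3} := by
      rintro g ⟨g1, g2⟩
      have d := orderOf_dvd_natCard _ g1
      rw [nrm7 h] at d
      have hg1 : g ≠ 1 := by rintro rfl; exact g2 (one_mem _)
      have hg7 : orderOf g ≠ 7 := by
        intro e
        have := (IsPGroup.of_card (p := 7) (n := 1) (G := zpowers g)
          (by rw [Nat.card_zpowers, e, pow_one])).inf_normalizer_sylow Q
        exact g2 (this.le ⟨mem_zpowers g, g1⟩).2
      have d2 : ¬ 7 ∣ orderOf g := fun d2 => not_dvd_cen (fun x => cen7 h) hg1 hg7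
        (d2.trans (orderOf_dvd_natCard _ (self_mem_cen1 g)))
      have d3 : orderOf g ≠ 1 := by simpa using hg1
      have := Nat.le_of_dvd (by norm_num) d
      show orderOf g = 3
      generalize orderOf g = n at *
      interval_cases n <;> simp_all
    have he := Set.eq_of_subset_of_ncard_le hs (by
      rw [c1, Set.ncard_diff (le_normalizer (H := (Q : Subgroup G))), ← Nat.card_coe_set_eq,
        ← Nat.card_coe_set_eq]
      have a1 : Nat.card (nrm (Q : Subgroup G) : Set G) = 21 := nrm7 h Q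
      have a2 : Nat.card ((Q : Subgroup G) : Set G) = 7 := hQ
      omega)
    have hle : normalClosure {y} ≤ nrm (Q : Subgroup G) := by
      rw [normalClosure, closure_le]
      intro g hg
      obtain ⟨a, rfl, c, hc⟩ := Group.mem_conjugatesOfSet_iff.1 hg
      have : g ∈ {x : G | orderOf x = 3} := (SemiconjBy.orderOf_eq _ hc).symm.trans hy
      rw [← he] at this
      exact this.1
    rcases (normalClosure_normal (s := {y})).eq_bot_or_eq_top with e | e
    · exact hy1 (mem_bot.1 (e ▸ subset_normalClosure rfl))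
    · have := nrm7 h Q
      rw [e, top_le_iff] at hle
      rw [hle, card_top, h] at this
      omega
  rw [h] at h5
  rw [hc] at h3
  rw [h3] at h7 ⊢
  obtain rfl : e = 2 := by have := Nat.le_of_dvd (by norm_num) h1; interval_cases e <;> simp_all
  have h9 : Nat.card (Sylow 3 G) ∣ 28 := ⟨c, by linarith⟩
  have h10 := Nat.le_of_dvd (by norm_num) h9
  generalize Nat.card (Sylow 3 G) = n at *
  interval_cases n <;> omega

theorem ex3 (h : Nat.card G = 168) : ∃ y : G, orderOf y = 3 :=
  exists_prime_orderOf_dvd_card' 3 (by rw [h]; norm_num)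

theorem n3 (h : Nat.card G = 168) : Nat.card (Sylow 3 G) = 28 := (three h (ex3 h).choose_spec).1

theorem cnt3 (h : Nat.card G = 168) : {x : G | orderOf x = 3}.ncard = 56 := by
  rw [H8.ncard_order_prime (default : Sylow 3 G) (cardP (k := 1) (m := 56) _ h (by norm_num)), n3 h]

/-- the non-trivial 2-elements -/
def A (G : Type*) [Group G] : Set G := {g | g ≠ 1 ∧ orderOf g ≠ 3 ∧ orderOf g ≠ 7}

theorem cntA (h : Nat.card G = 168) : (A G).ncard = 63 := by
  have h1 : (A G)ᶜ = insert 1 ({x : G | orderOf x = 3} ∪ {x : G | orderOf x = 7}) := by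
    ext g; simp only [A, Set.mem_compl_iff, Set.mem_setOf_eq, Set.mem_insert_iff, Set.mem_union]
    tauto
  have h2 := Set.ncard_add_ncard_compl (A G)
  rw [h1, Set.ncard_insert_of_notMem (by simp), Set.ncard_union_eq (Set.disjoint_left.2 fun a h1 h2 => by
    simp only [Set.mem_setOf_eq] at h1 h2; omega), cnt3 h, cnt7 h, h] at h2
  omega

theorem cenA (h : Nat.card G = 168) {g : G} (hg : g ∈ A G) : ord (cen1 g) ∣ 8 := by
  have h1 := not_dvd_cen (fun x hx => (three h hx).2) hg.1 hg.2.1
  have h2 := not_dvd_cen (fun x => cen7 h) hg.1 hg.2.2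
  have h3 : ord (cen1 g) ∣ 8 * 3 * 7 := (card_subgroup_dvd_card _).trans h.dvd
  exact ((Nat.Prime.coprime_iff_not_dvd f3.out).2 h1).symm.dvd_of_dvd_mul_right
    (((Nat.Prime.coprime_iff_not_dvd f7.out).2 h2).symm.dvd_of_dvd_mul_right h3)

theorem card2 (h : Nat.card G = 168) (T : Sylow 2 G) : ord (T : Subgroup G) = 8 :=
  cardP (k := 3) (m := 21) T h (by norm_num)

theorem memA (h : Nat.card G = 168) (T : Sylow 2 G) {t : G} (ht : t ∈ (T : Subgroup G))
    (h1 : t ≠ 1) : t ∈ A G := by
  have := orderOf_dvd_natCard _ ht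
  rw [card2 h] at this
  refine ⟨h1, fun e => ?_, fun e => ?_⟩ <;> rw [e] at this <;> omega

theorem cen_le (h : Nat.card G = 168) {g : G} (hg : g ∈ A G) :
    ∃ T : Sylow 2 G, cen1 g ≤ T :=
  ((IsPGroup.of_card_dvd_pow (n := 3) (cenA h hg)) : IsPGroup 2 (cen1 g)).exists_le_sylow

theorem n2 (h : Nat.card G = 168) : Nat.card (Sylow 2 G) = 21 := by
  classical
  haveI := Fintype.ofFinite G
  haveI := Fintype.ofFinite (Sylow 2 G)
  have h1 : (A G).toFinset ⊆ Finset.univ.biUnion fun T : Sylow 2 G =>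
      ((T : Subgroup G) : Set G).toFinset.erase 1 := by
    intro g hg
    rw [Set.mem_toFinset] at hg
    obtain ⟨T, hT⟩ := cen_le h hg
    exact Finset.mem_biUnion.2 ⟨T, Finset.mem_univ _, Finset.mem_erase.2
      ⟨hg.1, Set.mem_toFinset.2 (hT (self_mem_cen1 g))⟩⟩
  have h2 := (Finset.card_le_card h1).trans (Finset.card_biUnion_le_card_mul _ _ 7 fun T _ => by
    rw [Finset.card_erase_of_mem (Set.mem_toFinset.2 (one_mem _)), ← Set.ncard_eq_toFinset_card',
      ← Nat.card_coe_set_eq]
    have : Nat.card ((T : Subgroup G) : Set G) = 8 := card2 h T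
    omega)
  rw [← Set.ncard_eq_toFinset_card', cntA h, Finset.card_univ, ← Nat.card_eq_fintype_card] at h2
  have h3 := (default : Sylow 2 G).card_dvd_index
  have h4 := ((default : Sylow 2 G) : Subgroup G).card_mul_index
  rw [card2 h, h] at h4
  rw [show ((default : Sylow 2 G) : Subgroup G).index = 21 by omega] at h3
  have := Nat.le_of_dvd (by norm_num) h3
  generalize Nat.card (Sylow 2 G) = n at *
  interval_cases n <;> omega

theorem nrm2 (h : Nat.card G = 168) (T : Sylow 2 G) : nrm (T : Subgroup G) = T := by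
  have h1 := T.card_eq_index_normalizer
  have h2 := (nrm (T : Subgroup G)).card_mul_index
  rw [n2 h] at h1
  have h3 : (nrm (T : Subgroup G)).index = 21 := h1.symm
  rw [h3, h] at h2
  exact (H7.eq_of_le_of_card_le le_normalizer (by rw [card2 h]; omega)).symm

theorem nab (h : Nat.card G = 168) (T : Sylow 2 G) : ¬ (T : Subgroup G) ≤ cen (T : Subgroup G) := by
  have := H8.not_nrm_le_cen (nc h) T (by rw [h]; norm_num)
  rwa [nrm2 h] at this

theorem four (h : Nat.card G = 168) {u : G} (hu : u ∈ A G) (h2 : u ^ 2 ≠ 1) :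
    orderOf u = 4 ∧ ord (cen1 u) = 4 := by
  have d1 := cenA h hu
  have d2 := orderOf_dvd_natCard _ (self_mem_cen1 u)
  have d3 : ¬ orderOf u ∣ 2 := fun d => h2 (orderOf_dvd_iff_pow_eq_one.1 d)
  have d4 : ord (cen1 u) ≠ 8 := by
    intro e
    obtain ⟨T, hT⟩ := cen_le h hu
    have e1 : cen1 u = T := H7.eq_of_le_of_card_le hT (by rw [card2 h, e])
    apply nab h T
    rw [← e1]
    have i1 := ((zpowers u).subgroupOf (cen1 u)).card_mul_index
    rw [Nat.card_congr (subgroupOfEquivOfLe (zpowers_le.2 (self_mem_cen1 u))).toEquiv,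
      Nat.card_zpowers, e] at i1
    have hz : ∀ a ∈ cen1 u, ∀ b ∈ zpowers u, a * b = b * a := by
      rintro a ha _ ⟨k, rfl⟩
      exact (Commute.zpow_right (mem_cen1.1 ha) k).eq
    intro a ha b hb
    by_cases ha' : a ∈ zpowers u
    · exact hz b hb a ha'
    have i2 : ((zpowers u).subgroupOf (cen1 u)).index = 2 := by
      have : ((zpowers u).subgroupOf (cen1 u)).index ≠ 1 := fun e => ha' (by
        rw [index_eq_one] at e
        exact (e ▸ mem_top _ : (⟨a, ha⟩ : cen1 u) ∈ (zpowers u).subgroupOf (cen1 u)))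
      have h8 := Nat.le_of_dvd (by norm_num) (d2.trans d1)
      generalize orderOf u = n at *
      interval_cases n <;> omega
    by_cases hb' : b ∈ zpowers u
    · exact (hz a ha b hb').symm
    have hab : b * a ∈ zpowers u := by
      have := (mul_mem_iff_of_index_two i2 (a := ⟨b, hb⟩) (b := ⟨a, ha⟩)).2 (iff_of_false hb' ha')
      exact this
    have := hz a ha _ hab
    rw [← mul_assoc] at this
    exact (mul_right_cancel this).symm
  have h8 := Nat.le_of_dvd (by norm_num) d1
  have h9 := Nat.le_of_dvd Nat.card_pos d2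
  generalize orderOf u = n at *
  generalize ord (cen1 u) = m at *
  interval_cases m <;> interval_cases n <;> simp_all

theorem cenZ (h : Nat.card G = 168) (T : Sylow 2 G) {z : G} (hz : z ∈ (T : Subgroup G)) (h1 : z ≠ 1)
    (hc : ∀ t ∈ (T : Subgroup G), t * z = z * t) : cen1 z = T :=
  (H7.eq_of_le_of_card_le (fun t ht => mem_cen1.2 (hc t ht))
    (by rw [card2 h]; exact Nat.le_of_dvd (by norm_num) (cenA h (memA h T hz h1)))).symm

theorem cls (h : Nat.card G = 168) {x : G} {c n : ℕ} (hc : ord (cen1 x) = c) (hn : n * c = 168)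
    (h0 : 0 < c) : {y | IsConj x y}.ncard = n := by
  have := card_class_mul x
  rw [hc, h, ← hn] at this
  rw [← Nat.card_coe_set_eq]
  exact Nat.eq_of_mul_eq_mul_right h0 this

theorem ord_conj {x y : G} (h : IsConj x y) : orderOf y = orderOf x := by
  obtain ⟨c, hc⟩ := h
  exact (SemiconjBy.orderOf_eq _ hc).symm

theorem main (h : Nat.card G = 168) (T : Sylow 2 G) : ∃ z ∈ (T : Subgroup G), ∃ u ∈ (T : Subgroup G),
    orderOf z = 2 ∧ orderOf u = 4 ∧ cen1 z = T ∧ {y | IsConj z y}.ncard = 21 ∧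
    {y | IsConj u y}.ncard = 42 ∧ ∀ g ∈ A G, IsConj z g ∨ IsConj u g := by
  haveI : Nontrivial (T : Subgroup G) := Finite.one_lt_card_iff_nontrivial.1 (by rw [card2 h]; omega)
  haveI := T.isPGroup'.center_nontrivial
  obtain ⟨⟨z, hz⟩, hz1⟩ := exists_ne (1 : center (T : Subgroup G))
  have z1 : (z : G) ≠ 1 := fun e => hz1 (Subtype.ext (Subtype.ext e))
  have cz := cenZ h T z.2 z1 fun t ht => congrArg Subtype.val (mem_center_iff.1 hz ⟨t, ht⟩)
  have c8 : ord (cen1 (z : G)) = 8 := by rw [cz, card2 h T]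
  have z2 : orderOf (z : G) = 2 := by
    refine orderOf_eq_prime ?_ z1
    by_contra e
    have := (four h (memA h T z.2 z1) e).2
    omega
  obtain ⟨u, hu, u2⟩ : ∃ u ∈ (T : Subgroup G), u ^ 2 ≠ 1 := by
    by_contra hc
    push Not at hc
    apply nab h T
    intro a ha b hb
    have e : ∀ t ∈ (T : Subgroup G), t⁻¹ = t := fun t ht =>
      inv_eq_of_mul_eq_one_right (pow_two t ▸ hc t ht)
    rw [← e _ (mul_mem hb ha), mul_inv_rev, e a ha, e b hb]
  have uA := memA h T hu (by rintro rfl; simp at u2)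
  obtain ⟨u4, cu⟩ := four h uA u2
  have k1 := cls h c8 (n := 21) rfl (by omega)
  have k2 := cls h cu (n := 42) rfl (by omega)
  refine ⟨z, z.2, u, hu, z2, u4, cz, k1, k2, fun g hg => ?_⟩
  have hs : {y | IsConj (z : G) y} ∪ {y | IsConj u y} ⊆ A G := by
    rintro y (hy | hy) <;> have := ord_conj hy <;>
      exact ⟨by rintro rfl; rw [orderOf_one] at this; omega, by omega, by omega⟩
  have he := Set.eq_of_subset_of_ncard_le hs (by
    rw [cntA h, Set.ncard_union_eq (Set.disjoint_left.2 fun a h1 h2 => by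
      have := ord_conj h1; have := ord_conj h2; omega), k1, k2])
  rw [← he] at hg
  exact hg

theorem cases (h : Nat.card G = 168) (g : G) : orderOf g = 1 ∨ orderOf g = 2 ∨ orderOf g = 3 ∨
    orderOf g = 4 ∨ orderOf g = 7 := by
  obtain ⟨z, -, u, -, z2, u4, -, -, -, hc⟩ := main h default
  by_cases hg : g ∈ A G
  · rcases hc g hg with e | e <;> have := ord_conj e <;> omega
  · simp only [A, Set.mem_setOf_eq, ← orderOf_eq_one_iff (x := g), ne_eq] at hg
    omega

theorem two_four (h : Nat.card G = 168) : ∃ z u : G, {y | IsConj z y} = {y | orderOf y = 2} ∧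
    {y | IsConj u y} = {y | orderOf y = 4} ∧ {y | IsConj z y}.ncard = 21 ∧
    {y | IsConj u y}.ncard = 42 := by
  obtain ⟨z, -, u, -, z2, u4, -, k1, k2, hc⟩ := main h default
  refine ⟨z, u, Set.ext fun y => ⟨fun e => (ord_conj e).trans z2, fun e => ?_⟩,
    Set.ext fun y => ⟨fun e => (ord_conj e).trans u4, fun e => ?_⟩, k1, k2⟩
  · have e : orderOf y = 2 := e
    refine (hc y ⟨by rintro rfl; simp at e, by omega, by omega⟩).resolve_right fun c => ?_
    have := ord_conj c; omega
  · have e : orderOf y = 4 := e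
    refine (hc y ⟨by rintro rfl; simp at e, by omega, by omega⟩).resolve_left fun c => ?_
    have := ord_conj c; omega

theorem conj2 (h : Nat.card G = 168) {s t : G} (hs : orderOf s = 2) (ht : orderOf t = 2) :
    IsConj s t := by
  obtain ⟨z, u, e, -, -, -⟩ := two_four h
  exact (e.ge hs).symm.trans (e.ge ht)

theorem conj4 (h : Nat.card G = 168) {s t : G} (hs : orderOf s = 4) (ht : orderOf t = 4) :
    IsConj s t := by
  obtain ⟨z, u, -, e, -, -⟩ := two_four h
  exact (e.ge hs).symm.trans (e.ge ht)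

theorem cnt2 (h : Nat.card G = 168) : {y : G | orderOf y = 2}.ncard = 21 := by
  obtain ⟨z, u, e, -, k, -⟩ := two_four h
  rw [← e, k]

theorem cnt4 (h : Nat.card G = 168) : {y : G | orderOf y = 4}.ncard = 42 := by
  obtain ⟨z, u, -, e, -, k⟩ := two_four h
  rw [← e, k]

theorem conj3 (h : Nat.card G = 168) {s t : G} (hs : orderOf s = 3) (ht : orderOf t = 3) :
    IsConj s t := by
  have he := Set.eq_of_subset_of_ncard_le (s := {y | IsConj s y}) (t := {y | orderOf y = 3})
    (fun y e => (ord_conj e).trans hs) (by rw [cnt3 h, cls h (three h hs).2 (n := 56) rfl (by omega)])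
  exact he.ge ht

theorem not_real7 (h : Nat.card G = 168) {x : G} (hx : orderOf x = 7) : ¬ IsConj x x⁻¹ := by
  intro hc
  obtain ⟨g, hg⟩ := isConj_iff.1 hc
  have hx1 : x ≠ x⁻¹ := by
    intro e
    have : orderOf x ∣ 2 := orderOf_dvd_of_pow_eq_one (by rw [pow_two]; nth_rw 2 [e]; simp)
    rw [hx] at this
    omega
  have h2 : g ^ 2 ∈ cen1 x := by
    rw [mem_cen1, ← mul_inv_eq_iff_eq_mul]
    calc g ^ 2 * x * (g ^ 2)⁻¹ = g * (g * x * g⁻¹) * g⁻¹ := by rw [pow_two]; group
      _ = (g * x * g⁻¹)⁻¹ := by rw [hg]; nth_rw 2 [← hg]; group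
      _ = x := by rw [hg, inv_inv]
  have hn : g ∉ cen1 x := fun e => hx1 (by rw [← hg, mem_cen1.1 e, mul_inv_cancel_right])
  have d := orderOf_dvd_natCard _ h2
  rw [cen7 h hx, orderOf_pow] at d
  have h4 : orderOf g = 2 := by
    rcases cases h g with e | e | e | e | e
    · rw [orderOf_eq_one_iff.1 e] at hn; exact absurd (one_mem _) hn
    · exact e
    · rw [e] at d; norm_num at d
    · rw [e] at d; norm_num at d
    · exact absurd (zpowers_le.2 h2 (mem_zpowers_pow_iff.2 (by rw [e]; norm_num))) hn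
  obtain ⟨P, hP, -⟩ := syl (m := 24) h (by norm_num) hx
  have h5 : g ∈ nrm (P : Subgroup G) := by
    rw [hP]
    refine mem_normalizer_fintype (S := (zpowers x : Set G)) ?_
    rintro _ ⟨k, rfl⟩
    show g * x ^ k * g⁻¹ ∈ zpowers x
    rw [← conj_zpow, hg]
    exact zpow_mem (inv_mem (mem_zpowers x)) k
  have := orderOf_dvd_natCard _ h5
  rw [nrm7 h, h4] at this
  omega

end L27
end H1B
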