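import Cfsg.Agent.H1.L27
import Cfsg.Agent.H1.Two4
import Cfsg.Agent.H1.SylowIn
import Cfsg.Agent.H4.Small

/-! Simple groups of order 168: the Sylow 2-subgroups. -/

set_option linter.unusedSectionVars false

namespace H1B
open Subgroup Cfsg H7
open H2 (cj)

namespace L27
variable {G : Type*} [Group G] [Finite G] [IsSimpleGroup G]

theorem mx (h : Nat.card G = 168) (T : Sylow 2 G) : ∃ u, MX (T : Subgroup G) u 1 0 := by
  obtain ⟨z, -, u, hu, -, u4, -⟩ := main h T
  have u2 : u ^ 2 ≠ 1 := fun e => by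
    have := orderOf_dvd_of_pow_eq_one e
    rw [u4] at this; omega
  have cu : zpowers u = cen1 u := H7.eq_of_le_of_card_le (zpowers_le.2 (self_mem_cen1 u))
    (by rw [Nat.card_zpowers, u4, (four h (memA h T hu (by rintro rfl; simp at u2)) u2).2])
  have i2 : ((zpowers u).subgroupOf (T : Subgroup G)).index = 2 :=
    relIndex_two_of_card (n := 2) hu u4 (card2 h T)
  refine ⟨u, hu, u4, card2 h T, fun b hb hbu => ?_, Or.inl rfl⟩
  have h1 : b * u * b⁻¹ ∈ zpowers u := by
    have := (mul_mem_iff_of_index_two i2 (a := ⟨b * u, mul_mem hb hu⟩) (b := ⟨b⁻¹, inv_mem hb⟩)).2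
      (iff_of_false (fun e => hbu ((mul_mem_cancel_right (mem_zpowers u)).1 e))
        fun e => hbu (inv_mem_iff.1 e))
    exact this
  have h2 : orderOf (b * u * b⁻¹) = 4 := (ord_conj (isConj_iff.2 ⟨b, rfl⟩)).trans u4
  classical
  rw [mem_zpowers_iff_mem_range_orderOf, u4, Finset.mem_image] at h1
  obtain ⟨k, hk, e⟩ := h1
  rw [Finset.mem_range] at hk
  rw [← e, orderOf_pow, u4] at h2
  interval_cases k
  · norm_num at h2
  · exact absurd (cu ▸ mem_cen1.2 (mul_inv_eq_iff_eq_mul.1 (e.symm.trans (pow_one u)))) hbu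
  · norm_num at h2
  · rw [← e, mul_one, eq_inv_iff_mul_eq_one, ← pow_succ]
    exact orderOf_dvd_iff_pow_eq_one.1 u4.dvd

theorem dih (h : Nat.card G = 168) (T : Sylow 2 G) : ∃ u, Dih (T : Subgroup G) u 0 := by
  classical
  obtain ⟨u, m⟩ := mx h T
  refine ⟨u, m, fun g hg hgu => ?_⟩
  rcases m.ord_out hg hgu with ⟨-, e⟩ | ⟨g4, e⟩
  · exact e
  exfalso
  haveI := Fintype.ofFinite G
  have u4 : orderOf u = 4 := m.orda
  have z2 : orderOf (u ^ 2) = 2 := m.z_ord
  have e' : g ^ 2 = u ^ 2 := (pow_two g).trans e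
  have := Finset.mul_card_image_le_card_of_maps_to (s := {y : G | orderOf y = 4}.toFinset)
    (t := {y : G | orderOf y = 2}.toFinset) (f := (· ^ 2))
    (fun a ha => by
      rw [Set.mem_toFinset] at ha ⊢
      have ha : orderOf a = 4 := ha
      show orderOf (a ^ 2) = 2
      rw [orderOf_pow, ha]; norm_num) 3 (fun b hb => by
      rw [Set.mem_toFinset] at hb
      obtain ⟨k, rfl⟩ := isConj_iff.1 (conj2 h z2 hb)
      have n1 : u ≠ u⁻¹ := fun e => m.z_ne (by
        show u ^ 2 = 1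
        rw [pow_two]; nth_rw 2 [e]; simp)
      have n2 : u ≠ g := fun e => hgu (e ▸ mem_zpowers u)
      have n3 : u⁻¹ ≠ g := fun e => hgu (e ▸ inv_mem (mem_zpowers u))
      have c3 : (({u, u⁻¹, g} : Finset G).image fun x => k * x * k⁻¹).card = 3 := by
        exact (Finset.card_image_of_injective _ (MulAut.conj k).injective).trans
          (Finset.card_eq_three.2 ⟨u, u⁻¹, g, n1, n2, n3, rfl⟩)
      rw [← c3]
      refine Finset.card_le_card fun x hx => ?_
      obtain ⟨y, hy, rfl⟩ := Finset.mem_image.1 hx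
      have : orderOf y = 4 ∧ y ^ 2 = u ^ 2 := by
        simp only [Finset.mem_insert, Finset.mem_singleton] at hy
        rcases hy with rfl | rfl | rfl
        · exact ⟨u4, rfl⟩
        · exact ⟨by rw [orderOf_inv, u4], by rw [inv_pow]; exact inv_eq_of_mul_eq_one_right m.z_sq⟩
        · exact ⟨g4, e'⟩
      exact Finset.mem_filter.2 ⟨Set.mem_toFinset.2
        ((ord_conj (isConj_iff.2 ⟨k, rfl⟩)).trans this.1), by rw [conj_pow, this.2]⟩)
  rw [← Set.ncard_eq_toFinset_card', ← Set.ncard_eq_toFinset_card', cnt2 h, cnt4 h] at this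
  omega

theorem le_nrm_klein (h : Nat.card G = 168) (T : Sylow 2 G) {U : Subgroup G} (hU : U ≤ T)
    (hk : IsKleinFour U) : (T : Subgroup G) ≤ nrm U := by
  have i2 : (U.subgroupOf (T : Subgroup G)).index = 2 := by
    have := (U.subgroupOf (T : Subgroup G)).card_mul_index
    rw [Nat.card_congr (subgroupOfEquivOfLe hU).toEquiv, hk.card_four, card2 h] at this
    omega
  exact (normal_subgroupOf_iff_le_normalizer hU).1 (normal_of_index_eq_two i2)

theorem not_cj (h : Nat.card G = 168) (T : Sylow 2 G) {U W : Subgroup G} (hU : U ≤ T) (hW : W ≤ T)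
    (k1 : IsKleinFour U) (k2 : IsKleinFour W) {g : G} (e : cj g U = W) : U = W := by
  have h1 := le_nrm_klein h T hU k1
  have h2 := le_nrm_klein h T hW k2
  have h3 : cj g (T : Subgroup G) ≤ nrm W := by
    rw [H2.cj_le_iff]
    intro x hx
    rw [← e, mem_normalizer_iff]
    intro y
    rw [H2.mem_cj, H2.mem_cj, (mem_normalizer_iff.1 (h1 hx)) (g⁻¹ * y * g)]
    group
  obtain ⟨k, hk, h4⟩ := (H1.isSylowIn_of_le T h2).exists_conj_le (T.isPGroup'.map _) h3
  have h5 : ∀ x ∈ (T : Subgroup G), k * g * x * (k * g)⁻¹ ∈ (T : Subgroup G) := by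
    intro x hx
    have := h4 (smul_mem_pointwise_smul _ (MulAut.conj k) _ (H2.conj_mem_cj (g := g) hx))
    rw [MulAut.smul_def, MulAut.conj_apply] at this
    rwa [show k * g * x * (k * g)⁻¹ = k * (g * x * g⁻¹) * k⁻¹ by group]
  have h6 : k * g ∈ nrm (T : Subgroup G) := mem_normalizer_fintype h5
  rw [nrm2 h] at h6
  ext y
  rw [mem_normalizer_iff''.1 (h1 h6) y, mem_normalizer_iff''.1 hk y, ← e, H2.mem_cj]
  group

theorem nrm_klein (h : Nat.card G = 168) {U : Subgroup G} (hk : IsKleinFour U) :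
    ord (nrm U) = 24 := by
  obtain ⟨T, hT⟩ := (IsPGroup.of_card (p := 2) (n := 2) hk.card_four).exists_le_sylow
  obtain ⟨u, m, -⟩ := dih h T
  obtain ⟨t, ht, htu, t2, e⟩ := m.eq_four hT hk
  have tU : t ∈ U := e ▸ mem_sup_right (mem_zpowers t)
  have t1 : t ≠ 1 := fun e => htu (e ▸ one_mem _)
  obtain ⟨T', hT'⟩ := cen_le h (memA h T ht t1)
  have c8 : ord (cen1 t) = 8 := by
    obtain ⟨z, -, -, -, z2, -, cz, -⟩ := main h T
    rw [card_cen1_isConj (conj2 h z2 (orderOf_eq_prime (pow_two t ▸ t2) t1)), cz, card2 h]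
  have e1 : cen1 t = T' := H7.eq_of_le_of_card_le hT' (by rw [card2 h, c8])
  have hU' : U ≤ T' := e1 ▸ fun x hx => mem_cen1.2 (congrArg Subtype.val
    ((ea_of_klein hk).comm.is_comm.comm (⟨x, hx⟩ : U) ⟨t, tU⟩))
  have l1 := le_nrm_klein h T hT hk
  have l2 := le_nrm_klein h T' hU' hk
  have d1 := card_dvd_of_le l1
  rw [card2 h] at d1
  have n8 : ord (nrm U) ≠ 8 := by
    intro e8
    have a1 : (T : Subgroup G) = nrm U := H7.eq_of_le_of_card_le l1 (by rw [card2 h, e8])
    have a2 : (T' : Subgroup G) = nrm U := H7.eq_of_le_of_card_le l2 (by rw [card2 h, e8])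
    have : u ∈ cen1 t := by rw [e1, a2, ← a1]; exact m.mem
    exact m.not_comm_a ht htu (mem_cen1.1 this)
  have nt : nrm U ≠ ⊤ := by
    intro et
    have c4 := hk.card_four
    rcases (normalizer_eq_top_iff.1 et).eq_bot_or_eq_top with e | e
    · rw [e, Subgroup.card_bot] at c4; omega
    · rw [e, card_top, h] at c4; omega
  have d2 := H8.two_mul_card_dvd (nc h) nt
  have d3 := (nrm U).card_mul_index
  rw [h] at d2 d3
  obtain ⟨c, hc⟩ := d1
  rw [hc] at d3 n8 ⊢
  have d4 : (nrm U).index ∣ 21 := ⟨c, by linarith⟩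
  have := Nat.le_of_dvd (by norm_num) d4
  generalize (nrm U).index = i at *
  interval_cases i <;> first | omega | (exfalso; revert d2; decide)

theorem no6 (h : Nat.card G = 168) (K : Subgroup G) (g : K) : orderOf g ≠ 6 := by
  rw [← orderOf_coe]
  have := cases h (g : G)
  omega

theorem s4 (h : Nat.card G = 168) {K : Subgroup G} (hK : ord K = 24) :
    Nonempty (K ≃* Equiv.Perm (Fin 4)) := H4.equiv_perm4_of_no_six hK (no6 h K)

theorem two_klein (h : Nat.card G = 168) (T : Sylow 2 G) : ∃ U W : Subgroup G, U ≠ W ∧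
    ∀ X : Subgroup G, (X ≤ T ∧ IsKleinFour X) ↔ (X = U ∨ X = W) := by
  obtain ⟨u, m, d⟩ := dih h T
  obtain ⟨s, hs, hsu⟩ := m.ex
  have hs' : u * s ∈ (T : Subgroup G) := mul_mem m.mem hs
  have hsu' : u * s ∉ zpowers u := m.mul_out hs hsu (mem_zpowers u)
  have key : ∀ {t b : G}, b ∈ (T : Subgroup G) → b ∉ zpowers u → t ∈ (T : Subgroup G) →
      t ∉ zpowers u → t * b⁻¹ ∈ zpowers (u ^ 2) →
      zpowers (u ^ 2 ^ (0 + 1)) ⊔ zpowers t = zpowers (u ^ 2 ^ (0 + 1)) ⊔ zpowers b := by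
    intro t b hb hbu ht htu e
    exact H7.eq_of_le_of_card_le (sup_le le_sup_left (zpowers_le.2 ((m.memB hb hbu).2 (Or.inr e))))
      (by rw [m.card_four hb hbu, m.card_four ht htu])
  refine ⟨zpowers (u ^ 2 ^ (0 + 1)) ⊔ zpowers s, zpowers (u ^ 2 ^ (0 + 1)) ⊔ zpowers (u * s),
    fun e => ?_, fun X => ⟨fun hX => ?_, ?_⟩⟩
  · have : u * s ∈ zpowers (u ^ 2) ⊔ zpowers s := e.ge (mem_sup_right (mem_zpowers _))
    rcases (m.memB hs hsu).1 this with e | e
    · exact hsu' (zp_pow_le u 2 e)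
    · exact m.not_both hs e
  · obtain ⟨t, ht, htu, -, rfl⟩ := m.eq_four hX.1 hX.2
    rcases m.out_cases hs hsu ht htu with e | e
    · exact Or.inl (key hs hsu ht htu e)
    · exact Or.inr (key hs' hsu' ht htu e)
  · rintro (rfl | rfl)
    · exact ⟨sup_le (zpowers_le.2 m.z_memP) (zpowers_le.2 hs), m.klein hs hsu (d s hs hsu)⟩
    · exact ⟨sup_le (zpowers_le.2 m.z_memP) (zpowers_le.2 hs'), m.klein hs' hsu' (d _ hs' hsu')⟩

end L27
end H1B
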