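import Cfsg.Agent.H1.L27b

/-! Simple groups of order 168: maximal subgroups. -/

set_option linter.unusedSectionVars false

namespace H1B
open Subgroup Cfsg H7
open H2 (cj)

namespace L27
variable {G : Type*} [Group G] [Finite G] [IsSimpleGroup G]

theorem loc {p : ℕ} [hp : Fact p.Prime] (P : Sylow p G) {H : Subgroup G} (hP : (P : Subgroup G) ≤ H) :
    Nat.card (Sylow p H) % p = 1 % p ∧
      ord (nrm (P : Subgroup G) ⊓ H : Subgroup G) * Nat.card (Sylow p H) = ord H := by
  refine ⟨card_sylow_modEq_one p H, ?_⟩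
  have h1 : Nat.card (Sylow p H) = (nrm ((P : Subgroup G).subgroupOf H)).index :=
    (P.subtype hP).card_eq_index_normalizer
  rw [h1, ← subgroupOf_normalizer_eq hP, ← ((nrm (P : Subgroup G)).subgroupOf H).card_mul_index,
    ← inf_subgroupOf_right, Nat.card_congr (subgroupOfEquivOfLe inf_le_right).toEquiv]

theorem ex_syl {p m : ℕ} [hp : Fact p.Prime] (h : Nat.card G = p ^ 1 * m) (hm : ¬ p ∣ m)
    {H : Subgroup G} (hd : p ∣ ord H) : ∃ P : Sylow p G, (P : Subgroup G) ≤ H := by
  obtain ⟨x, hx⟩ := exists_prime_orderOf_dvd_card' p hd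
  obtain ⟨P, hP, -⟩ := syl h hm ((orderOf_coe x).trans hx)
  exact ⟨P, hP ▸ zpowers_le.2 x.2⟩

theorem nrm3 (h : Nat.card G = 168) (P : Sylow 3 G) : ord (nrm (P : Subgroup G)) = 6 := by
  have h1 := P.card_eq_index_normalizer
  have h2 := (nrm (P : Subgroup G)).card_mul_index
  rw [n3 h] at h1
  have h3 : (nrm (P : Subgroup G)).index = 28 := h1.symm
  rw [h3, h] at h2
  omega

theorem le24 (h : Nat.card G = 168) {H : Subgroup G} (hH : H ≠ ⊤) : ord H ≤ 24 := by
  have d2 := H8.two_mul_card_dvd (nc h) hH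
  have d3 := H.card_mul_index
  rw [h] at d2 d3
  have : 7 ≤ H.index := by
    by_contra hlt
    push Not at hlt
    generalize H.index = i at *
    interval_cases i <;> revert d2 <;> decide
  nlinarith

theorem ne_top (h : Nat.card G = 168) {H : Subgroup G} (hH : ord H ≠ 168) : H ≠ ⊤ := by
  rintro rfl; exact hH (card_top.trans h)

theorem co_eq (h : Nat.card G = 168) {M K : Subgroup G} (hM : IsCoatom M) (hK : M ≤ K)
    (hc : ord K ≠ 168) : K = M := (hM.le_iff.1 hK).resolve_left (ne_top h hc)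

theorem co24 (h : Nat.card G = 168) {M : Subgroup G} (hM : ord M = 24) : IsCoatom M :=
  ⟨ne_top h (by omega), fun K hK => by
    by_contra e
    have := le24 h e
    have := H7.card_lt_of_lt hK
    omega⟩

theorem co7 (h : Nat.card G = 168) {M : Subgroup G} (hM : IsCoatom M) (hd : 7 ∣ ord M) :
    ∃ P : Sylow 7 G, nrm (P : Subgroup G) = M := by
  obtain ⟨P, hP⟩ := ex_syl (p := 7) (m := 24) h (by norm_num) hd
  obtain ⟨h1, h2⟩ := loc P hP
  have h3 := le24 h hM.1
  have h4 := card_dvd_of_le (le_inf le_normalizer hP : (P : Subgroup G) ≤ nrm (P : Subgroup G) ⊓ M)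
  rw [cardP (k := 1) (m := 24) P h (by norm_num)] at h4
  have h5 := Nat.le_of_dvd Nat.card_pos h4
  have h6 : Nat.card (Sylow 7 M) = 1 := by
    have : Nat.card (Sylow 7 M) ≤ 3 := by nlinarith
    omega
  rw [h6, mul_one] at h2
  have := H7.eq_of_le_of_card_le (inf_le_right : nrm (P : Subgroup G) ⊓ M ≤ M) h2.ge
  exact ⟨P, co_eq h hM (inf_eq_right.1 this) (by rw [nrm7 h]; omega)⟩

theorem co_cases (h : Nat.card G = 168) {M : Subgroup G} (hM : IsCoatom M) :
    ord M = 24 ∨ 7 ∣ ord M := by
  by_contra hc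
  push Not at hc
  have d : ord M ∣ 24 := ((Nat.Prime.coprime_iff_not_dvd f7.out).2 hc.2).symm.dvd_of_dvd_mul_right
    ((card_subgroup_dvd_card _).trans h.dvd : ord M ∣ 24 * 7)
  obtain ⟨U, W, -, hX⟩ := two_klein h default
  have hU := (hX U).2 (Or.inl rfl)
  have cU := nrm_klein h hU.2
  by_cases h3 : 3 ∣ ord M
  swap
  · have d2 : ord M ∣ 2 ^ 3 := ((Nat.Prime.coprime_iff_not_dvd f3.out).2 h3).symm.dvd_of_dvd_mul_right d
    obtain ⟨g, hg⟩ := H2.sylow_exists_cj_le (default : Sylow 2 G) (IsPGroup.of_card_dvd_pow d2)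
    have := co_eq h hM (H2.cj_le_iff_le_cj_inv.1 (hg.trans (le_nrm_klein h _ hU.1 hU.2)))
      (by rw [H2.card_cj, cU]; omega)
    exact hc.1 (by rw [← this, H2.card_cj, cU])
  obtain ⟨P, hP⟩ := ex_syl (p := 3) (m := 56) h (by norm_num) h3
  obtain ⟨h1, h2⟩ := loc P hP
  have h4 := card_dvd_of_le (le_inf le_normalizer hP : (P : Subgroup G) ≤ nrm (P : Subgroup G) ⊓ M)
  rw [cardP (k := 1) (m := 56) P h (by norm_num)] at h4
  have h5 := card_dvd_of_le (inf_le_left : nrm (P : Subgroup G) ⊓ M ≤ _)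
  rw [nrm3 h] at h5
  have h6 : Nat.card (Sylow 3 M) = 1 ∨ (Nat.card (Sylow 3 M) = 4 ∧ ord M = 12) := by
    have a1 := Nat.le_of_dvd (by norm_num) h5
    have a2 := Nat.le_of_dvd (by norm_num) d
    have a3 := hc.1
    generalize Nat.card (Sylow 3 M) = n at *
    generalize ord (nrm (P : Subgroup G) ⊓ M : Subgroup G) = c at *
    generalize ord M = k at *
    subst h2
    have a4 : n ≤ 8 := by interval_cases c <;> omega
    interval_cases c <;> interval_cases n <;> omega
  rcases h6 with h6 | ⟨h6, h12⟩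
  · rw [h6, mul_one] at h2
    have e := inf_eq_right.1
      (H7.eq_of_le_of_card_le (inf_le_right : nrm (P : Subgroup G) ⊓ M ≤ M) h2.ge)
    obtain ⟨Q, hQ⟩ := ex_syl (p := 3) (m := 56) h (by norm_num) (H := nrm U) (by rw [cU]; norm_num)
    obtain ⟨k1, k2⟩ := loc Q hQ
    have k3 : nrm (Q : Subgroup G) ≤ nrm U := by
      refine inf_eq_left.1 (H7.eq_of_le_of_card_le inf_le_left ?_)
      have k5 := Nat.le_of_dvd (by rw [nrm3 h]; omega)
        (card_dvd_of_le (inf_le_left : nrm (Q : Subgroup G) ⊓ nrm U ≤ _))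
      rw [nrm3 h] at k5 ⊢
      rw [cU] at k2
      generalize Nat.card (Sylow 3 (nrm U)) = n at *
      generalize ord (nrm (Q : Subgroup G) ⊓ nrm U : Subgroup G) = c at *
      interval_cases c <;> omega
    obtain ⟨g, hg⟩ := H2.sylow_exists_cj_eq Q P
    have k4 : M ≤ cj g (nrm U) := by
      refine e.trans ?_
      rw [← hg, H2.normalizer_cj]
      exact H2.cj_mono g k3
    have := co_eq h hM k4 (by rw [H2.card_cj, cU]; omega)
    exact hc.1 (by rw [← this, H2.card_cj, cU])
  · have c1 := H8.ncard_order_prime (P.subtype hP) (H4.sylow_card_of (k := 1) (m := 4) _ h12 (by norm_num)).1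
    rw [h6] at c1
    have c2 := Set.ncard_add_ncard_compl {x : M | orderOf x = 3}
    rw [c1, h12] at c2
    have c3 : ∀ S : Sylow 2 M, ((S : Subgroup M) : Set M) = {x : M | orderOf x = 3}ᶜ := by
      intro S
      have cS : ord (S : Subgroup M) = 4 := (H4.sylow_card_of (k := 2) (m := 3) S h12 (by norm_num)).1
      refine Set.eq_of_subset_of_ncard_le (fun x hx e => ?_) ?_
      · have := orderOf_dvd_natCard _ hx
        have e : orderOf x = 3 := e
        rw [cS, e] at this
        omega
      · rw [← Nat.card_coe_set_eq ((S : Subgroup M) : Set M)]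
        have : Nat.card ((S : Subgroup M) : Set M) = 4 := cS
        omega
    haveI : Subsingleton (Sylow 2 M) := ⟨fun S S' => Sylow.ext
      (SetLike.coe_injective ((c3 S).trans (c3 S').symm))⟩
    let S : Sylow 2 M := default
    have cS : ord ((S : Subgroup M).map M.subtype) = 4 := by
      rw [card_map_of_injective M.subtype_injective]
      exact (H4.sylow_card_of (k := 2) (m := 3) S h12 (by norm_num)).1
    have l1 : M ≤ nrm ((S : Subgroup M).map M.subtype) := by
      have := le_normalizer_map (H := (S : Subgroup M)) M.subtype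
      rwa [normalizer_eq_top_iff.2 S.normal_of_subsingleton, ← MonoidHom.range_eq_map,
        range_subtype] at this
    obtain ⟨T, hT⟩ := (IsPGroup.of_card (p := 2) (n := 2) cS).exists_le_sylow
    have l2 : (T : Subgroup G) ≤ nrm ((S : Subgroup M).map M.subtype) := by
      have := (((S : Subgroup M).map M.subtype).subgroupOf (T : Subgroup G)).card_mul_index
      rw [Nat.card_congr (subgroupOfEquivOfLe hT).toEquiv, cS, card2 h] at this
      exact (normal_subgroupOf_iff_le_normalizer hT).1 (normal_of_index_eq_two (by omega))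
    rcases hM.le_iff.1 l1 with e | e
    · rcases (normalizer_eq_top_iff.1 e).eq_bot_or_eq_top with e | e
      · rw [e, Subgroup.card_bot] at cS; omega
      · rw [e, card_top, h] at cS; omega
    · have := card_dvd_of_le l2
      rw [e, card2 h, h12] at this
      omega

theorem eq_nrm_klein (h : Nat.card G = 168) {M : Subgroup G} (e : M ≃* Equiv.Perm (Fin 4)) :
    ∃ V : Subgroup G, IsKleinFour V ∧ nrm V = M := by
  have h4 : Nat.card (Fin 4) = 4 := by simp
  haveI := alternatingGroup.characteristic_kleinFour h4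
  let V0 := (alternatingGroup.kleinFour (Fin 4)).map (alternatingGroup (Fin 4)).subtype
  let V1 := V0.map e.symm.toMonoidHom
  have n1 : V1.Normal := Normal.map inferInstance _ e.symm.surjective
  have k := alternatingGroup.kleinFour_isKleinFour h4
  let f : alternatingGroup.kleinFour (Fin 4) ≃* V1.map M.subtype :=
    (equivMapOfInjective _ _ (subtype_injective _)).trans
      ((equivMapOfInjective V0 _ e.symm.injective).trans
        (equivMapOfInjective V1 _ M.subtype_injective))
  have kV : IsKleinFour (V1.map M.subtype) := ⟨(Nat.card_congr f.toEquiv).symm.trans k.card_four,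
    (Monoid.exponent_eq_of_mulEquiv f).symm.trans k.exponent_two⟩
  refine ⟨_, kV, (H7.eq_of_le_of_card_le ?_ ?_).symm⟩
  · have := le_normalizer_map (H := V1) M.subtype
    rwa [normalizer_eq_top_iff.2 n1, ← MonoidHom.range_eq_map, range_subtype] at this
  · rw [nrm_klein h kV, Nat.card_congr e.toEquiv, Nat.card_perm, h4]; decide

theorem nrm_inj (h : Nat.card G = 168) {U W : Subgroup G} (k1 : IsKleinFour U) (k2 : IsKleinFour W)
    (e : nrm U = nrm W) : U = W := by
  obtain ⟨T, hT⟩ := (IsPGroup.of_card (p := 2) (n := 2) k2.card_four).exists_le_sylow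
  have l1 := le_nrm_klein h T hT k2
  obtain ⟨k, hk, h4⟩ := (H1.isSylowIn_of_le T l1).exists_conj_le
    (IsPGroup.of_card (p := 2) (n := 2) k1.card_four) (e ▸ le_normalizer)
  have hU : U ≤ T := by
    rw [← e] at hk
    rw [← H2.cj_eq_of_mem_normalizer hk]
    exact h4
  by_contra hne
  obtain ⟨u, m, -⟩ := dih h T
  obtain ⟨t, ht, htu, -, e1⟩ := m.eq_four hU k1
  obtain ⟨s, hs, hsu, -, e2⟩ := m.eq_four hT k2
  have zU : u ^ 2 ^ (0 + 1) ∈ U := e1 ▸ mem_sup_left (mem_zpowers _)
  have zW : u ^ 2 ^ (0 + 1) ∈ W := e2 ▸ mem_sup_left (mem_zpowers _)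
  have cz := cenZ h T m.z_memP m.z_ne fun t ht => (m.z_comm ht).eq
  have : nrm W ≤ T := by
    rw [← cz]
    intro g hg
    have a1 := (mem_normalizer_iff.1 hg _).1 zW
    have a2 := (mem_normalizer_iff.1 (e ▸ hg : g ∈ nrm U) _).1 zU
    have a3 : g * u ^ 2 ^ (0 + 1) * g⁻¹ ∈ zpowers u := by
      by_contra hn
      apply hne
      have b1 := H7.eq_of_le_of_card_le (sup_le (zpowers_le.2 zU) (zpowers_le.2 a2))
        (by rw [m.card_four (hU a2) hn, k1.card_four])
      have b2 := H7.eq_of_le_of_card_le (sup_le (zpowers_le.2 zW) (zpowers_le.2 a1))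
        (by rw [m.card_four (hU a2) hn, k2.card_four])
      exact b1.symm.trans b2
    rcases m.eq_of_sq a3 (klein_sq k2 a1) with b | b
    · exact absurd (conj_eq_one_iff.1 b) m.z_ne
    · exact mem_cen1.2 (mul_inv_eq_iff_eq_mul.1 b)
  have := card_le_of_le this
  rw [nrm_klein h k2, card2 h] at this
  omega

end L27
end H1B
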