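import Cfsg.Prelude.Def_SporadicCombinatorics

/-! Monomial automorphisms of a code. -/

namespace H1B
open Cfsg

variable {α F : Type*} [Field F] [Finite α] [Finite F]

theorem mono_surj (C : Submodule F (α → F)) {σ : Equiv.Perm α} {c : α → Fˣ}
    (h : ∀ x ∈ C, monomialMap σ c x ∈ C) {y : α → F} (hy : y ∈ C) :
    ∃ x ∈ C, monomialMap σ c x = y := by
  have hi : Function.Injective fun x : C => (⟨monomialMap σ c x, h x x.2⟩ : C) := by
    intro x z hxz
    ext i
    have := congrFun (congrArg Subtype.val hxz) (σ i)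
    simpa [monomialMap] using this
  obtain ⟨x, hx⟩ := Finite.injective_iff_surjective.1 hi ⟨y, hy⟩
  exact ⟨x, x.2, congrArg Subtype.val hx⟩

/-- permutation parts of monomial automorphisms -/
def monoP (C : Submodule F (α → F)) : Subgroup (Equiv.Perm α) where
  carrier := {σ | ∃ c : α → Fˣ, ∀ x ∈ C, monomialMap σ c x ∈ C}
  one_mem' := ⟨1, fun x hx => by
    convert hx
    funext i; simp [monomialMap, Equiv.Perm.one_symm]⟩
  mul_mem' := by
    rintro σ τ ⟨c, hc⟩ ⟨d, hd⟩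
    refine ⟨fun i => c i * d (σ.symm i), fun x hx => ?_⟩
    convert hc _ (hd x hx) using 1
    funext i
    simp only [monomialMap, Units.val_mul, mul_assoc]
    rfl
  inv_mem' := by
    rintro σ ⟨c, hc⟩
    refine ⟨fun i => (c (σ i))⁻¹, fun y hy => ?_⟩
    obtain ⟨x, hx, rfl⟩ := mono_surj C hc hy
    convert hx
    funext i
    simp [monomialMap, Equiv.Perm.inv_def]

theorem mem_monoP {C : Submodule F (α → F)} {σ : Equiv.Perm α} :
    σ ∈ monoP C ↔ ∃ c : α → Fˣ, ∀ x ∈ C, monomialMap σ c x ∈ C := Iff.rfl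

theorem card_mono (C : Submodule F (α → F)) :
    Nat.card {f : Equiv.Perm α × (α → Fˣ) // ∀ x ∈ C, monomialMap f.1 f.2 x ∈ C} =
      Nat.card (monoP C) * Nat.card {c : α → Fˣ // ∀ x ∈ C, monomialMap 1 c x ∈ C} := by
  rw [← Nat.card_prod]
  symm
  choose c0 hc0 using fun σ : monoP C => mem_monoP.1 σ.2
  refine Nat.card_eq_of_bijective (fun p => ⟨(p.1.1, p.2.1 * c0 p.1), fun x hx => ?_⟩) ⟨?_, ?_⟩
  · convert p.2.2 _ (hc0 p.1 x hx) using 1
    funext i
    simp [monomialMap, Equiv.Perm.one_symm, mul_assoc]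
  · rintro ⟨σ, d⟩ ⟨τ, e⟩ h
    simp only [Subtype.mk.injEq, Prod.mk.injEq] at h
    obtain rfl : σ = τ := Subtype.ext h.1
    rw [Subtype.ext (mul_right_cancel h.2 : d.1 = e.1)]
  · rintro ⟨⟨σ, c⟩, h⟩
    refine ⟨(⟨σ, c, h⟩, ⟨c / c0 ⟨σ, c, h⟩, fun y hy => ?_⟩), by simp⟩
    obtain ⟨x, hx, rfl⟩ := mono_surj C (hc0 ⟨σ, c, h⟩) hy
    convert h x hx using 1
    funext i
    simp [monomialMap, Equiv.Perm.one_symm, ← mul_assoc]

omit [Finite α] in
theorem chain_tr {P : Subgroup (Equiv.Perm α)} (n : ℕ) (x : ℕ → α)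
    (hx : ∀ j < n, ∀ k < n, x j = x k → j = k)
    (hstep : ∀ k < n, ∀ q, (∀ j < k, q ≠ x j) → ∃ h ∈ P, (∀ j < k, h (x j) = x j) ∧ h (x k) = q)
    (g : Equiv.Perm α) : ∃ h ∈ P, ∀ j < n, (h⁻¹ * g) (x j) = x j := by
  have key : ∀ k ≤ n, ∃ h ∈ P, ∀ j < k, (h⁻¹ * g) (x j) = x j := by
    intro k
    induction k with
    | zero => exact fun _ => ⟨1, P.one_mem, by simp⟩
    | succ k ih =>
      intro hk
      obtain ⟨h, hh, h0⟩ := ih (by omega)
      obtain ⟨u, hu, h1, h2⟩ := hstep k (by omega) ((h⁻¹ * g) (x k)) fun j hj e => by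
        rw [← h0 j hj] at e
        have := hx k (by omega) j (by omega) ((h⁻¹ * g).injective e)
        omega
      refine ⟨h * u, P.mul_mem hh hu, fun j hj => ?_⟩
      rw [mul_inv_rev, mul_assoc, Equiv.Perm.mul_apply, Equiv.Perm.inv_eq_iff_eq]
      rcases Nat.lt_succ_iff_lt_or_eq.1 hj with hj | rfl
      · rw [h0 j hj, h1 j hj]
      · exact h2.symm
  exact key n le_rfl

theorem mono_of_fun (C : Submodule F (α → F)) {f : α → α} (hf : Function.Injective f)
    (c : α → Fˣ) (h : ∀ x ∈ C, (fun i => (c i : F) * x (f i)) ∈ C) :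
    ∃ σ ∈ monoP C, ∀ i, σ i = f i :=
  ⟨Equiv.ofBijective f (Finite.injective_iff_bijective.1 hf), by
    rw [← (monoP C).inv_mem_iff]; exact ⟨c, h⟩, fun _ => rfl⟩

omit [Finite α] [Finite F] in
theorem span_map_mem {S : Set (α → F)} (f : α → α) (c : α → F) {C : Submodule F (α → F)}
    (h : ∀ x ∈ S, (fun i => c i * x (f i)) ∈ C) :
    ∀ x ∈ Submodule.span F S, (fun i => c i * x (f i)) ∈ C := by
  intro x hx
  induction hx using Submodule.span_induction with
  | mem x hx => exact h x hx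
  | zero => convert C.zero_mem using 1; funext i; simp
  | add x y _ _ h1 h2 => convert C.add_mem h1 h2 using 1; funext i; simp [mul_add]
  | smul a x _ h1 => convert C.smul_mem a h1 using 1; funext i; simp [mul_left_comm]

end H1B
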