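import Cfsg.Agent.H1.CG
import Cfsg.Agent.H1.V3
import Cfsg.Agent.H8.FrobSol

/-! Counting elements of given order. -/

set_option linter.unusedSectionVars false

namespace H1B
open Subgroup Cfsg H7
open H2 (cj IsSylowIn)
open scoped commutatorElement

variable {G G' : Type*} [Group G] [Group G'] [Finite G] {A B C H K M N P Q R S : Subgroup G} {p q n m d : ℕ} {a x y : G}

/-- number of elements of order `n` in `H` -/
noncomputable def oc (H : Subgroup G) (n : ℕ) : ℕ := {x | x ∈ H ∧ orderOf x = n}.ncard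

/-- cyclic subgroups of order `n` -/
def cys (H : Subgroup G) (n : ℕ) : Set (Subgroup G) := {C | C ≤ H ∧ IsCyclic C ∧ ord C = n}

theorem oc_top : oc (⊤ : Subgroup G) n = Nat.card {g : G // orderOf g = n} := by
  simp only [oc, mem_top, true_and]
  rfl

theorem oc_sub : oc H n = Nat.card {g : H // orderOf g = n} := by
  rw [← oc_top, oc, oc, ← Set.ncard_image_of_injective _ H.subtype_injective]
  congr 1
  ext x
  exact ⟨fun ⟨a, b⟩ => ⟨⟨x, a⟩, ⟨trivial, by rw [← b, ← orderOf_coe]⟩, rfl⟩,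
    fun ⟨y, ⟨_, b⟩, e⟩ => e ▸ ⟨y.2, by rw [← b, ← orderOf_coe]; rfl⟩⟩

theorem oc_cyc (hC : IsCyclic C) (h : n ∣ ord C) : oc C n = n.totient := by
  classical
  haveI := Fintype.ofFinite C
  rw [oc_sub, ← IsCyclic.card_orderOf_eq_totient (α := C) (by rwa [← Nat.card_eq_fintype_card]),
    Nat.card_eq_fintype_card, Fintype.card_subtype]

theorem oc_eq : oc H n = (cys H n).ncard * n.totient := by
  have e : zpowers '' {x | x ∈ H ∧ orderOf x = n} = cys H n := by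
    ext C
    refine ⟨fun ⟨x, ⟨a, b⟩, e⟩ => e ▸ ⟨zpowers_le.2 a, cyc_zpowers x, by rw [card_zpowers_eq, b]⟩, fun ⟨a, b, c⟩ => ?_⟩
    obtain ⟨x, rfl⟩ := H7.cyc_iff.1 b
    exact ⟨x, ⟨zpowers_le.1 a, by rw [← c, card_zpowers_eq]⟩, rfl⟩
  rw [oc, H8.ncard_eq_mul_of_fibers (Set.toFinite _) zpowers (d := n.totient), e]
  rw [e]
  rintro C ⟨a, b, c⟩
  rw [← oc_cyc b c.symm.dvd, oc]
  congr 1
  ext x
  exact ⟨fun ⟨⟨_, u⟩, v⟩ => ⟨v ▸ mem_zpowers x, u⟩, fun ⟨u, v⟩ => ⟨⟨a u, v⟩,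
    H7.eq_of_le_of_card_le (zpowers_le.2 u) (by rw [card_zpowers_eq, c, v])⟩⟩

theorem tot_dvd_oc : n.totient ∣ oc H n := by rw [oc_eq]; exact Dvd.intro_left _ rfl

theorem oc_eq_zero : oc H n = 0 ↔ ∀ x ∈ H, orderOf x ≠ n := by
  rw [oc, Set.ncard_eq_zero (Set.toFinite _), Set.eq_empty_iff_forall_notMem]
  simp

theorem oc_ne_zero (hx : x ∈ H) : oc H (orderOf x) ≠ 0 := fun e => oc_eq_zero.1 e x hx rfl

theorem oc_one : oc H 1 = 1 := by
  rw [oc, Set.ncard_eq_one]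
  exact ⟨1, by ext x; simp only [Set.mem_setOf_eq, orderOf_eq_one_iff, Set.mem_singleton_iff]; exact
    ⟨fun k => k.2, fun k => ⟨k ▸ one_mem _, k⟩⟩⟩

theorem sum_oc (hn : n ≠ 0) : ∑ d ∈ n.divisors, oc H d = Nat.card {x : H // x ^ n = 1} := by
  classical
  haveI := Fintype.ofFinite H
  simp only [oc_sub, Nat.card_eq_fintype_card, Fintype.card_subtype]
  exact sum_card_orderOf_eq_card_pow_eq_one hn

theorem dvd_sum_oc (h : n ∣ ord H) : n ∣ ∑ d ∈ n.divisors, oc H d := by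
  rw [sum_oc (ne_zero_of_dvd_ne_zero Nat.card_pos.ne' h)]
  exact H8.dvd_card_pow_eq_one h

omit [Finite G] in
theorem mem_of_pows (h : m.Coprime n) (ha : x ^ m ∈ N) (hb : x ^ n ∈ N) : x ∈ N := by
  have := mul_mem (zpow_mem ha (Nat.gcdA m n)) (zpow_mem hb (Nat.gcdB m n))
  rwa [← zpow_natCast, ← zpow_natCast, ← zpow_mul, ← zpow_mul, ← zpow_add, ← Nat.gcd_eq_gcd_ab, h.gcd_eq_one,
    Nat.cast_one, zpow_one] at this

theorem sum_oc_card (hn : n ≠ 0) (h : ∀ x ∈ H, x ^ n = 1) : ∑ d ∈ n.divisors, oc H d = ord H := by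
  rw [sum_oc hn]
  exact Nat.card_congr (Equiv.subtypeUnivEquiv fun x => Subtype.ext (h x x.2))

omit [Finite G] in
theorem sum_div_mul (f : ℕ → ℕ) (hp : p.Prime) (h : ¬ p ∣ n) :
    ∑ d ∈ (n * p).divisors, f d = ∑ d ∈ n.divisors, (f d + f (d * p)) := by
  have c : n.Coprime p := (hp.coprime_iff_not_dvd.2 h).symm
  rw [Nat.divisors_mul, ← Finset.image_mul_product, Finset.sum_image c.mul_injOn_divisors, Finset.sum_product]
  simp [hp.divisors, Finset.sum_pair hp.one_lt.ne]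

theorem dvd_oc_prime (hp : p.Prime) (h : p ∣ ord H) : p ∣ 1 + oc H p := by
  simpa [hp.divisors, Finset.sum_pair hp.one_lt.ne, oc_one] using dvd_sum_oc h

theorem dvd_oc_two (hp : p.Prime) (hq : q.Prime) (ne : p ≠ q) (h : p ∣ ord H) (h' : q ∣ ord H) :
    p * q ∣ 1 + oc H p + oc H q + oc H (p * q) := by
  have c := (Nat.coprime_primes hp hq).2 ne
  have := dvd_sum_oc (c.mul_dvd_of_dvd_of_dvd h h')
  rw [sum_div_mul _ hq (hq.coprime_iff_not_dvd.1 c.symm)] at this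
  simpa [hp.divisors, Finset.sum_pair hp.one_lt.ne, oc_one, add_assoc, add_comm, add_left_comm] using this

theorem pow_dvd_oc_cen [hp : Fact p.Prime] (h2 : p ≠ 2) (hP : IsPGroup p P) (nc : ¬ IsCyclic P) {s : ℕ}
    (hm : p.Coprime m) : p ^ (s + 2) ∣ oc (P ⊔ cen P) (p ^ (s + 2) * m) := by
  obtain ⟨E, l, ea, o, n⟩ := exists_EA2 h2 hP nc
  have cE : cen P ≤ cen E := centralizer_le l
  have n' : P ⊔ cen P ≤ nrm E := sup_le n (cE.trans (centralizer_le_normalizer _))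
  have w1 : ⁅E, P⁆ ≤ E := comm_le_left n
  have w2 : ⁅E, P⁆ ≤ cen (P ⊔ cen P) := le_centralizer_iff.1 (sup_le (cen_of_card_le hP (ea.isPGroup.to_le w1)
    (nrm_commutator n le_normalizer) (by simpa using H1B.card_comm_le (n := 1) hP ea.isPGroup n o.le))
    (centralizer_le (w1.trans l)))
  have w3 : ⁅P ⊔ cen P, E⁆ ≤ ⁅E, P⁆ := by
    rw [comm_sup_cen cE ((centralizer_le ((commutator_comm P E).le.trans (w1.trans l))).trans
      (centralizer_le_normalizer _)), commutator_comm]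
  have w4 : P ⊔ cen P ≤ nrm ⁅E, P⁆ := (le_centralizer_iff.1 w2).trans (centralizer_le_normalizer _)
  have pw : ∀ x ∈ P ⊔ cen P, ∀ e ∈ E, (x * e) ^ p = x ^ p := fun x hx e he => by
    have d := comm_sup_zpowers_le ea.comm ((l.trans le_sup_left).trans w4) (w4 hx)
      ((commutator_mono (zpowers_le.2 hx) le_rfl).trans w3)
    have a := mem_sup_right (S := E) (mem_zpowers x)
    have b := mem_sup_left (T := zpowers x) he
    rw [mul_pow_of_class2 h2 (d.trans (w2.trans (centralizer_le (sup_le (l.trans le_sup_left) (zpowers_le.2 hx))))) a b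
      (ea.pow (w1 (d (commutator_mem_commutator b a)))), ea.pow he, mul_one]
  have m0 : m ≠ 0 := by
    rintro rfl
    exact hp.1.ne_one (by simpa using hm)
  refine H8.dvd_ncard_of_fibers (Set.toFinite _) (fun x => {y | x⁻¹ * y ∈ zpowers (x ^ (p * m)) ⊔ E}) fun a ⟨ha, oa⟩ => ?_
  have oz : orderOf (a ^ (p * m)) = p ^ (s + 1) := by
    rw [orderOf_pow_of_dvd (mul_ne_zero hp.1.ne_zero m0) (oa ▸ Nat.mul_dvd_mul_right (dvd_pow_self p (by simp)) m), oa,
      show p ^ (s + 2) * m = p ^ (s + 1) * (p * m) by ring, Nat.mul_div_cancel _ (Nat.pos_of_ne_zero (mul_ne_zero hp.1.ne_zero m0))]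
  have nz : zpowers (a ^ (p * m)) ≤ nrm E := zpowers_le.2 (n' (pow_mem ha _))
  have e : {x | x ∈ {x | x ∈ P ⊔ cen P ∧ orderOf x = p ^ (s + 2) * m} ∧
      {y | x⁻¹ * y ∈ zpowers (x ^ (p * m)) ⊔ E} = {y | a⁻¹ * y ∈ zpowers (a ^ (p * m)) ⊔ E}} =
      (fun z => a * z) '' (zpowers (a ^ (p * m)) ⊔ E : Subgroup G) := by
    ext y
    refine ⟨fun ⟨_, k⟩ => ⟨a⁻¹ * y, k.le (by simp), by simp⟩, ?_⟩
    rintro ⟨z, hz, rfl⟩
    obtain ⟨u, hu, e, he, rfl⟩ := (mem_sup_nrm nz).1 hz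
    obtain ⟨k, rfl⟩ := (mem_powers_iff_mem_zpowers.2 hu : ∃ k, _ ^ k = u)
    have cp : (orderOf a).Coprime (p * m * k + 1) := by
      rw [oa]
      exact ((by simp [mul_assoc] : p.Coprime (p * m * k + 1)).pow_left _).mul_left
        (by simp [mul_assoc, mul_comm p m] : m.Coprime (p * m * k + 1))
    have e1 : (a * ((a ^ (p * m)) ^ k * e)) ^ p = (a ^ (p * m * k + 1)) ^ p := by
      rw [← mul_assoc, pw _ (mul_mem ha (pow_mem (pow_mem ha _) _)) e he, ← pow_mul, ← pow_succ']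
    have e2 : zpowers ((a * ((a ^ (p * m)) ^ k * e)) ^ (p * m)) = zpowers (a ^ (p * m)) := by
      rw [pow_mul, e1, ← pow_mul, ← pow_mul, mul_comm _ (p * m), pow_mul]
      exact H7.eq_of_le_of_card_le (zpowers_le.2 (pow_mem (mem_zpowers _) _)) (by
        rw [card_zpowers_eq, card_zpowers_eq, (cp.coprime_dvd_left (orderOf_pow_dvd _)).orderOf_pow])
    refine ⟨⟨mul_mem ha (mul_mem (pow_mem (pow_mem ha _) _) (mem_sup_left (l he))), ?_⟩, ?_⟩
    · have o1 : orderOf ((a * ((a ^ (p * m)) ^ k * e)) ^ p) = p ^ (s + 1) * m := by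
        rw [e1, orderOf_pow_of_dvd hp.1.ne_zero (by rw [cp.orderOf_pow, oa]; exact Dvd.dvd.mul_right (dvd_pow_self p (by simp)) m),
          cp.orderOf_pow, oa, show p ^ (s + 2) * m = p ^ (s + 1) * m * p by ring, Nat.mul_div_cancel _ hp.1.pos]
      have d : p ∣ orderOf (a * ((a ^ (p * m)) ^ k * e)) :=
        (o1 ▸ Dvd.dvd.mul_right (dvd_pow_self p (by simp)) m : p ∣ orderOf (_ ^ p)).trans (orderOf_pow_dvd p)
      rw [orderOf_pow_of_dvd hp.1.ne_zero d] at o1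
      rw [← Nat.div_mul_cancel d, o1]
      ring
    · ext y
      simp only [Set.mem_setOf_eq, e2]
      rw [mul_inv_rev, mul_assoc]
      exact mul_mem_cancel_left (inv_mem hz)
  rw [e, Set.ncard_image_of_injective _ (mul_right_injective a)]
  have pz : IsPGroup p (zpowers (a ^ (p * m))) := pgroup_of_card (by rw [card_zpowers_eq, oz])
  obtain ⟨t, ht⟩ := card_pgroup (H7.isPGroup_sup nz pz ea.isPGroup)
  have lt : ord (zpowers (a ^ (p * m))) < ord (zpowers (a ^ (p * m)) ⊔ E : Subgroup G) :=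
    card_lt_of_lt (lt_of_le_of_ne le_sup_left fun k => ea.not_cyc o.ge (cyc_of_le (le_sup_right.trans k.ge) (cyc_zpowers _)))
  rw [ht, card_zpowers_eq, oz, Nat.pow_lt_pow_iff_right hp.1.one_lt] at lt
  exact (pow_dvd_pow p lt).trans (ht.symm.dvd)

theorem pow_dvd_oc [hp : Fact p.Prime] (h2 : p ≠ 2) (hP : IsSylowIn p P ⊤) (nc : ¬ IsCyclic P) {s : ℕ}
    (hm : p.Coprime m) : p ^ (s + 2) ∣ oc (⊤ : Subgroup G) (p ^ (s + 2) * m) := by
  have t : (p ^ (s + 2) * m).totient = p ^ (s + 1) * ((p - 1) * m.totient) := by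
    rw [Nat.totient_mul (hm.pow_left _), Nat.totient_prime_pow_succ hp.1, mul_assoc]
  by_cases d : p ∣ m.totient
  · refine Dvd.dvd.trans ?_ tot_dvd_oc
    rw [t, pow_succ]
    exact Nat.mul_dvd_mul_left _ (d.mul_left _)
  have k := pow_dvd_oc_cen h2 hP.2 nc (s := s) hm
  rw [oc_eq, t, pow_succ p (s + 1), mul_left_comm] at k ⊢
  refine Nat.mul_dvd_mul_left _ (Dvd.dvd.mul_right ?_ _)
  replace k := ((hp.1.dvd_mul).1 (Nat.dvd_of_mul_dvd_mul_left (pow_pos hp.1.pos _) k)).resolve_right fun c =>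
    (hp.1.dvd_mul.1 c).elim (fun c => by
      have := Nat.le_of_dvd (Nat.sub_pos_of_lt hp.1.one_lt) c
      have := hp.1.pos
      omega) d
  have cl : ∀ H : Subgroup G, P ≤ H → ∀ g ∈ P, ∀ C ∈ cys H (p ^ (s + 1) * p * m), cj g C ∈ cys H (p ^ (s + 1) * p * m) :=
    fun H l g hg C ⟨a, b, c⟩ => ⟨cj_le_of_mem (l hg) a, cyc_cj.2 b, by rw [H2.card_cj, c]⟩
  have a := ncard_cj_modEq hP.2 _ (cl ⊤ le_top)
  have b := ncard_cj_modEq hP.2 _ (cl _ (le_sup_left (b := cen P)))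
  have e : {C ∈ cys ⊤ (p ^ (s + 1) * p * m) | P ≤ nrm C} = {C ∈ cys (P ⊔ cen P) (p ^ (s + 1) * p * m) | P ≤ nrm C} := by
    ext C
    refine ⟨fun ⟨⟨_, b, c⟩, n⟩ => ⟨⟨?_, b, c⟩, n⟩, fun ⟨⟨_, b, c⟩, n⟩ => ⟨⟨le_top, b, c⟩, n⟩⟩
    obtain ⟨x, rfl⟩ := H7.cyc_iff.1 b
    rw [card_zpowers_eq, ← pow_succ] at c
    have m0 : m ≠ 0 := by
      rintro rfl
      exact hp.1.ne_one (by simpa using hm)
    have o1 : orderOf (x ^ m) = p ^ (s + 2) := by
      rw [orderOf_pow_of_dvd m0 (c ▸ Dvd.intro_left _ rfl), c, Nat.mul_div_cancel _ (Nat.pos_of_ne_zero m0)]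
    have o2 : orderOf (x ^ p ^ (s + 2)) = m := by
      rw [orderOf_pow_of_dvd (pow_ne_zero _ hp.1.ne_zero) (c ▸ Dvd.intro _ rfl), c, Nat.mul_div_cancel_left _ (pow_pos hp.1.pos _)]
    have l1 : zpowers (x ^ m) ≤ P := hP.le_of_normal (pgroup_of_card (by rw [card_zpowers_eq, o1])) le_top
      (n.trans (nrm_le_of_cyc b (zp_pow_le x m)))
    have l2 : P ≤ cen (zpowers (x ^ p ^ (s + 2))) := fun g hg => by
      haveI := cyc_zpowers (x ^ p ^ (s + 2))
      obtain ⟨j, hj⟩ := hP.2 ⟨g, hg⟩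
      refine mem_of_pows ((hp.1.coprime_iff_not_dvd.2 d).pow_left j) (by
        rw [show g ^ p ^ j = 1 from congrArg Subtype.val hj]; exact one_mem _) ?_
      have := H1.pow_totient_mem_centralizer_of_isCyclic (nrm_le_of_cyc b (zp_pow_le x (p ^ (s + 2))) (n hg))
      rwa [card_zpowers_eq, o2] at this
    rw [zpowers_le]
    exact mem_of_pows (hm.pow_left _).symm (mem_sup_left (l1 (mem_zpowers _)))
      (mem_sup_right (le_centralizer_iff.1 l2 (mem_zpowers _)))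
  exact (Nat.modEq_zero_iff_dvd.1 ((a.trans (e ▸ b.symm)).trans (Nat.modEq_zero_iff_dvd.2 k)))

end H1B
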