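import Cfsg.Agent.H6.Classes
import Cfsg.Agent.H6.Mathieu
import Cfsg.Prelude.Def_SporadicCombinatorics

/-! Quartets of a dodecad. -/

set_option maxRecDepth 100000

namespace H1B
open Cfsg H6 Finset MulAction
open scoped Pointwise

namespace Qt

theorem hex_smul (g : M24) {d h : Finset GolayPt} (hh : h ∈ hexadsOn d) :
    g • h ∈ hexadsOn (g • d) := by
  obtain ⟨h6, o, ho, rfl⟩ := hh
  exact ⟨by rw [card_smul_finset, h6], g • o, (smul_mem_octads _ _).2 ho, smul_finset_inter.symm⟩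

theorem q_smul (g : M24) {d : Finset GolayPt} {Q : Finset (Finset GolayPt)} (h : Q ∈ quartets d) :
    g • Q ∈ quartets (g • d) := by
  obtain ⟨h4, h1, h2⟩ := h
  refine ⟨by rw [card_smul_finset, h4], fun t ht => ?_, fun t ht u hu htu => ?_⟩
  · obtain ⟨t, ht', rfl⟩ := mem_smul_finset.1 ht
    exact ⟨by rw [card_smul_finset, (h1 t ht').1], smul_finset_subset_smul_finset (h1 t ht').2⟩
  · obtain ⟨t, ht', rfl⟩ := mem_smul_finset.1 ht
    obtain ⟨u, hu', rfl⟩ := mem_smul_finset.1 hu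
    rw [← smul_finset_union]
    exact hex_smul g (h2 t ht' u hu' fun e => htu (by rw [e]))

theorem q_smul_iff (g : M24) {d : Finset GolayPt} {Q : Finset (Finset GolayPt)} :
    g • Q ∈ quartets (g • d) ↔ Q ∈ quartets d :=
  ⟨fun h => by simpa using q_smul g⁻¹ h, q_smul g⟩

theorem hex_of {a b : ℕ} (h : (Nat.beq (pc (Nat.lor a b)) 6 && anyLt 4096 fun n =>
    Nat.beq (pc (cw n)) 8 && Nat.beq (Nat.land (cw n) 0x5335f) (Nat.lor a b)) = true) :
    dec a ∪ dec b ∈ hexadsOn D0 := by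
  simp only [Bool.and_eq_true, anyLt_iff, Nat.beq_eq] at h
  obtain ⟨h1, n, hn, h2, h3⟩ := h
  rw [← dec_or]
  refine ⟨(card_dec _).trans h1, dec (cw n), mem_octads.2 ⟨dec_cw_mem hn, (card_dec _).trans h2⟩, ?_⟩
  rw [D0, ← dec_and]
  exact congrArg dec h3

theorem Q0_eq : decF 4 mQ0 = {dec 7, dec 0x150, dec 0x11200, dec 0x42008} := by
  ext s
  simp only [decF, mem_image, mem_range, mem_insert, mem_singleton]
  constructor
  · rintro ⟨i, hi, rfl⟩
    interval_cases i
    exacts [Or.inl rfl, Or.inr (Or.inl rfl), Or.inr (Or.inr (Or.inl rfl)),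
      Or.inr (Or.inr (Or.inr rfl))]
  · rintro (rfl | rfl | rfl | rfl)
    exacts [⟨0, by omega, rfl⟩, ⟨1, by omega, rfl⟩, ⟨2, by omega, rfl⟩, ⟨3, by omega, rfl⟩]

theorem card_Q0 : (decF 4 mQ0).card = 4 := card_decF (by decide +kernel)

theorem Q0_mem : decF 4 mQ0 ∈ quartets D0 := by
  refine ⟨card_Q0, fun t ht => ?_, fun t ht u hu htu => ?_⟩
  · obtain ⟨i, hi, rfl⟩ := mem_image.1 ht
    have : allLt 4 (fun i => Nat.beq (pc (lane 24 mQ0 i)) 3 &&
      Nat.beq (Nat.land (lane 24 mQ0 i) 0x5335f) (lane 24 mQ0 i)) = true := by decide +kernel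
    have := allLt_iff.1 this i (mem_range.1 hi)
    simp only [Bool.and_eq_true, Nat.beq_eq] at this
    refine ⟨(card_dec _).trans this.1, ?_⟩
    rw [← inter_eq_left, D0, ← dec_and]
    exact congrArg dec this.2
  · obtain ⟨i, hi, rfl⟩ := mem_image.1 ht
    obtain ⟨j, hj, rfl⟩ := mem_image.1 hu
    have : allLt 4 (fun i => allLt 4 fun j => Nat.beq i j ||
      (Nat.beq (pc (Nat.lor (lane 24 mQ0 i) (lane 24 mQ0 j))) 6 && anyLt 4096 fun n =>
        Nat.beq (pc (cw n)) 8 && Nat.beq (Nat.land (cw n) 0x5335f)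
          (Nat.lor (lane 24 mQ0 i) (lane 24 mQ0 j)))) = true := by decide +kernel
    have := allLt_iff.1 (allLt_iff.1 this i (mem_range.1 hi)) j (mem_range.1 hj)
    rw [Bool.or_eq_true] at this
    refine hex_of (this.resolve_left fun h => htu ?_)
    rw [Nat.eq_of_beq_eq_true h]

theorem disj {t v : Finset GolayPt} (ht : t.card = 3) (hv : v.card = 3) (h : (t ∪ v).card = 6) :
    Disjoint t v := by
  rw [← card_union_eq_card_add_card]; omega

theorem third {v : Finset GolayPt} (hv : v.card = 3) (h1 : dec 7 ∪ v ∈ hexadsOn D0)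
    (h2 : dec 0x150 ∪ v ∈ hexadsOn D0) : v = dec 0x11200 ∨ v = dec 0x42008 := by
  have d1 := disj (by decide +kernel) hv h1.1
  have d2 := disj (by decide +kernel) hv h2.1
  obtain ⟨h6, o, ho, e⟩ := h1
  have key := forall_CC (P := fun o => o.card = 8 → (o ∩ D0).card = 6 → dec 7 ⊆ o ∩ D0 →
      Disjoint (o ∩ D0) (dec 0x150) → o ∩ D0 = dec 0x11207 ∨ o ∩ D0 = dec 0x4200f)
    (fun m => !(Nat.beq (pc m) 8 && Nat.beq (pc (Nat.land m 0x5335f)) 6 && Nat.beq (Nat.land 7 (Nat.land m 0x5335f)) 7 &&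
      Nat.beq (Nat.land (Nat.land m 0x5335f) 0x150) 0) || Nat.beq (Nat.land m 0x5335f) 0x11207 ||
      Nat.beq (Nat.land m 0x5335f) 0x4200f) (by decide +kernel) (fun S hS c0 c1 c2 c3 => by
      rw [card_eq_pc] at c0
      have e1 : enc (S ∩ D0) = Nat.land (enc S) 0x5335f := by
        rw [enc_inter, D0, enc_dec (by norm_num)]; rfl
      rw [card_eq_pc, e1] at c1
      rw [subset_iff_enc, e1, enc_dec (by norm_num)] at c2
      rw [disjoint_iff_enc, e1, enc_dec (by norm_num)] at c3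
      have c2' : Nat.land 7 (Nat.land (enc S) 0x5335f) = 7 := c2
      have c3' : Nat.land (Nat.land (enc S) 0x5335f) 0x150 = 0 := c3
      rw [c0, c1, c2', c3'] at hS
      simp only [Nat.beq_refl, Bool.and_self, Bool.not_true, Bool.false_or, Bool.or_eq_true,
        Nat.beq_eq] at hS
      rcases hS with h | h
      · exact Or.inl (enc_inj (by rw [e1, h, enc_dec (by norm_num)]))
      · exact Or.inr (enc_inj (by rw [e1, h, enc_dec (by norm_num)]))) o (mem_octads.1 ho).1 (mem_octads.1 ho).2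
    (e ▸ h6) (e ▸ subset_union_left)
    (by rw [e, disjoint_union_left]; exact ⟨by decide +kernel, d2.symm⟩)
  rw [e] at key
  rw [← union_sdiff_cancel_left d1]
  rcases key with h | h
  · left; rw [h]; decide +kernel
  · right; rw [h]; decide +kernel

theorem uniq0 {Q : Finset (Finset GolayPt)} (hQ : Q ∈ quartets D0) (h1 : dec 7 ∈ Q)
    (h2 : dec 0x150 ∈ Q) : Q = decF 4 mQ0 := by
  refine eq_of_subset_of_card_le (fun v hv => ?_) (by rw [card_Q0, hQ.1])
  rw [Q0_eq]
  simp only [mem_insert, mem_singleton]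
  by_cases e1 : dec 7 = v
  · exact Or.inl e1.symm
  by_cases e2 : dec 0x150 = v
  · exact Or.inr (Or.inl e2.symm)
  exact Or.inr (Or.inr (third (hQ.2.1 v hv).1 (hQ.2.2 _ h1 v hv e1) (hQ.2.2 _ h2 v hv e2)))

theorem dec7 : dec 7 = {pt 0, pt 1, pt 2} := by decide +kernel

theorem transport {d t u : Finset GolayPt} (hd : d ∈ dodecads) (ht : t.card = 3) (hu : u.card = 3)
    (htu : Disjoint t u) (hh : t ∪ u ∈ hexadsOn d) :
    ∃ g : M24, g • D0 = d ∧ g • dec 7 = t ∧ g • dec 0x150 = u := by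
  obtain ⟨k, rfl⟩ := tr_dodecad D0_mem hd
  obtain ⟨a, b, c, hab, hac, hbc, rfl⟩ := card_eq_three.1 ht
  obtain ⟨x, y, z, hxy, hxz, hyz, rfl⟩ := card_eq_three.1 hu
  obtain ⟨-, o, ho, e⟩ := hh
  have hsub : ∀ p ∈ ({a, b, c} ∪ {x, y, z} : Finset GolayPt), p ∈ o ∩ k • D0 := fun p hp => e ▸ hp
  have nd : [a, b, c, x, y].Nodup := by
    simp only [disjoint_insert_left, disjoint_singleton_left, mem_insert, mem_singleton,
      not_or] at htu
    simp [hab, hac, hbc, hxy, htu]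
  obtain ⟨l, hl, e1⟩ := exists_list_dodecad hd (l := [pt 0, pt 1, pt 2, pt 4, pt 6].map (k • ·))
    (l' := [a, b, c, x, y]) (List.Nodup.map (MulAction.injective k) (by decide +kernel)) nd rfl
    (by simp) (fun p hp => by
      obtain ⟨q, hq, rfl⟩ := List.mem_map.1 hp
      exact smul_mem_smul_finset
        ((by decide +kernel : ∀ q ∈ [pt 0, pt 1, pt 2, pt 4, pt 6], q ∈ D0) q hq)) fun p hp => (mem_inter.1 (hsub p (by
        simp only [List.mem_cons, List.not_mem_nil, or_false] at hp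
        simp only [mem_union, mem_insert, mem_singleton]; tauto))).2
  simp only [List.map_cons, List.map_nil, List.cons.injEq, and_true, ← mul_smul] at e1
  obtain ⟨p0, p1, p2, p4, p6⟩ := e1
  have e1 : (l * k) • D0 = k • D0 := by rw [mul_smul]; exact hl
  have e2 : (l * k) • dec 7 = {a, b, c} := by
    rw [dec7, smul_finset_insert, smul_finset_insert, smul_finset_singleton, p0, p1, p2]
  obtain ⟨-, o0, ho0, e0⟩ : dec 7 ∪ dec 0x150 ∈ hexadsOn D0 := hex_of (by decide +kernel)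
  have m0 : ∀ p ∈ [pt 0, pt 1, pt 2, pt 4, pt 6], p ∈ o0 := fun p hp =>
    (mem_inter.1 (e0 ▸ (by revert p; decide +kernel) : p ∈ o0 ∩ D0)).1
  have e3 : (l * k) • o0 = o := by
    refine octad_eq_of_five ((smul_mem_octads _ _).2 ho0) ho ?_
    have : ([a, b, c, x, y].toFinset).card = 5 := List.toFinset_card_of_nodup nd
    rw [← this]
    refine card_le_card fun p hp => mem_inter.2 ⟨?_, (mem_inter.1 (hsub p (by
        simp only [List.mem_toFinset, List.mem_cons, List.not_mem_nil, or_false] at hp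
        simp only [mem_union, mem_insert, mem_singleton]; tauto))).1⟩
    simp only [List.mem_toFinset, List.mem_cons, List.not_mem_nil, or_false] at hp
    rcases hp with rfl | rfl | rfl | rfl | rfl
    · exact p0 ▸ smul_mem_smul_finset (m0 _ (by simp))
    · exact p1 ▸ smul_mem_smul_finset (m0 _ (by simp))
    · exact p2 ▸ smul_mem_smul_finset (m0 _ (by simp))
    · exact p4 ▸ smul_mem_smul_finset (m0 _ (by simp))
    · exact p6 ▸ smul_mem_smul_finset (m0 _ (by simp))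
  refine ⟨l * k, e1, e2, ?_⟩
  have e4 : (l * k) • (dec 7 ∪ dec 0x150) = {a, b, c} ∪ {x, y, z} := by
    rw [← e0, smul_finset_inter, e3, e1, e]
  have e5 : dec 0x150 = (dec 7 ∪ dec 0x150) \ dec 7 := by decide +kernel
  rw [e5, smul_finset_sdiff, e4, e2, union_sdiff_cancel_left htu]

theorem t0_mem : dec 7 ∈ decF 4 mQ0 := by rw [Q0_eq]; simp
theorem u0_mem : dec 0x150 ∈ decF 4 mQ0 := by rw [Q0_eq]; simp

theorem eq_smul {g : M24} {Q : Finset (Finset GolayPt)} (hQ : Q ∈ quartets (g • D0))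
    (h1 : g • dec 7 ∈ Q) (h2 : g • dec 0x150 ∈ Q) : g • decF 4 mQ0 = Q := by
  have h3 := q_smul g⁻¹ hQ
  rw [inv_smul_smul] at h3
  rw [← uniq0 h3 (by rwa [mem_inv_smul_finset_iff]) (by rwa [mem_inv_smul_finset_iff]),
    smul_inv_smul]

theorem std {d : Finset GolayPt} (hd : d ∈ dodecads) {Q : Finset (Finset GolayPt)}
    (hQ : Q ∈ quartets d) : ∃ g : M24, g • D0 = d ∧ g • decF 4 mQ0 = Q := by
  obtain ⟨t, ht, u, hu, htu⟩ := one_lt_card.1 (show 1 < Q.card by rw [hQ.1]; omega)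
  have hh := hQ.2.2 t ht u hu htu
  obtain ⟨g, rfl, rfl, rfl⟩ := transport hd (hQ.2.1 t ht).1 (hQ.2.1 u hu).1
    (disj (hQ.2.1 t ht).1 (hQ.2.1 u hu).1 hh.1) hh
  exact ⟨g, rfl, eq_smul hQ ht hu⟩

theorem inv0 : ∀ g ∈ stabilizer M24 D0, ∀ b ∈ quartets D0, g • b ∈ quartets D0 := fun g hg b hb => by
  have := q_smul g hb
  rwa [mem_stabilizer_iff.1 hg] at this

theorem orb_eq0 : orb (stabilizer M24 D0) (decF 4 mQ0) = quartets D0 := by
  refine (orb_subset inv0 Q0_mem).antisymm fun Q hQ => ?_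
  obtain ⟨g, h1, rfl⟩ := std D0_mem hQ
  exact smul_mem_orb h1 (self_mem_orb _ _)

theorem ncard0 : (quartets D0).ncard = 220 := orb_eq0 ▸ quartet_main.1

/-- generators of the quartet stabiliser -/
def gK : List ℕ := [0x3de8e7854c5d44999603b4a2d010c8, 0x3c6aebb0adb512353e449996880402]
theorem gK_ok : allL (fxF (fxS inM 0x5335f) 4 mQ0) gK = true := by decide +kernel

/-- orbit representatives -/
noncomputable def xq (t : ℕ) : ℕ := imgF 4 t mQ0

theorem xq_mem {t : ℕ} (h : fxS inM 0x5335f t = true) : decF 4 (xq t) ∈ quartets D0 := by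
  have h1 := ckS 0x5335f t h
  rw [xq, ← h1.1.smul_decF]
  exact inv0 _ h1.2 _ Q0_mem

abbrev K0 : Subgroup M24 := stabilizer M24 D0 ⊓ stabilizer M24 (decF 4 mQ0)

theorem o12 : (orb K0 (decF 4 (xq 0xa3cb79b5d0b46425a90939aa11b080))).ncard = 12 :=
  (ck_Q.orbF_eq quartet_main.2 gK_ok hQ 3547 444 230 (xq_mem (by decide +kernel)).1 12 36
    [(0, [0x2aaae7b6ec5d249b1e0098a2119106, 0xbda95548a43b9a85cccc7a63018022]), (6, [0x2ceb4b36295ba4c79e06522e418440, 0xbae957b6289ba44b1cd0524ac18820])] (by decide +kernel))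
theorem o27 : (orb K0 (decF 4 (xq 0x8d9f5999642d11051d82bb5c34c820))).ncard = 27 :=
  (ck_Q.orbF_eq quartet_main.2 gK_ok hQ 3547 444 230 (xq_mem (by decide +kernel)).1 27 16
    [(0, [0x54e95b0a307b82c5dd262a0e4049a3, 0x3ae95512637b90d2da41882e23260c]), (3, [0x5da952c9467b868bc48c3c26968820])] (by decide +kernel))
theorem o72 : (orb K0 (decF 4 (xq 0x751f68a6a02a82d9de5038d6660888))).ncard = 72 :=
  (ck_Q.orbF_eq quartet_main.2 gK_ok hQ 3547 444 230 (xq_mem (by decide +kernel)).1 72 6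
    [(0, [0x2be955ca26b39a49a9093c2ec18440, 0x2bdd58a566551849d912b8ced80041]), (1, [0x2be955ca26b39a49a9093c2ec18440])] (by decide +kernel))
theorem o108 : (orb K0 (decF 4 (xq 0x79696391c0ac4329a9095c2e21b586))).ncard = 108 :=
  (ck_Q.orbF_eq quartet_main.2 gK_ok hQ 3547 444 230 (xq_mem (by decide +kernel)).1 108 4
    [(3, [0x3c6b498ec92b9ac52e04b99e890801, 0x545d4992d07d4cc3dd235b4b240801])] (by decide +kernel))

theorem cov : ∀ b ∈ quartets D0, ∃ x ∈ [mQ0, xq 0xa3cb79b5d0b46425a90939aa11b080,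
    xq 0x8d9f5999642d11051d82bb5c34c820, xq 0x751f68a6a02a82d9de5038d6660888,
    xq 0x79696391c0ac4329a9095c2e21b586], b ∈ orb K0 (decF 4 x) :=
  ck_Q.coverF gK_ok hQ 3547 444 230 4 (fun g hg => inv0 g hg.1) (fun b hb => hb.1) (by
    simp only [List.forall_mem_cons, List.not_mem_nil, IsEmpty.forall_iff, implies_true, and_true]
    exact ⟨Q0_mem, xq_mem (by decide +kernel), xq_mem (by decide +kernel),
      xq_mem (by decide +kernel), xq_mem (by decide +kernel)⟩) (by rw [ncard0]; decide +kernel)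

end Qt
end H1B
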