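import Cfsg.Agent.H1.Qt

/-! The structure of the quartet stabiliser. -/

set_option maxRecDepth 100000

namespace H1B
open Cfsg H6 Finset MulAction
open scoped Pointwise

namespace Qt

theorem aff {K : Type*} [Group K] [Finite K] (hK : Nat.card K = 432) {a b : K} (ha : a ^ 3 = 1)
    (hb : b ^ 3 = 1) (hab : Commute a b)
    (hi : ∀ i < 3, ∀ j < 3, a ^ i * b ^ j = 1 → i = 0 ∧ j = 0)
    (hn : ∀ g : K, (∃ i j : ℕ, g * a = a ^ i * b ^ j * g) ∧ (∃ i j : ℕ, g * b = a ^ i * b ^ j * g) ∧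
      (g * a = a * g → g * b = b * g → ∃ i j : ℕ, g = a ^ i * b ^ j)) :
    ∃ (N : Subgroup K) (_ : N.Normal), Nat.card N = 9 ∧ Nonempty (K ⧸ N ≃* GL (Fin 2) (ZMod 3)) := by
  have pa : ∀ {c : K}, c ^ 3 = 1 → ∀ x y : ZMod 3, c ^ (x + y).val = c ^ x.val * c ^ y.val := by
    intro c hc x y
    rw [ZMod.val_add, ← pow_eq_pow_mod _ hc, pow_add]
  let ι : Multiplicative (Fin 2 → ZMod 3) →* K := MonoidHom.mk'
    (fun v => a ^ (v.toAdd 0).val * b ^ (v.toAdd 1).val) (fun v w => by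
      simp only [toAdd_mul, Pi.add_apply, pa ha, pa hb]
      exact (hab.pow_pow _ _).mul_mul_mul_comm _ _)
  have hι : Function.Injective ι := by
    rw [injective_iff_map_eq_one]
    intro v hv
    obtain ⟨h1, h2⟩ := hi _ (ZMod.val_lt _) _ (ZMod.val_lt _) hv
    apply Multiplicative.toAdd.injective
    funext i
    fin_cases i
    · exact (ZMod.val_eq_zero _).1 h1
    · exact (ZMod.val_eq_zero _).1 h2
  have ma : a ∈ ι.range := ⟨Multiplicative.ofAdd ![1, 0], by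
    show a ^ 1 * b ^ 0 = a
    simp⟩
  have mb : b ∈ ι.range := ⟨Multiplicative.ofAdd ![0, 1], by
    show a ^ 0 * b ^ 1 = b
    simp⟩
  have mab : ∀ i j : ℕ, a ^ i * b ^ j ∈ ι.range := fun i j =>
    mul_mem (pow_mem ma i) (pow_mem mb j)
  haveI hN : ι.range.Normal := ⟨by
    rintro _ ⟨v, rfl⟩ g
    obtain ⟨⟨i, j, h1⟩, ⟨k, l, h2⟩, -⟩ := hn g
    have : g * ι v * g⁻¹ = (g * a * g⁻¹) ^ (v.toAdd 0).val * (g * b * g⁻¹) ^ (v.toAdd 1).val := by
      rw [conj_pow, conj_pow, conj_mul]; rfl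
    rw [this, h1, h2, mul_inv_cancel_right, mul_inv_cancel_right]
    exact mul_mem (pow_mem (mab i j) _) (pow_mem (mab k l) _)⟩
  let e := MonoidHom.ofInjective hι
  have hc : Nat.card ι.range = 9 := by
    rw [← Nat.card_congr e.toEquiv, Nat.card_congr Multiplicative.toAdd]
    simp
  let θ : MulAut (Multiplicative (Fin 2 → ZMod 3)) →*
      ((Fin 2 → ZMod 3) ≃ₗ[ZMod 3] (Fin 2 → ZMod 3)) :=
    MonoidHom.mk' (fun f => { (AddEquiv.toMultiplicative.symm f : (Fin 2 → ZMod 3) ≃+ (Fin 2 → ZMod 3)) with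
      map_smul' := fun c x => ZMod.map_smul
        (AddEquiv.toMultiplicative.symm f : (Fin 2 → ZMod 3) ≃+ (Fin 2 → ZMod 3)) c x })
      (fun _ _ => rfl)
  have hθ : Function.Injective θ := fun f g h => MulEquiv.ext fun x => LinearEquiv.congr_fun h x
  let κ : MulAut ι.range →* GL (Fin 2) (ZMod 3) :=
    (Matrix.GeneralLinearGroup.toLin.trans
      (LinearMap.GeneralLinearGroup.generalLinearEquiv _ _)).symm.toMonoidHom.comp
      (θ.comp (MulAut.congr e.symm).toMonoidHom)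
  have hκ : Function.Injective κ := fun x y h => (MulAut.congr e.symm).injective
    (hθ ((Matrix.GeneralLinearGroup.toLin.trans
      (LinearMap.GeneralLinearGroup.generalLinearEquiv _ _)).symm.injective h))
  let f : K →* GL (Fin 2) (ZMod 3) := κ.comp MulAut.conjNormal
  have hf : ι.range = f.ker := by
    ext g
    rw [MonoidHom.mem_ker, MonoidHom.comp_apply, map_eq_one_iff κ hκ]
    constructor
    · rintro ⟨v, rfl⟩
      ext ⟨_, w, rfl⟩
      simp only [MulAut.conjNormal_apply, MulAut.one_apply]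
      rw [← map_mul, mul_comm, map_mul, mul_inv_cancel_right]
    · intro h
      have h1 := congrArg Subtype.val (DFunLike.congr_fun h ⟨a, ma⟩)
      have h2 := congrArg Subtype.val (DFunLike.congr_fun h ⟨b, mb⟩)
      simp only [MulAut.conjNormal_apply, MulAut.one_apply, mul_inv_eq_iff_eq_mul] at h1 h2
      obtain ⟨i, j, rfl⟩ := (hn g).2.2 h1 h2
      exact mab i j
  have hs : Function.Surjective f := by
    rw [← MonoidHom.range_eq_top]
    apply Subgroup.eq_top_of_card_eq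
    have h1 := f.ker.card_mul_index
    rw [Subgroup.index_ker, ← hf, hc, hK] at h1
    rw [Matrix.card_GL_field, Fin.prod_univ_two, ZMod.card]
    simp only [Fin.val_zero, Fin.val_one]
    omega
  exact ⟨ι.range, hN, hc, ⟨(QuotientGroup.quotientMulEquivOfEq hf).trans
    (QuotientGroup.quotientKerEquivOfSurjective f hs)⟩⟩

/-- generators of the normal subgroup -/
def qa : ℕ := 0x5deb478d4c2ba49b1e068926868820
/-- generators of the normal subgroup -/
def qb : ℕ := 0x2beb454aec3b9a99ae04b222618041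
/-- small powers -/
noncomputable def pw (t : ℕ) : ℕ → ℕ := Nat.rec idT fun _ ih => mulT ih t
/-- the nine elements -/
noncomputable def w9 (n : ℕ) : ℕ := mulT (pw qa (Nat.div n 3)) (pw qb (Nat.mod n 3))

theorem pw_spec {t : ℕ} (h : Gd t) (n : ℕ) : Gd (pw t n) ∧ E (pw t n) = E t ^ n := by
  induction n with
  | zero => rw [show pw t 0 = idT from rfl, E_idT, pow_zero]; exact ⟨gd_idT, rfl⟩
  | succ n ih =>
    rw [show pw t (n + 1) = mulT (pw t n) t from rfl, ih.1.E_mul h, ih.2, pow_succ]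
    exact ⟨ih.1.mul h, rfl⟩

theorem qa_mem : Gd qa ∧ E qa ∈ K0 := ck_Q qa (by decide +kernel)
theorem qb_mem : Gd qb ∧ E qb ∈ K0 := ck_Q qb (by decide +kernel)

theorem w9_spec (n : ℕ) : Gd (w9 n) ∧ E (w9 n) = E qa ^ (n / 3) * E qb ^ (n % 3) :=
  ⟨(pw_spec qa_mem.1 _).1.mul (pw_spec qb_mem.1 _).1, by
    rw [w9, (pw_spec qa_mem.1 _).1.E_mul (pw_spec qb_mem.1 _).1, (pw_spec qa_mem.1 _).2,
      (pw_spec qb_mem.1 _).2]; rfl⟩

theorem conj_all : ∀ g ∈ K0, (∃ i j : ℕ, g * E qa = E qa ^ i * E qb ^ j * g) ∧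
    (∃ i j : ℕ, g * E qb = E qa ^ i * E qb ^ j * g) ∧
    (g * E qa = E qa * g → g * E qb = E qb * g → ∃ i j : ℕ, g = E qa ^ i * E qb ^ j) := by
  intro g hg
  obtain ⟨t, ht, rfl, hq⟩ := ck_Q.forall_mem trQ (quartet_main.2.le.trans tcnt_Q.ge)
    (fun t => anyLt 9 (fun n => Nat.beq (mulT t qa) (mulT (w9 n) t)) &&
      anyLt 9 (fun n => Nat.beq (mulT t qb) (mulT (w9 n) t)) &&
      (!(Nat.beq (mulT t qa) (mulT qa t) && Nat.beq (mulT t qb) (mulT qb t)) ||
        anyLt 9 (fun n => eqT t (w9 n)))) (by decide +kernel) g hg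
  simp only [Bool.and_eq_true, anyLt_iff, Bool.or_eq_true] at hq
  obtain ⟨⟨⟨n, -, h1⟩, m, -, h2⟩, h3⟩ := hq
  refine ⟨⟨n / 3, n % 3, ?_⟩, ⟨m / 3, m % 3, ?_⟩, fun c1 c2 => ?_⟩
  · rw [← (w9_spec n).2]; exact (ht.mul_eq_iff qa_mem.1 (w9_spec n).1 ht).2 h1
  · rw [← (w9_spec m).2]; exact (ht.mul_eq_iff qb_mem.1 (w9_spec m).1 ht).2 h2
  · rw [(ht.mul_eq_iff qa_mem.1 qa_mem.1 ht).1 c1, (ht.mul_eq_iff qb_mem.1 qb_mem.1 ht).1 c2] at h3
    obtain ⟨k, -, h4⟩ := h3.resolve_left (by simp)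
    exact ⟨k / 3, k % 3, ((ht.E_eq_iff (w9_spec k).1).2 h4).trans (w9_spec k).2⟩

theorem indep : ∀ i < 3, ∀ j < 3, E qa ^ i * E qb ^ j = 1 → i = 0 ∧ j = 0 := by
  intro i hi j hj h
  have h1 := (w9_spec (3 * i + j)).2
  rw [show (3 * i + j) / 3 = i by omega, show (3 * i + j) % 3 = j by omega, h, ← E_idT,
    (w9_spec _).1.E_eq_iff gd_idT] at h1
  have : allLt 9 (fun n => Nat.beq n 0 || !eqT (w9 n) idT) = true := by decide +kernel
  have h2 := allLt_iff.1 this (3 * i + j) (by omega)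
  rw [h1] at h2
  simp only [Bool.not_true, Bool.or_false, Nat.beq_eq] at h2
  omega

theorem qa3 : E qa ^ 3 = 1 := by
  rw [← (pw_spec qa_mem.1 3).2, ← E_idT, (pw_spec qa_mem.1 3).1.E_eq_iff gd_idT]; decide +kernel
theorem qb3 : E qb ^ 3 = 1 := by
  rw [← (pw_spec qb_mem.1 3).2, ← E_idT, (pw_spec qb_mem.1 3).1.E_eq_iff gd_idT]; decide +kernel
theorem qab : E qa * E qb = E qb * E qa :=
  (qa_mem.1.mul_eq_iff qb_mem.1 qb_mem.1 qa_mem.1).2 (by decide +kernel)

theorem aff_of {K : Type*} [Group K] [Finite K] (e : K0 ≃* K) :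
    ∃ (N : Subgroup K) (_ : N.Normal), Nat.card N = 9 ∧ Nonempty (K ⧸ N ≃* GL (Fin 2) (ZMod 3)) := by
  refine aff (a := e ⟨_, qa_mem.2⟩) (b := e ⟨_, qb_mem.2⟩)
    ((Nat.card_congr e.toEquiv).symm.trans quartet_main.2) ?_ ?_ ?_ ?_ ?_
  · rw [← map_pow, map_eq_one_iff e e.injective]; exact Subtype.ext qa3
  · rw [← map_pow, map_eq_one_iff e e.injective]; exact Subtype.ext qb3
  · exact Commute.map (Subtype.ext qab) e
  · intro i hi j hj h
    rw [← map_pow, ← map_pow, ← map_mul, map_eq_one_iff e e.injective] at h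
    exact indep i hi j hj (congrArg Subtype.val h)
  · intro g
    obtain ⟨g, rfl⟩ := e.surjective g
    simp only [← map_pow, ← map_mul, e.injective.eq_iff, ← Subtype.coe_inj (p := (· ∈ K0)),
      Subgroup.coe_mul, Subgroup.coe_pow]
    exact conj_all g g.2

theorem orb_pt0 : orb K0 (pt 0) = (D0 : Set GolayPt) :=
  orb_eq (Set.toFinite _) (fun g hg b hb => by
    have h : g • D0 = D0 := hg.1
    rw [← h]; exact smul_mem_smul_finset hb) (by
      show pt 0 ∈ D0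
      decide +kernel) (by
    rw [Set.ncard_coe_finset, (mem_dodecads.1 D0_mem).2]
    exact le_trans (by decide +kernel) (ck_Q.orbP_le gK_ok (j := 0) (by omega)))

end Qt
end H1B
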