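import Mathlib

/-! Schur's theorem on permutation groups with a regular abelian subgroup having a cyclic
Sylow subgroup. -/

set_option linter.unusedSectionVars false

namespace H1B
open Subgroup Finset

namespace SR

variable {H : Type*} [CommGroup H] [Fintype H] [DecidableEq H] {Γ : Subgroup (Equiv.Perm H)}
  {p : ℕ}

/-- the shifted permutation -/
def sh (σ : Equiv.Perm H) (x : H) : Equiv.Perm H := Equiv.mulLeft (σ x)⁻¹ * σ * Equiv.mulLeft x

theorem sh_apply (σ : Equiv.Perm H) (x y : H) : sh σ x y = (σ x)⁻¹ * σ (x * y) := rfl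

theorem sh_one (σ : Equiv.Perm H) (x : H) : sh σ x 1 = 1 := by simp [sh_apply]

theorem sh_mem (hΓ : ∀ a, Equiv.mulLeft a ∈ Γ) {σ : Equiv.Perm H} (hσ : σ ∈ Γ) (x : H) :
    sh σ x ∈ Γ := Γ.mul_mem (Γ.mul_mem (hΓ _) hσ) (hΓ _)

theorem sh_apply' (σ : Equiv.Perm H) (x y : H) : sh σ x (x⁻¹ * y) = (σ x)⁻¹ * σ y := by
  simp [sh_apply]

theorem pinv_one {σ : Equiv.Perm H} (h : σ 1 = 1) : σ⁻¹ 1 = 1 := by
  rw [Equiv.Perm.inv_eq_iff_eq]; exact h.symm

/-- invariant sets -/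
def InvS (Γ : Subgroup (Equiv.Perm H)) (T : Set H) : Prop :=
  ∀ σ ∈ Γ, σ 1 = 1 → ∀ y ∈ T, σ y ∈ T

theorem InvS.iff {T : Set H} (hT : InvS Γ T) {σ : Equiv.Perm H} (hσ : σ ∈ Γ) (h1 : σ 1 = 1)
    (y : H) : σ y ∈ T ↔ y ∈ T :=
  ⟨fun h => by simpa using hT σ⁻¹ (Γ.inv_mem hσ) (pinv_one h1) _ h, hT σ hσ h1 y⟩

theorem InvS.shift (hΓ : ∀ a, Equiv.mulLeft a ∈ Γ) {T : Set H} (hT : InvS Γ T)
    {σ : Equiv.Perm H} (hσ : σ ∈ Γ) (x y : H) : (σ x)⁻¹ * σ y ∈ T ↔ x⁻¹ * y ∈ T := by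
  rw [← sh_apply']; exact hT.iff (sh_mem hΓ hσ x) (sh_one σ x) _

theorem InvS.closure (hΓ : ∀ a, Equiv.mulLeft a ∈ Γ) {T : Set H} (hT : InvS Γ T) :
    InvS Γ (Subgroup.closure T : Set H) := by
  intro σ hσ h1 y hy
  induction hy using Subgroup.closure_induction generalizing σ with
  | mem x hx => exact subset_closure (hT σ hσ h1 x hx)
  | one => rw [h1]; exact (Subgroup.closure T).one_mem
  | mul x y _ _ ihx ihy =>
    have : σ (x * y) = σ x * sh σ x y := by simp [sh_apply]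
    rw [this]
    exact (Subgroup.closure T).mul_mem (ihx σ hσ h1) (ihy _ (sh_mem hΓ hσ x) (sh_one σ x))
  | inv x _ ih =>
    have : σ x⁻¹ = (sh σ x⁻¹ x)⁻¹ := by simp [sh_apply, h1]
    rw [this]
    exact (Subgroup.closure T).inv_mem (ih _ (sh_mem hΓ hσ _) (sh_one σ _))

/-- the radical -/
def rad (T : Set H) : Subgroup H where
  carrier := {h | ∀ t, h⁻¹ * t ∈ T ↔ t ∈ T}
  one_mem' := by intro t; simp
  mul_mem' := by
    intro a b ha hb t
    rw [mul_inv_rev, mul_assoc, hb, ha]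
  inv_mem' := by
    intro a ha t
    rw [← ha]; simp

theorem InvS.rad (hΓ : ∀ a, Equiv.mulLeft a ∈ Γ) {T : Set H} (hT : InvS Γ T) :
    InvS Γ (rad T : Set H) := by
  intro σ hσ h1 h hh s
  obtain ⟨t, rfl⟩ := σ.surjective s
  rw [hT.shift hΓ hσ, hT.iff hσ h1]
  exact hh t

/-- invariant elements of the group algebra -/
def InvA {R : Type*} [CommRing R] (Γ : Subgroup (Equiv.Perm H)) (u : MonoidAlgebra R H) : Prop :=
  ∀ σ ∈ Γ, σ 1 = 1 → ∀ y, u.coeff (σ y) = u.coeff y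

theorem InvA.mul {R : Type*} [CommRing R] (hΓ : ∀ a, Equiv.mulLeft a ∈ Γ)
    {u v : MonoidAlgebra R H} (hu : InvA Γ u) (hv : InvA Γ v) : InvA Γ (u * v) := by
  intro σ hσ h1 y
  rw [MonoidAlgebra.coeff_mul_apply_left, MonoidAlgebra.coeff_mul_apply_left,
    Finsupp.sum_fintype _ _ (by simp), Finsupp.sum_fintype _ _ (by simp),
    ← Equiv.sum_comp σ]
  refine Finset.sum_congr rfl fun x _ => ?_
  rw [hu σ hσ h1, ← sh_apply', hv _ (sh_mem hΓ hσ x) (sh_one σ x)]

theorem InvA.one {R : Type*} [CommRing R] : InvA Γ (1 : MonoidAlgebra R H) := by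
  intro σ _ h1 y
  rw [MonoidAlgebra.one_def, MonoidAlgebra.coeff_single, Finsupp.single_apply,
    Finsupp.single_apply]
  have : (1 = σ y) ↔ (1 = y) := by
    conv_lhs => rw [← h1]
    exact σ.injective.eq_iff
  simp only [this]

theorem InvA.pow {R : Type*} [CommRing R] (hΓ : ∀ a, Equiv.mulLeft a ∈ Γ)
    {u : MonoidAlgebra R H} (hu : InvA Γ u) : ∀ n : ℕ, InvA Γ (u ^ n)
  | 0 => by rw [pow_zero]; exact InvA.one
  | n + 1 => by rw [pow_succ]; exact (InvA.pow hΓ hu n).mul hΓ hu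

theorem coeff_sum_single {R : Type*} [CommRing R] (T : Finset H) (f : H → H) (z : H) :
    (∑ t ∈ T, MonoidAlgebra.single (f t) (1 : R)).coeff z = ((T.filter (f · = z)).card : R) := by
  rw [MonoidAlgebra.coeff_sum, Finsupp.finset_sum_apply]
  simp only [MonoidAlgebra.coeff_single, Finsupp.single_apply]
  rw [Finset.sum_boole]

theorem pow_inv (hΓ : ∀ a, Equiv.mulLeft a ∈ Γ) (hp : p.Prime) {T : Finset H}
    (hT : InvS Γ (T : Set H)) : InvS Γ {z | ¬ p ∣ (T.filter (· ^ p = z)).card} := by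
  haveI := Fact.mk hp
  haveI : CharP (MonoidAlgebra (ZMod p) H) p := by
    refine charP_of_injective_algebraMap (R := ZMod p) ?_ p
    exact (algebraMap (ZMod p) (MonoidAlgebra (ZMod p) H)).injective
  have h1 : InvA Γ (∑ t ∈ T, MonoidAlgebra.single t (1 : ZMod p)) := by
    intro σ hσ h1 y
    rw [coeff_sum_single T (fun t => t), coeff_sum_single T (fun t => t), Finset.filter_eq',
      Finset.filter_eq']
    have := hT.iff hσ h1 y
    simp only [Finset.mem_coe] at this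
    simp only [this]
    split_ifs <;> simp
  have h2 := h1.pow hΓ p
  rw [sum_pow_char] at h2
  simp only [MonoidAlgebra.single_pow, one_pow] at h2
  intro σ hσ hσ1 y hy
  have h3 := h2 σ hσ hσ1 y
  rw [coeff_sum_single T (· ^ p), coeff_sum_single T (· ^ p)] at h3
  simp only [Set.mem_setOf_eq, ← ZMod.natCast_eq_zero_iff] at hy ⊢
  rwa [h3]

open scoped Pointwise in
theorem card_dvd_of_stable (E : Subgroup H) (S : Finset H) (hS : ∀ e ∈ E, ∀ s ∈ S, s * e ∈ S) :
    Nat.card E ∣ S.card := by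
  have h := Subgroup.card_mul_eq_card_subgroup_mul_card_quotient E (S : Set H)
  have h2 : ((S : Set H) * (E : Set H) : Set H) = S := by
    ext x
    constructor
    · rintro ⟨s, hs, e, he, rfl⟩; exact hS e he s hs
    · intro hx; exact ⟨x, hx, 1, E.one_mem, mul_one x⟩
  rw [h2] at h
  have h3 : Nat.card (S : Set H) = S.card := by simp
  rw [h3] at h
  exact ⟨_, h⟩

section Main
variable {E : Subgroup H}

/-- step 1: the part of an invariant set outside `E` is a union of `E`-cosets -/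
theorem stable (hΓ : ∀ a, Equiv.mulLeft a ∈ Γ) (hp : p.Prime) (hE : ∀ x, x ∈ E ↔ x ^ p = 1)
    (hc : Nat.card E = p) (hprim : ∀ L : Subgroup H, InvS Γ (L : Set H) → L = ⊥ ∨ L = ⊤)
    {T : Finset H} (hT : InvS Γ (T : Set H)) {t e : H} (ht : t ∈ T) (htE : t ∉ E) (he : e ∈ E) :
    t * e ∈ T := by
  classical
  have hS := pow_inv hΓ hp hT
  set S : Set H := {z | ¬ p ∣ (T.filter (· ^ p = z)).card} with hSd
  have hle : Subgroup.closure S ≤ (powMonoidHom p : H →* H).range := by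
    rw [Subgroup.closure_le]
    intro z hz
    have : (T.filter (· ^ p = z)).Nonempty := by
      rw [Finset.nonempty_iff_ne_empty]
      intro h
      apply hz
      rw [h]; simp
    obtain ⟨x, hx⟩ := this
    exact ⟨x, (Finset.mem_filter.1 hx).2⟩
  have hne : (powMonoidHom p : H →* H).range ≠ ⊤ := by
    intro h
    have hs : Function.Surjective (powMonoidHom p : H →* H) := MonoidHom.range_eq_top.1 h
    have hi := Finite.injective_iff_surjective.2 hs
    have : E = ⊥ := by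
      rw [eq_bot_iff]
      intro x hx
      rw [Subgroup.mem_bot]
      apply hi
      simpa using (hE x).1 hx
    rw [this, Subgroup.card_bot] at hc
    exact hp.one_lt.ne hc
  have hb : Subgroup.closure S = ⊥ := by
    rcases hprim _ (hS.closure hΓ) with h | h
    · exact h
    · exact absurd (top_le_iff.1 (h ▸ hle)) hne
  have hd : p ∣ (T.filter (· ^ p = t ^ p)).card := by
    by_contra h
    have : t ^ p ∈ Subgroup.closure S := subset_closure h
    rw [hb, Subgroup.mem_bot] at this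
    exact htE ((hE t).2 this)
  have hsub : T.filter (· ^ p = t ^ p) ⊆ (Finset.univ.filter (· ∈ E)).image (t * ·) := by
    intro x hx
    rw [Finset.mem_image]
    refine ⟨t⁻¹ * x, ?_, by simp⟩
    simp only [Finset.mem_filter, Finset.mem_univ, true_and, hE]
    rw [mul_pow, (Finset.mem_filter.1 hx).2, inv_pow, inv_mul_cancel]
  have hcE : (Finset.univ.filter (· ∈ E)).card = p := by
    rw [← hc, Nat.card_eq_fintype_card, Fintype.card_subtype]
  have hpos : 0 < (T.filter (· ^ p = t ^ p)).card :=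
    Finset.card_pos.2 ⟨t, Finset.mem_filter.2 ⟨ht, rfl⟩⟩
  have heq := Finset.eq_of_subset_of_card_le hsub
    (Finset.card_image_le.trans (hcE.le.trans (Nat.le_of_dvd hpos hd)))
  have : t * e ∈ T.filter (· ^ p = t ^ p) := by
    rw [heq, Finset.mem_image]
    exact ⟨e, by simpa using he, rfl⟩
  exact (Finset.mem_filter.1 this).1

theorem meets (hΓ : ∀ a, Equiv.mulLeft a ∈ Γ) (hp : p.Prime) (hE : ∀ x, x ∈ E ↔ x ^ p = 1)
    (hc : Nat.card E = p) (hprim : ∀ L : Subgroup H, InvS Γ (L : Set H) → L = ⊥ ∨ L = ⊤)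
    {T : Finset H} (hT : InvS Γ (T : Set H)) {t : H} (ht : t ∈ T) (h1 : (1 : H) ∉ T) :
    ∃ a ∈ T, a ∈ E := by
  by_contra h
  push Not at h
  have hle : E ≤ rad (T : Set H) := by
    intro e he s
    constructor
    · intro hs
      have := stable hΓ hp hE hc hprim hT hs (h _ hs) he
      rwa [mul_comm, mul_inv_cancel_left] at this
    · intro hs
      have := stable hΓ hp hE hc hprim hT hs (h _ hs) (E.inv_mem he)
      rwa [mul_comm] at this
  rcases hprim _ (hT.rad hΓ) with hb | hb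
  · rw [hb, le_bot_iff] at hle
    rw [hle, Subgroup.card_bot] at hc
    exact hp.one_lt.ne hc
  · have : t ∈ rad (T : Set H) := hb ▸ Subgroup.mem_top t
    have h2 := (this t).2 ht
    rw [inv_mul_cancel] at h2
    exact h1 h2

theorem not_sub (hΓ : ∀ a, Equiv.mulLeft a ∈ Γ) (hne : E ≠ ⊤)
    (hprim : ∀ L : Subgroup H, InvS Γ (L : Set H) → L = ⊥ ∨ L = ⊤)
    {T : Finset H} (hT : InvS Γ (T : Set H)) {t : H} (ht : t ∈ T) (h1 : (1 : H) ∉ T) :
    ∃ b ∈ T, b ∉ E := by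
  by_contra h
  push Not at h
  have hle : Subgroup.closure (T : Set H) ≤ E := by
    rw [Subgroup.closure_le]; exact h
  rcases hprim _ (hT.closure hΓ) with hb | hb
  · have : t ∈ Subgroup.closure (T : Set H) := subset_closure ht
    rw [hb, Subgroup.mem_bot] at this
    exact h1 (this ▸ ht)
  · exact hne (top_le_iff.1 (hb ▸ hle))

theorem count_inv (hΓ : ∀ a, Equiv.mulLeft a ∈ Γ) {T T' : Finset H} (hT : InvS Γ (T : Set H))
    (hT' : InvS Γ (T' : Set H)) {σ : Equiv.Perm H} (hσ : σ ∈ Γ) (h1 : σ 1 = 1) (z : H) :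
    (T'.filter (fun y => y⁻¹ * σ z ∈ T)).card = (T'.filter (fun y => y⁻¹ * z ∈ T)).card := by
  symm
  refine Finset.card_equiv σ fun y => ?_
  simp only [Finset.mem_filter]
  have h2 := hT'.iff hσ h1 y
  have h3 := hT.shift hΓ hσ y z
  simp only [Finset.mem_coe] at h2 h3
  rw [h2, h3]

theorem two_orbits (hΓ : ∀ a, Equiv.mulLeft a ∈ Γ) (hp : p.Prime) (hE : ∀ x, x ∈ E ↔ x ^ p = 1)
    (hc : Nat.card E = p) (hne : E ≠ ⊤)
    (hprim : ∀ L : Subgroup H, InvS Γ (L : Set H) → L = ⊥ ∨ L = ⊤)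
    {T T' : Finset H} (hT : InvS Γ (T : Set H)) (hT' : InvS Γ (T' : Set H))
    (horb : ∀ x ∈ T, ∀ y ∈ T, ∃ σ ∈ Γ, σ 1 = 1 ∧ σ x = y)
    {t t' : H} (ht : t ∈ T) (ht' : t' ∈ T') (h1 : (1 : H) ∉ T) (h1' : (1 : H) ∉ T')
    (hd : ∀ x ∈ T, x ∉ T') : False := by
  classical
  obtain ⟨y0, hy0, hy0E⟩ := meets hΓ hp hE hc hprim hT' ht' h1'
  obtain ⟨b, hb, hbE⟩ := not_sub hΓ hne hprim hT ht h1
  have split : ∀ z, (T'.filter (fun y => y⁻¹ * z ∈ T)).card =
      ((T'.filter (· ∈ E)).filter (fun y => y⁻¹ * z ∈ T)).card +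
      ((T'.filter (· ∉ E)).filter (fun y => y⁻¹ * z ∈ T)).card := by
    intro z
    rw [Finset.filter_comm, Finset.filter_comm (· ∉ E), Finset.card_filter_add_card_filter_not]
  have dv : ∀ z ∈ T, p ∣ ((T'.filter (· ∉ E)).filter (fun y => y⁻¹ * z ∈ T)).card := by
    intro z hz
    rw [← hc]
    refine card_dvd_of_stable E _ fun e he s hs => ?_
    simp only [Finset.mem_filter] at hs ⊢
    obtain ⟨⟨hs1, hs2⟩, hs3⟩ := hs
    refine ⟨⟨stable hΓ hp hE hc hprim hT' hs1 hs2 he, fun h => hs2 ?_⟩, ?_⟩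
    · simpa using E.mul_mem h (E.inv_mem he)
    · have hn : s⁻¹ * z ∉ E := by
        intro h
        have := stable hΓ hp hE hc hprim hT' hs1 hs2 h
        rw [mul_inv_cancel_left] at this
        exact hd z hz this
      have := stable hΓ hp hE hc hprim hT hs3 hn (E.inv_mem he)
      rwa [show (s * e)⁻¹ * z = s⁻¹ * z * e⁻¹ by rw [mul_inv_rev, mul_comm e⁻¹, mul_right_comm]]
  have hb1 : (T'.filter (· ∈ E)).filter (fun y => y⁻¹ * b ∈ T) = T'.filter (· ∈ E) := by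
    rw [Finset.filter_eq_self]
    intro y hy
    rw [mul_comm]
    exact stable hΓ hp hE hc hprim hT hb hbE (E.inv_mem (Finset.mem_filter.1 hy).2)
  have hcE : (Finset.univ.filter (· ∈ E)).card = p := by
    rw [← hc, Nat.card_eq_fintype_card, Fintype.card_subtype]
  have hlt : (T'.filter (· ∈ E)).card < p := by
    rw [← hcE]
    refine Finset.card_lt_card ⟨fun x hx => by simpa using (Finset.mem_filter.1 hx).2, fun h => ?_⟩
    exact h1' (Finset.mem_filter.1 (h (Finset.mem_filter.2 ⟨Finset.mem_univ 1, E.one_mem⟩))).1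
  have key : ∀ a ∈ T, y0⁻¹ * a ∈ T := by
    intro a ha
    obtain ⟨σ, hσ, hσ1, hab⟩ := horb a ha b hb
    have h2 := count_inv hΓ hT hT' hσ hσ1 a
    rw [hab, split, split, hb1] at h2
    obtain ⟨k, hk⟩ := dv b hb
    obtain ⟨l, hl⟩ := dv a ha
    rw [hk, hl] at h2
    have h3 : ((T'.filter (· ∈ E)).filter (fun y => y⁻¹ * a ∈ T)).card ≤
        (T'.filter (· ∈ E)).card := Finset.card_filter_le _ _
    have h4 : ((T'.filter (· ∈ E)).filter (fun y => y⁻¹ * a ∈ T)).card =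
        (T'.filter (· ∈ E)).card := by
      have h5 := congrArg (· % p) h2
      simp only [Nat.add_mul_mod_self_left] at h5
      rw [Nat.mod_eq_of_lt hlt, Nat.mod_eq_of_lt (h3.trans_lt hlt)] at h5
      exact h5.symm
    have h6 := Finset.eq_of_subset_of_card_le (Finset.filter_subset _ _) h4.ge
    have : y0 ∈ (T'.filter (· ∈ E)).filter (fun y => y⁻¹ * a ∈ T) := by
      rw [h6]; exact Finset.mem_filter.2 ⟨hy0, hy0E⟩
    exact (Finset.mem_filter.1 this).2
  have hrad : y0 ∈ rad (T : Set H) := by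
    intro s
    refine ⟨fun hs => ?_, key s⟩
    have hall : ∀ n : ℕ, (y0⁻¹) ^ n * (y0⁻¹ * s) ∈ T := by
      intro n
      induction n with
      | zero => simpa using hs
      | succ n ih => rw [pow_succ', mul_assoc]; exact key _ ih
    have := hall (p - 1)
    rwa [← mul_assoc, ← pow_succ, Nat.sub_add_cancel hp.pos, inv_pow, (hE y0).1 hy0E, inv_one,
      one_mul] at this
  rcases hprim _ (hT.rad hΓ) with hb | hb
  · rw [hb, Subgroup.mem_bot] at hrad
    exact h1' (hrad ▸ hy0)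
  · have : t ∈ rad (T : Set H) := hb ▸ Subgroup.mem_top t
    have h2 := (this t).2 ht
    rw [inv_mul_cancel] at h2
    exact h1 h2

theorem schur (hΓ : ∀ a, Equiv.mulLeft a ∈ Γ) (hp : p.Prime) (hE : ∀ x, x ∈ E ↔ x ^ p = 1)
    (hc : Nat.card E = p) (hne : E ≠ ⊤) :
    (∃ L : Subgroup H, L ≠ ⊥ ∧ L ≠ ⊤ ∧ InvS Γ (L : Set H)) ∨
      ∀ x y : H, x ≠ 1 → y ≠ 1 → ∃ σ ∈ Γ, σ 1 = 1 ∧ σ x = y := by
  classical
  by_cases hprim : ∀ L : Subgroup H, InvS Γ (L : Set H) → L = ⊥ ∨ L = ⊤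
  swap
  · push Not at hprim
    obtain ⟨L, h1, h2, h3⟩ := hprim
    exact Or.inl ⟨L, h2, h3, h1⟩
  right
  intro x y hx hy
  by_contra hxy
  let O : H → Finset H := fun x => Finset.univ.filter fun z => ∃ σ ∈ Γ, σ 1 = 1 ∧ σ x = z
  have hO : ∀ x z, z ∈ O x ↔ ∃ σ ∈ Γ, σ 1 = 1 ∧ σ x = z := fun x z => by simp [O]
  have hinv : ∀ x, InvS Γ (O x : Set H) := by
    intro x σ hσ h1 z hz
    obtain ⟨τ, hτ, hτ1, rfl⟩ := (hO x z).1 hz
    exact (hO x _).2 ⟨σ * τ, Γ.mul_mem hσ hτ, by simp [hτ1, h1], rfl⟩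
  have hself : ∀ x, x ∈ O x := fun x => (hO x x).2 ⟨1, Γ.one_mem, rfl, rfl⟩
  have hone : ∀ x, x ≠ 1 → (1 : H) ∉ O x := by
    intro x hx h
    obtain ⟨τ, -, hτ1, h⟩ := (hO x _).1 h
    exact hx (τ.injective (h.trans hτ1.symm))
  refine two_orbits hΓ hp hE hc hne hprim (hinv x) (hinv y) ?_ (hself x) (hself y) (hone x hx)
    (hone y hy) ?_
  · intro a ha b hb
    obtain ⟨σ, hσ, hσ1, rfl⟩ := (hO x _).1 ha
    obtain ⟨τ, hτ, hτ1, rfl⟩ := (hO x _).1 hb
    exact ⟨τ * σ⁻¹, Γ.mul_mem hτ (Γ.inv_mem hσ), by rw [Equiv.Perm.mul_apply, pinv_one hσ1, hτ1], by simp⟩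
  · intro a ha hb
    obtain ⟨σ, hσ, hσ1, rfl⟩ := (hO x _).1 ha
    obtain ⟨τ, hτ, hτ1, h⟩ := (hO y _).1 hb
    refine hxy ⟨τ⁻¹ * σ, Γ.mul_mem (Γ.inv_mem hτ) hσ, by rw [Equiv.Perm.mul_apply, hσ1, pinv_one hτ1], ?_⟩
    simp [← h]

end Main

end SR

open MulAction in
/-- Schur's theorem: a group with an abelian regular subgroup `C` having exactly `p` solutions of
`x ^ p = 1`, `|C| ≠ p`, has an intransitive normal subgroup meeting `C`, or is doubly transitive -/
theorem schur_regular {G Ω : Type*} [Group G] [MulAction G Ω] (C : Subgroup G) [Finite C]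
    (hcomm : ∀ x y : C, x * y = y * x) (ω : Ω) (hb : Function.Bijective fun c : C => c • ω)
    {p : ℕ} (hp : p.Prime) (hc : Nat.card {x : C // x ^ p = 1} = p) (hne : ∃ x : C, x ^ p ≠ 1) :
    (∃ K : Subgroup G, K.Normal ∧ ¬ IsPretransitive K Ω ∧ ∃ c : C, c ≠ 1 ∧ (c : G) ∈ K) ∨
      IsMultiplyPretransitive G Ω 2 := by
  classical
  letI : CommGroup C := { (inferInstance : Group C) with mul_comm := hcomm }
  letI : Fintype C := Fintype.ofFinite C
  let e : C ≃ Ω := Equiv.ofBijective _ hb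
  have he : ∀ c : C, e c = (c : G) • ω := fun c => rfl
  let φ : G →* Equiv.Perm C :=
    (Equiv.permCongrHom e.symm).toMonoidHom.comp (MulAction.toPermHom G Ω)
  have hφ : ∀ g x, e (φ g x) = g • e x := fun g x => by simp [φ]
  have hΓ : ∀ a : C, Equiv.mulLeft a ∈ φ.range := by
    intro a
    refine ⟨a, ?_⟩
    ext1 x
    apply e.injective
    rw [hφ, he, he]
    simp [mul_smul]
  let E : Subgroup C := (powMonoidHom p : C →* C).ker
  have hE : ∀ x, x ∈ E ↔ x ^ p = 1 := fun x => Iff.rfl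
  have hEc : Nat.card E = p := hc
  have hEne : E ≠ ⊤ := by
    obtain ⟨x, hx⟩ := hne
    intro h
    exact hx ((hE x).1 (h ▸ Subgroup.mem_top x))
  rcases SR.schur hΓ hp hE hEc hEne with ⟨L, hL1, hL2, hL⟩ | h
  · left
    have key : ∀ (g : G) (a : Ω), ∀ l ∈ L, ∃ l' ∈ L, g • ((l : G) • a) = (l' : G) • g • a := by
      intro g a l hl
      obtain ⟨x, rfl⟩ := e.surjective a
      have h1 := (hL.shift hΓ (⟨g, rfl⟩ : φ g ∈ φ.range) x (l * x)).2 (by simpa using hl)
      refine ⟨_, h1, ?_⟩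
      have h2 : ∀ c x : C, e (c * x) = (c : G) • e x := fun c x => by
        rw [he, he, Subgroup.coe_mul, mul_smul]
      rw [← hφ g x, ← h2, ← h2, mul_right_comm, inv_mul_cancel, one_mul, hφ]
    let K : Subgroup G :=
      { carrier := {g | ∀ a : Ω, ∃ l ∈ L, g • a = (l : G) • a}
        one_mem' := fun a => ⟨1, L.one_mem, by simp⟩
        mul_mem' := by
          intro g h hg hh a
          obtain ⟨l, hl, h1⟩ := hh a
          obtain ⟨l', hl', h2⟩ := hg (h • a)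
          exact ⟨l' * l, L.mul_mem hl' hl, by rw [mul_smul, h2, h1, Subgroup.coe_mul, mul_smul]⟩
        inv_mem' := by
          intro g hg a
          obtain ⟨l, hl, h1⟩ := hg (g⁻¹ • a)
          refine ⟨l⁻¹, L.inv_mem hl, ?_⟩
          rw [smul_inv_smul] at h1
          rw [Subgroup.coe_inv, eq_inv_smul_iff, ← h1] }
    refine ⟨K, ⟨fun g hg h a => ?_⟩, fun ht => hL2 ?_, ?_⟩
    · obtain ⟨l, hl, h1⟩ := hg (h⁻¹ • a)
      obtain ⟨l', hl', h2⟩ := key h (h⁻¹ • a) l hl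
      exact ⟨l', hl', by rw [mul_smul, mul_smul, h1, h2, smul_inv_smul]⟩
    · rw [eq_top_iff]
      intro c _
      obtain ⟨k, hk⟩ := exists_smul_eq K ω ((c : G) • ω)
      obtain ⟨l, hl, h1⟩ := k.2 ω
      have : l = c := hb.1 (h1.symm.trans hk)
      exact this ▸ hl
    · obtain ⟨⟨c, hc⟩, hc1⟩ := Subgroup.ne_bot_iff_exists_ne_one.1 hL1
      exact ⟨c, fun h => hc1 (Subtype.ext h), fun a => ⟨c, hc, rfl⟩⟩
  · right
    rw [is_two_pretransitive_iff]
    intro a b c d hab hcd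
    obtain ⟨a, rfl⟩ := e.surjective a
    obtain ⟨b, rfl⟩ := e.surjective b
    obtain ⟨c, rfl⟩ := e.surjective c
    obtain ⟨d, rfl⟩ := e.surjective d
    obtain ⟨σ, ⟨g, rfl⟩, h1, h2⟩ := h (a⁻¹ * b) (c⁻¹ * d)
      (fun h => hab (by rw [inv_mul_eq_one.1 h])) (fun h => hcd (by rw [inv_mul_eq_one.1 h]))
    have h3 := hφ g 1
    have h4 := hφ g (a⁻¹ * b)
    rw [h1] at h3
    rw [h2] at h4
    simp only [he, Subgroup.coe_one, one_smul, Subgroup.coe_mul, Subgroup.coe_inv, mul_smul]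
      at h3 h4 ⊢
    refine ⟨c * g * (a : G)⁻¹, ?_, ?_⟩
    · rw [mul_smul, mul_smul, inv_smul_smul, ← h3]
    · rw [mul_smul, mul_smul, ← h4, smul_inv_smul]

open MulAction in
theorem schur_cyclic {G Ω : Type*} [Group G] [MulAction G Ω] (C : Subgroup G) [Finite C]
    (hcyc : IsCyclic C) (ω : Ω) (hb : Function.Bijective fun c : C => c • ω)
    {p : ℕ} (hp : p.Prime) (hd : p ∣ Nat.card C) (hne : Nat.card C ≠ p) :
    (∃ K : Subgroup G, K.Normal ∧ ¬ IsPretransitive K Ω ∧ ∃ c : C, c ≠ 1 ∧ (c : G) ∈ K) ∨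
      IsMultiplyPretransitive G Ω 2 := by
  classical
  haveI := Fact.mk hp
  letI : Fintype C := Fintype.ofFinite C
  have hle : Nat.card {x : C // x ^ p = 1} ≤ p := by
    rw [Nat.card_eq_fintype_card, Fintype.card_subtype]
    exact IsCyclic.card_pow_eq_one_le hp.pos
  obtain ⟨x, hx⟩ := exists_prime_orderOf_dvd_card' p hd
  have hge : p ≤ Nat.card {x : C // x ^ p = 1} := by
    conv_lhs => rw [← hx, ← Nat.card_zpowers]
    refine Nat.card_le_card_of_injective (fun y => ⟨y.1, ?_⟩) fun y z h => ?_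
    · obtain ⟨y, k, rfl⟩ := y
      rw [← zpow_natCast, ← zpow_mul, mul_comm, zpow_mul, zpow_natCast, ← hx, pow_orderOf_eq_one,
        one_zpow]
    · exact Subtype.ext (by simpa using h)
  refine schur_regular C (fun x y => hcyc.commGroup.mul_comm x y) ω hb hp (le_antisymm hle hge) ?_
  by_contra h
  push Not at h
  obtain ⟨g, hg⟩ := IsCyclic.exists_ofOrder_eq_natCard (α := C)
  have h1 := orderOf_dvd_of_pow_eq_one (h g)
  rw [hg] at h1
  exact hne (Nat.dvd_antisymm h1 hd)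

open MulAction in
theorem not_prim_of_normal {G Ω : Type*} [Group G] [MulAction G Ω] {K : Subgroup G} (hK : K.Normal)
    (ht : ¬ IsPretransitive K Ω) {c : G} (hc : c ∈ K) {ω : Ω} (h : c • ω ≠ ω) :
    ¬ IsPreprimitive G Ω := by
  intro hp
  apply ht
  refine IsQuasiPreprimitive.isPretransitive_of_normal fun hf => h ?_
  have : ω ∈ fixedPoints K Ω := hf ▸ Set.mem_univ ω
  exact this ⟨c, hc⟩

end H1B
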