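import Cfsg.Prelude.Def_KGroupFacts
import Cfsg.Agent.H0.Stem
import Mathlib.GroupTheory.Schreier
import Mathlib.GroupTheory.FreeGroup.NielsenSchreier
import Mathlib.GroupTheory.FreeAbelianGroup
import Mathlib.Algebra.FreeAbelianGroup.Finsupp
import Mathlib.LinearAlgebra.FreeModule.PID
import Mathlib.Algebra.Module.Projective
import Mathlib.Algebra.Category.Grp.Injective
import Mathlib.GroupTheory.FiniteAbelian.Duality
import Mathlib.Analysis.Complex.Polynomial.Basic
import Mathlib.RingTheory.RootsOfUnity.AlgebraicallyClosed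
import Mathlib.LinearAlgebra.Matrix.GeneralLinearGroup.Basic

/-! Schur multipliers through Hopf's formula. -/

set_option linter.unusedSectionVars false

namespace H1B
open Subgroup Cfsg
open scoped commutatorElement IsMulCommutative

universe u v w

section Gen
variable {E X Y : Type*} [Group E] [Group X] [Group Y]

theorem normal_of_le_ctr {S : Subgroup X} (h : S ≤ center X) : S.Normal :=
  ⟨fun n hn g => by rw [mem_center_iff.1 (h hn) g, mul_inv_cancel_right]; exact hn⟩

theorem exists_factor {f : E →* X} (hf : Function.Surjective f) (g : E →* Y) (h : f.ker ≤ g.ker) :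
    ∃ k : X →* Y, ∀ e, k (f e) = g e :=
  ⟨MonoidHom.liftOfSurjective f hf ⟨g, h⟩, fun _ => MonoidHom.liftOfRightInverse_comp_apply _ _ _ _ _⟩

theorem comm_mul_central {a b z w : X} (hz : z ∈ center X) (hw : w ∈ center X) :
    ⁅a * z, b * w⁆ = ⁅a, b⁆ := by
  have h3 := mem_center_iff.1 hz
  have h4 := mem_center_iff.1 hw
  simp only [commutatorElement_def, mul_inv_rev]
  calc a * z * (b * w) * (z⁻¹ * a⁻¹) * (w⁻¹ * b⁻¹)
      = a * (z * (b * w)) * z⁻¹ * a⁻¹ * w⁻¹ * b⁻¹ := by group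
    _ = a * b * (w * a⁻¹) * w⁻¹ * b⁻¹ := by rw [← h3]; group
    _ = _ := by rw [← h4]; group

theorem comm_eq_of_map_eq {ξ : X →* Y} (hc : ξ.ker ≤ center X) {a a' b b' : X}
    (h1 : ξ a = ξ a') (h2 : ξ b = ξ b') : ⁅a, b⁆ = ⁅a', b'⁆ := by
  have e1 : a' = a * (a⁻¹ * a') := by group
  have e2 : b' = b * (b⁻¹ * b') := by group
  rw [e1, e2, comm_mul_central (hc (by simp [h1])) (hc (by simp [h2]))]

theorem lift_uniq {ξ : X →* Y} (hc : ξ.ker ≤ center X) {η₁ η₂ : E →* X}
    (h : ∀ x, ξ (η₁ x) = ξ (η₂ x)) {x : E} (hx : x ∈ commutator E) : η₁ x = η₂ x := by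
  have : commutator E ≤ η₁.eqLocus η₂ := by
    rw [_root_.commutator_def, commutator_le]
    intro a _ b _
    show η₁ _ = η₂ _
    rw [map_commutatorElement, map_commutatorElement]
    exact comm_eq_of_map_eq hc (h a) (h b)
  exact this hx

theorem map_comm_eq {ξ : X →* Y} (hc : ξ.ker ≤ center X) {η : E →* X}
    (h : ∀ x, ∃ e, ξ (η e) = ξ x) : (commutator E).map η = commutator X := by
  apply le_antisymm
  · rw [_root_.commutator_def, map_commutator]; exact commutator_mono le_top le_top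
  · rw [_root_.commutator_def X, commutator_le]
    intro a _ b _
    obtain ⟨a', ha⟩ := h a
    obtain ⟨b', hb⟩ := h b
    exact ⟨⁅a', b'⁆, commutator_mem_commutator (mem_top _) (mem_top _), by
      rw [map_commutatorElement]; exact comm_eq_of_map_eq hc ha hb⟩

theorem surj_of_stem {ξ : X →* Y} (hs : IsStemExtension ξ) {η : E →* X}
    (h : ∀ x, ∃ e, ξ (η e) = ξ x) : Function.Surjective η := by
  intro x
  obtain ⟨e, he⟩ := h x
  have : (η e)⁻¹ * x ∈ commutator X := hs.2.2 (by simp [he])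
  rw [← map_comm_eq hs.2.1 h] at this
  obtain ⟨y, -, hy⟩ := this
  exact ⟨e * y, by rw [map_mul, hy]; group⟩

theorem finite_commutator_of_central [Finite Y] {ξ : X →* Y} (hc : ξ.ker ≤ center X) :
    Finite (commutator X) := by
  classical
  have : Finite (commutatorSet X) := by
    let s : Y → X := fun y => if h : ∃ x, ξ x = y then h.choose else 1
    have hs : ∀ x, ξ (s (ξ x)) = ξ x := fun x => by
      have h : ∃ x', ξ x' = ξ x := ⟨x, rfl⟩
      simp only [s, dif_pos h]; exact h.choose_spec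
    refine Set.Finite.subset (Set.finite_range fun p : Y × Y => ⁅s p.1, s p.2⁆) ?_
    rintro _ ⟨a, b, rfl⟩
    exact ⟨(ξ a, ξ b), comm_eq_of_map_eq hc (hs a) (hs b)⟩
  infer_instance

theorem finite_of_ker [Finite Y] (ξ : X →* Y) [Finite ξ.ker] : Finite X := by
  have : Finite (X ⧸ ξ.ker) := Finite.of_injective _ (QuotientGroup.kerLift_injective ξ)
  exact Finite.of_equiv _ (groupEquivQuotientProdSubgroup (s := ξ.ker)).symm

theorem pow_card_of_central [Finite Y] {ξ : X →* Y} (hc : ξ.ker ≤ center X) {z : X}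
    (hz' : z ∈ commutator X) : z ^ Nat.card Y = 1 := by
  have h1 : (center X).index ∣ Nat.card Y := by
    refine (index_dvd_of_le hc).trans ?_
    rw [index_ker]; exact card_subgroup_dvd_card _
  have : (center X).FiniteIndex := ⟨ne_zero_of_dvd_ne_zero Nat.card_pos.ne' h1⟩
  have h2 := Abelianization.commutator_subset_ker (MonoidHom.transferCenterPow X) hz'
  have h3 : z ^ (center X).index = 1 := by
    simpa only [MonoidHom.mem_ker, Subtype.ext_iff] using! h2
  obtain ⟨k, hk⟩ := h1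
  rw [hk, pow_mul, h3, one_pow]

/-- extension of homomorphisms into divisible groups -/
theorem div_extend {S D : Type*} [Group S] [CommGroup D]
    (hD : ∀ (d : D) (n : ℕ), n ≠ 0 → ∃ r, r ^ n = d) (i : S →* E) (θ : S →* D)
    (h : ∀ s, i s ∈ commutator E → θ s = 1) : ∃ l : E →* D, ∀ s, l (i s) = θ s := by
  classical
  let j : S →* Abelianization E := Abelianization.of.comp i
  let θ' : j.range →* D := MonoidHom.liftOfSurjective j.rangeRestrict j.rangeRestrict_surjective
    ⟨θ, fun s hs => h s (by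
      rw [MonoidHom.ker_rangeRestrict] at hs
      rw [← Abelianization.ker_of]; exact hs)⟩
  have hθ' : ∀ s, θ' (j.rangeRestrict s) = θ s := fun s =>
    MonoidHom.liftOfRightInverse_comp_apply _ _ _ _ _
  letI : RootableBy D ℕ :=
    { root := fun d n => if hn : n = 0 then 1 else (hD d n hn).choose
      root_zero := fun d => by simp
      root_cancel := fun {n} d hn => by simp only [dif_neg hn]; exact (hD d n hn).choose_spec }
  letI : RootableBy D ℤ := Group.rootableByIntOfRootableByNat D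
  letI : DivisibleBy (Additive D) ℤ :=
    { div := fun d n => Additive.ofMul (RootableBy.root d.toMul n)
      div_zero := fun d => by simp [RootableBy.root_zero]
      div_cancel := fun {n} d hn => by
        rw [← ofMul_zpow, RootableBy.root_cancel _ hn]; rfl }
  obtain ⟨l, hl⟩ := (Module.Baer.of_divisible (Additive D)).extension_property_addMonoidHom
    (MonoidHom.toAdditive j.range.subtype) (fun a b hab => Subtype.ext hab) (MonoidHom.toAdditive θ')
  refine ⟨(AddMonoidHom.toMultiplicative l : _ →* _).comp Abelianization.of, fun s => ?_⟩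
  have := DFunLike.congr_fun hl (Additive.ofMul (j.rangeRestrict s))
  rw [← hθ']; exact this

/-- quotients of finite abelian groups embed -/
theorem exists_inj_of_surj {A B : Type*} [CommGroup A] [CommGroup B] [Finite A] (f : A →* B)
    (hf : Function.Surjective f) : ∃ g : B →* A, Function.Injective g := by
  have : Finite B := Finite.of_surjective f hf
  have : NeZero (Monoid.exponent A) := ⟨Monoid.exponent_ne_zero_of_finite⟩
  have : NeZero (Monoid.exponent B) := ⟨Monoid.exponent_ne_zero_of_finite⟩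
  obtain ⟨eA⟩ := CommGroup.monoidHom_mulEquiv_of_hasEnoughRootsOfUnity A ℂ
  obtain ⟨eB⟩ := CommGroup.monoidHom_mulEquiv_of_hasEnoughRootsOfUnity B ℂ
  refine ⟨eA.toMonoidHom.comp ((MonoidHom.compHom' f).comp eB.symm.toMonoidHom), ?_⟩
  refine eA.injective.comp (Function.Injective.comp (g := MonoidHom.compHom' f) ?_ eB.symm.injective)
  intro a b hab
  ext y
  obtain ⟨x, rfl⟩ := hf y
  have := DFunLike.congr_fun hab x
  exact congrArg Units.val (by simpa using this)

theorem exists_surj_of_inj {A B : Type*} [CommGroup A] [CommGroup B] [Finite B] (f : A →* B)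
    (hf : Function.Injective f) : ∃ g : B →* A, Function.Surjective g := by
  have : Finite A := Finite.of_injective f hf
  have : NeZero (Monoid.exponent A) := ⟨Monoid.exponent_ne_zero_of_finite⟩
  have : NeZero (Monoid.exponent B) := ⟨Monoid.exponent_ne_zero_of_finite⟩
  obtain ⟨eA⟩ := CommGroup.monoidHom_mulEquiv_of_hasEnoughRootsOfUnity A ℂ
  obtain ⟨eB⟩ := CommGroup.monoidHom_mulEquiv_of_hasEnoughRootsOfUnity B ℂ
  refine ⟨eA.toMonoidHom.comp ((MonoidHom.compHom' f).comp eB.symm.toMonoidHom), ?_⟩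
  refine eA.surjective.comp (Function.Surjective.comp (g := MonoidHom.compHom' f) ?_ eB.symm.surjective)
  intro χ
  obtain ⟨ψ, hψ⟩ := MonoidHom.domRestrict_surjective ℂ f.range
    (χ.comp (MonoidHom.ofInjective hf).symm.toMonoidHom)
  refine ⟨ψ, ?_⟩
  ext a
  have := DFunLike.congr_fun hψ (MonoidHom.ofInjective hf a)
  simp only [MonoidHom.comp_apply, MulEquiv.coe_toMonoidHom, MulEquiv.symm_apply_apply] at this
  rw [← this]; rfl

theorem equiv_of_surj_surj {A B : Type*} [Group A] [Group B] [Finite A] (f : A →* B)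
    (hf : Function.Surjective f) (g : B → A) (hg : Function.Surjective g) :
    Function.Bijective f := by
  have : Finite B := Finite.of_surjective f hf
  exact (Nat.bijective_iff_surjective_and_card f).2 ⟨hf, le_antisymm
    (Nat.card_le_card_of_surjective g hg) (Nat.card_le_card_of_surjective f hf)⟩

end Gen

section Hopf
variable {F Q : Type*} [Group F] [Group Q] (π : F →* Q)

/-- `F / [R, F]` -/
abbrev EE := F ⧸ ⁅π.ker, (⊤ : Subgroup F)⁆

def pe : EE π →* Q := QuotientGroup.lift _ π (commutator_le_left _ _)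

@[simp] theorem pe_mk (x : F) : pe π (x : EE π) = π x := rfl

/-- the Hopf multiplier -/
def MM : Subgroup (EE π) := (pe π).ker ⊓ commutator _

theorem mem_MM {π : F →* Q} {x : EE π} : x ∈ MM π ↔ pe π x = 1 ∧ x ∈ commutator _ := Iff.rfl

theorem MM_le : MM π ≤ (pe π).ker := inf_le_left

theorem pe_central : (pe π).ker ≤ center _ := by
  intro x hx
  induction x using QuotientGroup.induction_on with | H x => ?_
  rw [mem_center_iff]
  intro y
  induction y using QuotientGroup.induction_on with | H y => ?_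
  rw [← QuotientGroup.mk_mul, ← QuotientGroup.mk_mul, QuotientGroup.eq]
  have := commutator_mem_commutator (inv_mem (show x ∈ π.ker from hx)) (mem_top y⁻¹)
  convert this using 1
  simp only [commutatorElement_def]; group

theorem MM_central : MM π ≤ center _ := inf_le_left.trans (pe_central π)

instance : CommGroup (MM π) :=
  { (inferInstance : Group (MM π)) with
    mul_comm := fun a b => Subtype.ext (mem_center_iff.1 (MM_central π b.2) a) }

instance [Finite Q] : Finite (commutator (EE π)) := finite_commutator_of_central (pe_central π)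

instance [Finite Q] : Finite (MM π) :=
  Finite.of_injective _ (inclusion_injective (inf_le_right : MM π ≤ _))

variable {π}

theorem pe_surj (hπ : Function.Surjective π) : Function.Surjective (pe π) := fun q => by
  obtain ⟨x, rfl⟩ := hπ q; exact ⟨x, rfl⟩

theorem lift_ex [IsFreeGroup F] {X Y : Type*} [Group X] [Group Y] (f : Q →* Y) (ξ : X →* Y)
    (hs : ∀ q, ∃ x, ξ x = f q) (hc : ξ.ker ≤ center X) :
    ∃ η : EE π →* X, ∀ e, ξ (η e) = f (pe π e) := by
  choose s hs using hs
  let η : F →* X := IsFreeGroup.lift fun a => s (π (IsFreeGroup.of a))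
  have h1 : ξ.comp η = f.comp π := IsFreeGroup.ext_hom fun a => by simp [η, hs]
  have h2 : ∀ x, ξ (η x) = f (π x) := fun x => DFunLike.congr_fun h1 x
  refine ⟨QuotientGroup.lift _ η ?_, fun e => ?_⟩
  · rw [commutator_le]
    intro a ha b _
    rw [MonoidHom.mem_ker, map_commutatorElement, commutatorElement_eq_one_iff_mul_comm]
    exact (mem_center_iff.1 (hc (by rw [MonoidHom.mem_ker, h2, ha, map_one])) _).symm
  · induction e using QuotientGroup.induction_on with | H x => exact h2 x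

theorem lift_ex' [IsFreeGroup F] (π : F →* Q) {X : Type*} [Group X] {ξ : X →* Q}
    (hs : Function.Surjective ξ) (hc : ξ.ker ≤ center X) :
    ∃ η : EE π →* X, ∀ e, ξ (η e) = pe π e :=
  lift_ex (MonoidHom.id Q) ξ (fun q => hs q) hc

theorem lift_surj (hπ : Function.Surjective π) {X : Type*} [Group X] {ξ : X →* Q}
    (hc : IsStemExtension ξ) {η : EE π →* X} (h : ∀ e, ξ (η e) = pe π e) :
    Function.Surjective η :=
  surj_of_stem hc fun x => by
    obtain ⟨e, he⟩ := pe_surj hπ (ξ x); exact ⟨e, by rw [h]; exact he⟩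

theorem map_MM (hπ : Function.Surjective π) {X : Type*} [Group X] {ξ : X →* Q}
    (hc : ξ.ker ≤ center X) {η : EE π →* X} (h : ∀ e, ξ (η e) = pe π e) :
    (MM π).map η = ξ.ker ⊓ commutator X := by
  have h1 := map_comm_eq hc (η := η) fun x => by
    obtain ⟨e, he⟩ := pe_surj hπ (ξ x); exact ⟨e, by rw [h, he]⟩
  apply le_antisymm
  · rintro _ ⟨e, ⟨he1, he2⟩, rfl⟩
    exact ⟨(h e).trans he1, h1 ▸ mem_map_of_mem η he2⟩
  · rintro x ⟨hx1, hx2⟩
    rw [← h1] at hx2
    obtain ⟨e, he, rfl⟩ := hx2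
    exact ⟨e, ⟨(h e).symm.trans hx1, he⟩, rfl⟩

theorem surj_MM (hπ : Function.Surjective π) {X : Type*} [Group X] {ξ : X →* Q}
    (hc : IsStemExtension ξ) {η : EE π →* X} (h : ∀ e, ξ (η e) = pe π e) :
    ∃ f : MM π →* ξ.ker, Function.Surjective f ∧ ∀ m, (f m : X) = η m := by
  have h1 := map_MM hπ hc.2.1 h
  rw [inf_eq_left.2 hc.2.2] at h1
  refine ⟨(η.comp (MM π).subtype).codRestrict _ fun m => h1 ▸ mem_map_of_mem η m.2, ?_, fun m => rfl⟩
  rintro ⟨x, hx⟩
  rw [← h1] at hx
  obtain ⟨e, he, rfl⟩ := hx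
  exact ⟨⟨e, he⟩, rfl⟩

theorem surj_MM' [IsFreeGroup F] (hπ : Function.Surjective π) {X : Type*} [Group X] {ξ : X →* Q}
    (hc : IsStemExtension ξ) : ∃ f : MM π →* ξ.ker, Function.Surjective f := by
  obtain ⟨η, h⟩ := lift_ex' π hc.1 hc.2.1
  obtain ⟨f, hf, -⟩ := surj_MM hπ hc h
  exact ⟨f, hf⟩

/-- the quotient by a complement is a Schur cover -/
theorem cover_of [Finite Q] (hπ : Function.Surjective π) {S : Subgroup (EE π)} [S.Normal]
    (h1 : S ≤ (pe π).ker) (h2 : S ⊓ commutator _ = ⊥) (h3 : (pe π).ker ≤ S ⊔ MM π) :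
    Finite (EE π ⧸ S) ∧ IsStemExtension (QuotientGroup.lift S (pe π) h1) ∧
      Nonempty ((QuotientGroup.lift S (pe π) h1).ker ≃* MM π) := by
  have hk : (QuotientGroup.lift S (pe π) h1).ker = (pe π).ker.map (QuotientGroup.mk' S) :=
    QuotientGroup.ker_lift _ _ _
  have hst : IsStemExtension (QuotientGroup.lift S (pe π) h1) := by
    refine ⟨fun q => ?_, ?_, ?_⟩
    · obtain ⟨e, rfl⟩ := pe_surj hπ q; exact ⟨e, rfl⟩
    · rw [hk]; rintro _ ⟨e, he, rfl⟩
      rw [mem_center_iff]; intro y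
      induction y using QuotientGroup.induction_on with | H y => ?_
      exact congrArg (QuotientGroup.mk' S) (mem_center_iff.1 (pe_central π he) y)
    · rw [hk]
      refine (map_mono h3).trans ?_
      rw [Subgroup.map_sup, QuotientGroup.map_mk'_self, bot_sup_eq]
      refine (map_mono (inf_le_right : MM π ≤ _)).trans ?_
      rw [_root_.commutator_def, map_commutator]; exact commutator_mono le_top le_top
  obtain ⟨f, hf, hf2⟩ := surj_MM hπ hst (η := QuotientGroup.mk' S) (fun e => rfl)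
  have : Finite (QuotientGroup.lift S (pe π) h1).ker := Finite.of_surjective f hf
  refine ⟨finite_of_ker (QuotientGroup.lift S (pe π) h1), hst, ⟨(MulEquiv.ofBijective f ⟨?_, hf⟩).symm⟩⟩
  rw [injective_iff_map_eq_one]
  intro m hm
  have h4 := hf2 m
  rw [hm] at h4
  have h5 : (m : EE π) ∈ S := (QuotientGroup.eq_one_iff _).1 h4.symm
  exact Subtype.ext (by rw [OneMemClass.coe_one, ← mem_bot, ← h2]; exact ⟨h5, m.2.2⟩)

end Hopf

section Free
variable {ι : Type*} [Finite ι] {Q : Type*} [Group Q] {π : FreeGroup ι →* Q}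

def abE (π : FreeGroup ι →* Q) : EE π →* Abelianization (FreeGroup ι) :=
  QuotientGroup.lift _ Abelianization.of (by
    rw [Abelianization.ker_of]; exact commutator_mono le_top le_top)

theorem abE_ker : (abE π).ker = commutator _ := by
  rw [abE, QuotientGroup.ker_lift, Abelianization.ker_of, _root_.commutator_def, map_commutator,
    map_top_of_surjective _ (QuotientGroup.mk'_surjective _)]
  rfl

theorem exists_compl (K : Subgroup (EE π)) (hK : K ≤ (pe π).ker) :
    ∃ S ≤ K, S ⊓ commutator _ = ⊥ ∧ K ≤ S ⊔ MM π := by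
  letI : CommGroup K := { (inferInstance : Group K) with
    mul_comm := fun a b => Subtype.ext (mem_center_iff.1 (pe_central π (hK b.2)) a) }
  let φ : Additive K →ₗ[ℤ] FreeAbelianGroup ι :=
    (MonoidHom.toAdditive ((abE π).comp K.subtype)).toIntLinearMap
  obtain ⟨s, hs⟩ := Module.projective_lifting_property φ.rangeRestrict
    (LinearMap.id : φ.range →ₗ[ℤ] _) φ.surjective_rangeRestrict
  have hs' : ∀ l, φ (s l) = l := fun l => congrArg Subtype.val (LinearMap.congr_fun hs l)
  have hφ : ∀ k : Additive K, φ k = 0 ↔ ((k.toMul : K) : EE π) ∈ commutator _ := fun k => by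
    rw [← abE_ker]; rfl
  refine ⟨(AddSubgroup.toSubgroup' s.range.toAddSubgroup).map K.subtype, map_subtype_le _, ?_, ?_⟩
  · rw [eq_bot_iff]
    rintro _ ⟨⟨k, ⟨l, hl⟩, rfl⟩, hk⟩
    have h1 : φ (Additive.ofMul k) = 0 := (hφ _).2 hk
    have hl' : s l = Additive.ofMul k := hl
    rw [← hl', hs'] at h1
    have : l = 0 := Subtype.ext h1
    rw [this, map_zero] at hl'
    have : k = 1 := hl'.symm
    rw [this]; exact one_mem _
  · intro x hx
    let k : K := ⟨x, hx⟩
    let k' : K := (s (φ.rangeRestrict (Additive.ofMul k))).toMul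
    have h1 : φ (Additive.ofMul k - Additive.ofMul k') = 0 := by
      rw [map_sub]; exact sub_eq_zero.2 (hs' (φ.rangeRestrict (Additive.ofMul k))).symm
    rw [hφ] at h1
    have h2 : x = k' * ((k / k' : K) : EE π) := by
      rw [← coe_mul, mul_div_cancel]
    rw [h2]
    exact mul_mem (mem_sup_left ⟨k', ⟨_, rfl⟩, rfl⟩) (mem_sup_right ⟨hK (k / k').2, h1⟩)

end Free

/-- the canonical presentation -/
abbrev pr (Q : Type u) [Group Q] : FreeGroup Q →* Q := FreeGroup.lift id

theorem pr_surj (Q : Type u) [Group Q] : Function.Surjective (pr Q) := fun q =>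
  ⟨FreeGroup.of q, by simp⟩

section Main
variable {Q : Type u} [Group Q] [Finite Q]

theorem exists_cover_over {Δ : Type*} [Group Δ] {τ : Δ →* Q} (hτ : IsStemExtension τ) :
    ∃ (Γ : Type u) (_ : Group Γ) (_ : Finite Γ) (σ : Γ →* Q), IsStemExtension σ ∧
      Nonempty (σ.ker ≃* MM (pr Q)) ∧ ∃ β : Γ →* Δ, Function.Surjective β ∧ τ.comp β = σ := by
  obtain ⟨η, h⟩ := lift_ex' (pr Q) hτ.1 hτ.2.1
  have hK : η.ker ≤ (pe (pr Q)).ker := fun x hx => by
    have := h x
    rw [hx, map_one] at this; exact this.symm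
  obtain ⟨S, h1, h2, h3⟩ := exists_compl η.ker hK
  have : S.Normal := normal_of_le_ctr ((h1.trans hK).trans (pe_central _))
  have h4 : (pe (pr Q)).ker ≤ S ⊔ MM _ := by
    intro x hx
    have : η x ∈ (MM (pr Q)).map η := by
      rw [map_MM (pr_surj Q) hτ.2.1 h, inf_eq_left.2 hτ.2.2, MonoidHom.mem_ker, h]; exact hx
    obtain ⟨m, hm, hm2⟩ := this
    have h5 : x * m⁻¹ ∈ η.ker := by simp [hm2]
    have : x = x * m⁻¹ * m := by group
    rw [this]; exact mul_mem (h3 h5) (mem_sup_right hm)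
  obtain ⟨hf, hs, he⟩ := cover_of (pr_surj Q) (h1.trans hK) h2 h4
  refine ⟨_, inferInstance, hf, _, hs, he, QuotientGroup.lift S η h1, fun d => ?_, ?_⟩
  · obtain ⟨e, rfl⟩ := lift_surj (pr_surj Q) hτ h d
    exact ⟨e, rfl⟩
  · ext e; exact h _

theorem stem_id (G : Type*) [Group G] : IsStemExtension (MonoidHom.id G) :=
  ⟨Function.surjective_id, by simp, by simp⟩

theorem hasMult_MM : HasSchurMultiplier Q (MM (pr Q)) := by
  obtain ⟨Γ, i1, i2, σ, h1, h2, -⟩ := exists_cover_over (stem_id Q)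
  exact ⟨⟨Γ, i1, i2, σ, h1, h2⟩, fun Γ _ _ σ h => surj_MM' (pr_surj Q) h⟩

theorem hasMult_congr {G : Type u} [Group G] {A B : Type*} [CommGroup A] [CommGroup B]
    (h : HasSchurMultiplier G A) (e : A ≃* B) : HasSchurMultiplier G B := by
  obtain ⟨⟨Γ, i1, i2, σ, h1, ⟨h2⟩⟩, h3⟩ := h
  refine ⟨⟨Γ, i1, i2, σ, h1, ⟨h2.trans e⟩⟩, fun Γ _ _ σ h => ?_⟩
  obtain ⟨f, hf⟩ := h3 Γ σ h
  exact ⟨f.comp e.symm.toMonoidHom, hf.comp e.symm.surjective⟩

theorem MM_equiv {F : Type*} [Group F] [IsFreeGroup F] {π : F →* Q} (hπ : Function.Surjective π) :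
    Nonempty (MM (pr Q) ≃* MM π) := by
  obtain ⟨η, h⟩ := lift_ex' (pr Q) (pe_surj hπ) (pe_central π)
  obtain ⟨η', h'⟩ := lift_ex' π (pe_surj (pr_surj Q)) (pe_central _)
  have h1 := map_MM (pr_surj Q) (pe_central π) h
  have h2 := map_MM hπ (pe_central _) h'
  refine ⟨MulEquiv.ofBijective ((η.comp (MM _).subtype).codRestrict (MM π) fun m =>
    h1.le (mem_map_of_mem η m.2)) (equiv_of_surj_surj _ ?_ (fun m => ⟨η' m,
      h2.le (mem_map_of_mem η' m.2)⟩) ?_)⟩
  · rintro ⟨x, hx⟩
    obtain ⟨e, he, rfl⟩ := h1.ge hx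
    exact ⟨⟨e, he⟩, rfl⟩
  · rintro ⟨x, hx⟩
    obtain ⟨e, he, rfl⟩ := h2.ge hx
    exact ⟨⟨e, he⟩, rfl⟩

theorem equiv_MM {A : Type*} [CommGroup A] (h : HasSchurMultiplier Q A) :
    Nonempty (A ≃* MM (pr Q)) := by
  obtain ⟨⟨Γ, i1, i2, σ, h1, ⟨h2⟩⟩, h3⟩ := h
  obtain ⟨Γ', j1, j2, σ', k1, ⟨k2⟩⟩ := (hasMult_MM (Q := Q)).1
  obtain ⟨f, hf⟩ := h3 Γ' σ' k1
  obtain ⟨g, hg⟩ := surj_MM' (pr_surj Q) h1
  have : Finite A := Finite.of_equiv _ h2.toEquiv
  exact ⟨MulEquiv.ofBijective (k2.toMonoidHom.comp f)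
    (equiv_of_surj_surj _ (k2.surjective.comp hf) (h2 ∘ g) (h2.surjective.comp hg))⟩

theorem equiv_MM' {F : Type*} [Group F] [IsFreeGroup F] {π : F →* Q} (hπ : Function.Surjective π)
    {A : Type*} [CommGroup A] (h : HasSchurMultiplier Q A) : Nonempty (A ≃* MM π) :=
  ⟨(equiv_MM h).some.trans (MM_equiv hπ).some⟩

theorem hasMult_of_equiv {A : Type*} [CommGroup A] (e : A ≃* MM (pr Q)) : HasSchurMultiplier Q A :=
  hasMult_congr hasMult_MM e.symm

/-- criterion: an upper bound and a stem extension attaining it -/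
theorem hasMult_of_card {A X : Type*} [CommGroup A] [Group X] {ξ : X →* Q} (hξ : IsStemExtension ξ)
    (g : ξ.ker →* A) (hg : Function.Surjective g) (hc : Nat.card (MM (pr Q)) ≤ Nat.card A) :
    HasSchurMultiplier Q A := by
  obtain ⟨f, hf⟩ := surj_MM' (pr_surj Q) hξ
  have h1 : Function.Surjective (g.comp f) := hg.comp hf
  exact hasMult_of_equiv (MulEquiv.ofBijective (g.comp f) ((Nat.bijective_iff_surjective_and_card _).2
    ⟨h1, le_antisymm (by
      have : Finite A := Finite.of_surjective _ h1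
      exact hc) (Nat.card_le_card_of_surjective _ h1)⟩)).symm

theorem triv_iff : HasCyclicSchurMultiplier Q 1 ↔ MM (pr Q) = ⊥ := by
  constructor
  · intro h
    obtain ⟨e⟩ := equiv_MM h
    rw [← card_eq_one, ← Nat.card_congr e.toEquiv]; simp
  · intro h
    have : Unique (MM (pr Q)) := by rw [h]; infer_instance
    have : Unique (Multiplicative (ZMod 1)) := inferInstanceAs (Unique (ZMod 1))
    exact hasMult_of_equiv MulEquiv.ofUnique

theorem ker_inf_eq_bot (h : HasCyclicSchurMultiplier Q 1) {X : Type*} [Group X] {ξ : X →* Q}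
    (hs : Function.Surjective ξ) (hc : ξ.ker ≤ center X) : ξ.ker ⊓ commutator X = ⊥ := by
  obtain ⟨η, h1⟩ := lift_ex' (pr Q) hs hc
  rw [← map_MM (pr_surj Q) hc h1, triv_iff.1 h, Subgroup.map_bot]

theorem triv_of_forall (h : ∀ (X : Type u) [Group X] (ξ : X →* Q), Function.Surjective ξ →
    ξ.ker ≤ center X → ξ.ker ⊓ commutator X = ⊥) : HasCyclicSchurMultiplier Q 1 :=
  triv_iff.2 (h _ _ (pe_surj (pr_surj Q)) (pe_central _))

/-- for a Schur cover, the lift is injective on the commutator subgroup -/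
theorem cover_inj {Γ : Type*} [Group Γ] {σ : Γ →* Q} (hσ : IsStemExtension σ)
    (hc : Nat.card σ.ker = Nat.card (MM (pr Q))) {β : EE (pr Q) →* Γ}
    (h : ∀ e, σ (β e) = pe _ e) : β.ker ⊓ commutator _ = ⊥ := by
  obtain ⟨f, hf, hf2⟩ := surj_MM (pr_surj Q) hσ h
  have : Finite σ.ker := Finite.of_surjective f hf
  have hi := ((Nat.bijective_iff_surjective_and_card f).2 ⟨hf, hc.symm⟩).1
  rw [eq_bot_iff]
  rintro x ⟨hx1, hx2⟩
  have hx : x ∈ MM (pr Q) := mem_MM.2 ⟨by rw [← h, show β x = 1 from hx1, map_one], hx2⟩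
  have : f ⟨x, hx⟩ = f 1 := by rw [map_one]; exact Subtype.ext ((hf2 _).trans hx1)
  exact congrArg Subtype.val (hi this)

theorem div_lift {Γ : Type*} [Group Γ] {σ : Γ →* Q} (hσ : IsStemExtension σ)
    (hc : Nat.card σ.ker = Nat.card (MM (pr Q))) {X Y : Type*} [Group X] [Group Y] {ξ : X →* Y}
    (hs : Function.Surjective ξ) (hk : ξ.ker = center X)
    (hD : ∀ d ∈ center X, ∀ n : ℕ, n ≠ 0 → ∃ r ∈ center X, r ^ n = d) (γ : Q →* Y) :
    ∃ ρ : Γ →* X, ξ.comp ρ = γ.comp σ := by
  obtain ⟨β, h⟩ := lift_ex' (pr Q) hσ.1 hσ.2.1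
  obtain ⟨η, h'⟩ := lift_ex (π := pr Q) γ ξ (fun q => hs _) hk.le
  have hβ := lift_surj (pr_surj Q) hσ h
  have hi := cover_inj hσ hc h
  have h1 : ∀ s : β.ker, η s ∈ center X := fun s => by
    rw [← hk, MonoidHom.mem_ker, h']
    have := h s
    rw [show β s = 1 from s.2, map_one] at this
    rw [show pe (pr Q) s = 1 from this.symm, map_one]
  obtain ⟨l, hl⟩ := div_extend (D := center X) (fun d n hn => by
    obtain ⟨r, hr, h⟩ := hD d d.2 n hn; exact ⟨⟨r, hr⟩, Subtype.ext h⟩) β.ker.subtype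
    ((η.comp β.ker.subtype).codRestrict _ h1) (fun s hs => by
      have : (s : EE (pr Q)) ∈ (⊥ : Subgroup _) := hi ▸ ⟨s.2, hs⟩
      have : s = 1 := Subtype.ext this
      rw [this, map_one])
  let η' : EE (pr Q) →* X := MonoidHom.mk' (fun e => η e * (l e : X)⁻¹) (fun a b => by
    rw [map_mul, map_mul, coe_mul, mul_inv_rev]
    have := mem_center_iff.1 (inv_mem (l a).2)
    calc η a * η b * ((l b : X)⁻¹ * (l a : X)⁻¹) = η a * ((η b * (l b : X)⁻¹) * (l a : X)⁻¹) := by
          group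
      _ = _ := by rw [this]; group)
  refine ⟨MonoidHom.liftOfSurjective β hβ ⟨η', fun s hs => ?_⟩, ?_⟩
  · have := congrArg Subtype.val (hl ⟨s, hs⟩)
    show η s * (l s : X)⁻¹ = 1
    rw [mul_inv_eq_one]; exact this.symm
  · ext g
    obtain ⟨e, rfl⟩ := hβ g
    rw [MonoidHom.comp_apply, MonoidHom.liftOfRightInverse_comp_apply]
    show ξ (η e * (l e : X)⁻¹) = γ (σ (β e))
    rw [map_mul, map_inv, h', h, show ξ (l e) = 1 from hk.ge (l e).2]; simp

theorem gl_div (n : ℕ) : ∀ d ∈ center (GL (Fin n) ℂ), ∀ k : ℕ, k ≠ 0 →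
    ∃ r ∈ center (GL (Fin n) ℂ), r ^ k = d := by
  rw [Matrix.GeneralLinearGroup.center_eq_range_scalar]
  rintro _ ⟨a, rfl⟩ k hk
  obtain ⟨b, hb⟩ := IsAlgClosed.exists_pow_nat_eq (a : ℂ) (Nat.pos_of_ne_zero hk)
  have hb0 : b ≠ 0 := by rintro rfl; rw [zero_pow hk] at hb; exact a.ne_zero hb.symm
  exact ⟨_, ⟨Units.mk0 b hb0, rfl⟩, by rw [← map_pow]; congr 1; ext; simp [hb]⟩

/-- monomial representation -/
theorem exists_monomial {Γ : Type*} [Group Γ] {σ : Γ →* Q} (hs : Function.Surjective σ)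
    (hc : σ.ker ≤ center Γ) (l : σ.ker →* ℂˣ) :
    ∃ (n : ℕ) (ρ : Γ →* GL (Fin n) ℂ), n ≠ 0 ∧
      ∀ z : σ.ker, ρ z = Matrix.GeneralLinearGroup.scalar _ (l z) := by
  classical
  have := Fintype.ofFinite Q
  choose s hs using hs
  let l' : Γ → ℂ := fun g => if h : g ∈ σ.ker then l ⟨g, h⟩ else 0
  have hl : ∀ a b, a ∈ σ.ker → l' (a * b) = l' a * l' b := fun a b ha => by
    by_cases hb : b ∈ σ.ker
    · simp only [l', dif_pos ha, dif_pos hb, dif_pos (mul_mem ha hb)]
      rw [← Units.val_mul, ← map_mul]; rfl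
    · have : a * b ∉ σ.ker := fun h => hb (by simpa using mul_mem (inv_mem ha) h)
      simp only [l', dif_neg hb, dif_neg this, mul_zero]
  have hz : ∀ z : σ.ker, (Matrix.of fun x y => l' ((s x)⁻¹ * z * s y)) = Matrix.scalar Q (l z : ℂ) := by
    intro z
    ext x y
    rw [Matrix.of_apply, Matrix.scalar_apply, Matrix.diagonal_apply, mem_center_iff.1 (hc z.2),
      mul_assoc, hl _ _ z.2]
    split_ifs with h
    · subst h
      simp only [l', dif_pos z.2, inv_mul_cancel, dif_pos σ.ker.one_mem]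
      rw [show (⟨1, σ.ker.one_mem⟩ : σ.ker) = 1 from rfl]; simp
    · have : (s x)⁻¹ * s y ∉ σ.ker := fun h' => h (by
        rw [MonoidHom.mem_ker, map_mul, map_inv, hs, hs, inv_mul_eq_one] at h'; exact h')
      simp only [l', dif_neg this, mul_zero]
  let M : Γ →* Matrix Q Q ℂ :=
    { toFun := fun g => Matrix.of fun x y => l' ((s x)⁻¹ * g * s y)
      map_one' := by simpa using hz 1
      map_mul' := fun g h => by
        ext x y
        rw [Matrix.mul_apply, Finset.sum_eq_single ((σ g)⁻¹ * x)]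
        · simp only [Matrix.of_apply]
          rw [← hl _ _ (by simp [hs])]; congr 1; group
        · intro b _ hb
          have : (s x)⁻¹ * g * s b ∉ σ.ker := fun h' => hb (by
            rw [MonoidHom.mem_ker, map_mul, map_mul, map_inv, hs, hs, mul_eq_one_iff_inv_eq] at h'
            rw [← h']; group)
          simp only [Matrix.of_apply, l', dif_neg this, zero_mul]
        · simp }
  let e := Fintype.equivFin Q
  refine ⟨Fintype.card Q, (((Matrix.reindexAlgEquiv ℂ ℂ e : _ →* _)).comp M).toHomUnits,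
    Fintype.card_ne_zero, fun z => ?_⟩
  ext1
  show Matrix.reindexAlgEquiv ℂ ℂ e (M z) = Matrix.scalar _ (l z : ℂ)
  rw [show M z = _ from hz z]
  exact AlgEquiv.commutes _ _

theorem inj_of_lifts {Γ : Type*} [Group Γ] {σ : Γ →* Q} (hσ : IsStemExtension σ)
    (hlift : ∀ (n : ℕ) (γ : Q →* (GL (Fin n) ℂ ⧸ center (GL (Fin n) ℂ))),
      ∃ ρ : Γ →* GL (Fin n) ℂ, (QuotientGroup.mk' (center (GL (Fin n) ℂ))).comp ρ = γ.comp σ) :
    Nonempty (MM (pr Q) ≃* σ.ker) := by
  obtain ⟨β, h⟩ := lift_ex' (pr Q) hσ.1 hσ.2.1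
  obtain ⟨f, hf, hf2⟩ := surj_MM (pr_surj Q) hσ h
  refine ⟨MulEquiv.ofBijective f ⟨(injective_iff_map_eq_one f).2 fun m hm => ?_, hf⟩⟩
  by_contra hm1
  have : NeZero (Monoid.exponent (MM (pr Q))) := ⟨Monoid.exponent_ne_zero_of_finite⟩
  obtain ⟨χ, hχ⟩ := CommGroup.exists_apply_ne_one_of_hasEnoughRootsOfUnity _ ℂ hm1
  letI : CommGroup (pe (pr Q)).ker := { (inferInstance : Group (pe (pr Q)).ker) with
    mul_comm := fun a b => Subtype.ext (mem_center_iff.1 (pe_central _ b.2) a) }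
  obtain ⟨l, hl⟩ := div_extend (D := ℂˣ) (E := (pe (pr Q)).ker) (fun a k hk => by
    obtain ⟨b, hb⟩ := IsAlgClosed.exists_pow_nat_eq (a : ℂ) (Nat.pos_of_ne_zero hk)
    have hb0 : b ≠ 0 := by rintro rfl; rw [zero_pow hk] at hb; exact a.ne_zero hb.symm
    exact ⟨Units.mk0 b hb0, by ext; simp [hb]⟩) (inclusion (MM_le (pr Q))) χ
    (fun s hs => by
      rw [commutator_eq_bot, mem_bot] at hs
      rw [inclusion_injective _ (hs.trans (map_one _).symm), map_one])
  obtain ⟨n, ρ₀, hn, hρ⟩ := exists_monomial (pe_surj (pr_surj Q)) (pe_central _) l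
  obtain ⟨γ, hγ⟩ := exists_factor (pe_surj (pr_surj Q))
    ((QuotientGroup.mk' (center (GL (Fin n) ℂ))).comp ρ₀) (fun z hz => by
      rw [MonoidHom.mem_ker, MonoidHom.comp_apply, QuotientGroup.mk'_apply,
        QuotientGroup.eq_one_iff, hρ ⟨z, hz⟩, Matrix.GeneralLinearGroup.center_eq_range_scalar]
      exact ⟨_, rfl⟩)
  obtain ⟨ρ, hρ'⟩ := hlift n γ
  have h4 := lift_uniq (ξ := QuotientGroup.mk' (center (GL (Fin n) ℂ))) (by simp)
    (η₁ := ρ₀) (η₂ := ρ.comp β) (fun x => by
      have := DFunLike.congr_fun hρ' (β x)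
      rw [MonoidHom.comp_apply, MonoidHom.comp_apply, h] at this
      rw [MonoidHom.comp_apply, this, hγ]; rfl) m.2.2
  rw [MonoidHom.comp_apply, ← hf2, hm, OneMemClass.coe_one, map_one, hρ ⟨m, m.2.1⟩] at h4
  apply hχ
  rw [← hl m]
  have := congrArg (fun u : GL (Fin n) ℂ => u.1 ⟨0, Nat.pos_of_ne_zero hn⟩
    ⟨0, Nat.pos_of_ne_zero hn⟩) h4
  have h5 : l ⟨m, m.2.1⟩ = 1 := by simpa using this
  exact h5

end Main

end H1B
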