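import Cfsg.Agent.H1.Schur
import Mathlib.LinearAlgebra.TensorProduct.Basic
import Mathlib.GroupTheory.SemidirectProduct
import Mathlib.GroupTheory.PresentedGroup
import Mathlib.LinearAlgebra.Dimension.Localization
import Mathlib.GroupTheory.Nilpotent
import Mathlib.Algebra.Group.MinimalAxioms

/-! Schur multipliers: products, metacyclic groups, transfer. -/

set_option linter.unusedSectionVars false

namespace H1B
open Subgroup Cfsg
open scoped commutatorElement IsMulCommutative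

universe u v w

/-- central extension by a bimultiplicative map -/
@[ext] structure BExt {G T : Type*} [Group G] [CommGroup T] (β : G →* G →* T) where
  g : G
  t : T

namespace BExt
variable {G T : Type*} [Group G] [CommGroup T] {β : G →* G →* T}

instance : Mul (BExt β) := ⟨fun a b => ⟨a.g * b.g, a.t * b.t * β a.g b.g⟩⟩
instance : One (BExt β) := ⟨⟨1, 1⟩⟩
instance : Inv (BExt β) := ⟨fun a => ⟨a.g⁻¹, a.t⁻¹ * β a.g a.g⟩⟩
@[simp] theorem mul_g (a b : BExt β) : (a * b).g = a.g * b.g := rfl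
@[simp] theorem mul_t (a b : BExt β) : (a * b).t = a.t * b.t * β a.g b.g := rfl
@[simp] theorem one_g : (1 : BExt β).g = 1 := rfl
@[simp] theorem one_t : (1 : BExt β).t = 1 := rfl
@[simp] theorem inv_g (a : BExt β) : (a⁻¹).g = a.g⁻¹ := rfl
@[simp] theorem inv_t (a : BExt β) : (a⁻¹).t = a.t⁻¹ * β a.g a.g := rfl

instance : Group (BExt β) := Group.ofLeftAxioms
  (fun a b c => by ext <;> simp [mul_assoc, mul_comm, mul_left_comm])
  (fun a => by ext <;> simp) (fun a => by ext <;> simp)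

def fst (β : G →* G →* T) : BExt β →* G := MonoidHom.mk' BExt.g fun _ _ => rfl

def inr (β : G →* G →* T) : T →* BExt β := MonoidHom.mk' (fun t => ⟨1, t⟩) fun _ _ => by
  ext <;> simp

theorem fst_surj : Function.Surjective (fst β) := fun g => ⟨⟨g, 1⟩, rfl⟩

theorem central {a : BExt β} (h : a.g ∈ center G) (h' : ∀ g, β a.g g = β g a.g) : a ∈ center _ := by
  rw [mem_center_iff]; intro b
  ext
  · exact mem_center_iff.1 h _
  · simp [h', mul_comm]

theorem fst_central : (fst β).ker ≤ center _ := fun a ha => by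
  have : a.g = 1 := ha
  exact central (this ▸ one_mem _) (by simp [this])

theorem comm_eq {a b : G} (h : a * b = b * a) :
    ⁅(⟨a, 1⟩ : BExt β), ⟨b, 1⟩⁆ = inr β (β a b / β b a) := by
  rw [commutatorElement_def, mul_inv_eq_iff_eq_mul, mul_inv_eq_iff_eq_mul]
  ext
  · simpa [inr] using h
  · simp [inr]

end BExt

theorem MM_ne_bot {G T : Type*} [Group G] [Finite G] [CommGroup T] (β : G →* G →* T) {a b : G}
    (h : a * b = b * a) (h2 : β a b ≠ β b a) : ¬ HasCyclicSchurMultiplier G 1 := fun h3 => by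
  have h4 := ker_inf_eq_bot h3 (BExt.fst_surj (β := β)) BExt.fst_central
  have : BExt.inr β (β a b / β b a) ∈ (⊥ : Subgroup _) := by
    rw [← h4]
    exact ⟨rfl, BExt.comm_eq (β := β) h ▸ commutator_mem_commutator (mem_top _) (mem_top _)⟩
  exact h2 (div_eq_one.1 (congrArg BExt.t (mem_bot.1 this)))

section Prod
variable {Q₁ : Type u} {Q₂ : Type v} [Group Q₁] [Group Q₂]

abbrev TT (Q₁ : Type u) (Q₂ : Type v) [Group Q₁] [Group Q₂] :=
  Multiplicative (TensorProduct ℤ (Additive (Abelianization Q₁)) (Additive (Abelianization Q₂)))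

def tm (a : Q₁) (b : Q₂) : TT Q₁ Q₂ :=
  Multiplicative.ofAdd (Additive.ofMul (Abelianization.of a) ⊗ₜ Additive.ofMul (Abelianization.of b))

theorem tm_mul_left (a a' : Q₁) (b : Q₂) : tm (a * a') b = tm a b * tm a' b := by
  simp [tm, TensorProduct.add_tmul]

theorem tm_mul_right (a : Q₁) (b b' : Q₂) : tm a (b * b') = tm a b * tm a b' := by
  simp [tm, TensorProduct.tmul_add]

theorem tm_top (K : Subgroup (TT Q₁ Q₂)) (h : ∀ a b, tm a b ∈ K) : K = ⊤ := by
  rw [eq_top_iff]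
  rintro x -
  induction x using Multiplicative.rec with | ofAdd x => ?_
  induction x using TensorProduct.induction_on with
  | zero => exact one_mem _
  | tmul a b =>
    obtain ⟨a, ha⟩ := QuotientGroup.mk_surjective (a.toMul : Q₁ ⧸ commutator Q₁)
    obtain ⟨b, hb⟩ := QuotientGroup.mk_surjective (b.toMul : Q₂ ⧸ commutator Q₂)
    have := h a b
    unfold tm at this
    rw [show Abelianization.of a = _ from ha, show Abelianization.of b = _ from hb] at this
    exact this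
  | add a b ha hb => exact mul_mem ha hb

theorem tm_lift {C : Type*} [CommGroup C] (f : Q₁ →* Q₂ →* C) :
    ∃ g : TT Q₁ Q₂ →* C, ∀ a b, g (tm a b) = f a b := by
  let f1 : Abelianization Q₁ →* Abelianization Q₂ →* C :=
    Abelianization.lift (Abelianization.lift f.flip).flip
  let f2 : Additive (Abelianization Q₁) →ₗ[ℤ] Additive (Abelianization Q₂) →ₗ[ℤ] Additive C :=
    AddMonoidHom.toIntLinearMap
      { toFun := fun a => (MonoidHom.toAdditive (f1 a.toMul)).toIntLinearMap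
        map_zero' := by ext; simp
        map_add' := fun a b => by ext; simp }
  refine ⟨AddMonoidHom.toMultiplicativeLeft (TensorProduct.lift f2).toAddMonoidHom, fun a b => ?_⟩
  simp [tm, f2, f1]

theorem card_MM_prod [Finite Q₁] [Finite Q₂] :
    ∃ f : MM (pr Q₁) × MM (pr Q₂) × TT Q₁ Q₂ →* MM (pr (Q₁ × Q₂)), Function.Surjective f := by
  set ξ := pe (pr (Q₁ × Q₂))
  have hs : Function.Surjective ξ := pe_surj (pr_surj _)
  have hc : ξ.ker ≤ center _ := pe_central _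
  obtain ⟨η₁, h₁⟩ := lift_ex (π := pr Q₁) (MonoidHom.inl Q₁ Q₂) ξ (fun _ => hs _) hc
  obtain ⟨η₂, h₂⟩ := lift_ex (π := pr Q₂) (MonoidHom.inr Q₁ Q₂) ξ (fun _ => hs _) hc
  choose s₁ hs₁ using pe_surj (pr_surj Q₁)
  choose s₂ hs₂ using pe_surj (pr_surj Q₂)
  have hm : ∀ x y, ⁅η₁ x, η₂ y⁆ ∈ MM (pr (Q₁ × Q₂)) := fun x y => mem_MM.2 ⟨by
    rw [map_commutatorElement, h₁, h₂, commutatorElement_eq_one_iff_mul_comm]; ext <;> simp,
    commutator_mem_commutator (mem_top _) (mem_top _)⟩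
  have he : ∀ x y, ⁅η₁ x, η₂ y⁆ = ⁅η₁ (s₁ (pe _ x)), η₂ (s₂ (pe _ y))⁆ := fun x y =>
    comm_eq_of_map_eq hc (by rw [h₁, h₁, hs₁]) (by rw [h₂, h₂, hs₂])
  have hz : ∀ x y g, g * ⁅η₁ x, η₂ y⁆ = ⁅η₁ x, η₂ y⁆ * g := fun x y =>
    mem_center_iff.1 (MM_central _ (hm x y))
  let c : Q₁ →* Q₂ →* MM (pr (Q₁ × Q₂)) := MonoidHom.mk' (fun a => MonoidHom.mk'
    (fun b => ⟨_, hm (s₁ a) (s₂ b)⟩) fun b b' => Subtype.ext (by
      show ⁅η₁ (s₁ a), η₂ (s₂ (b * b'))⁆ = ⁅η₁ (s₁ a), η₂ (s₂ b)⁆ * ⁅η₁ (s₁ a), η₂ (s₂ b')⁆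
      have := he (s₁ a) (s₂ b * s₂ b')
      rw [map_mul (pe _), hs₁, hs₂, hs₂] at this
      rw [← this, map_mul]
      have h3 := hz (s₁ a) (s₂ b') (η₂ (s₂ b))
      calc _ = ⁅η₁ (s₁ a), η₂ (s₂ b)⁆ * (η₂ (s₂ b) * ⁅η₁ (s₁ a), η₂ (s₂ b')⁆) * (η₂ (s₂ b))⁻¹ := by
            simp only [commutatorElement_def]; group
        _ = _ := by rw [h3]; group)) fun a a' => MonoidHom.ext fun b => Subtype.ext (by
      show ⁅η₁ (s₁ (a * a')), η₂ (s₂ b)⁆ = ⁅η₁ (s₁ a), η₂ (s₂ b)⁆ * ⁅η₁ (s₁ a'), η₂ (s₂ b)⁆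
      have := he (s₁ a * s₁ a') (s₂ b)
      rw [map_mul (pe _), hs₁, hs₁, hs₂] at this
      rw [← this, map_mul, ← hz]
      have h3 := hz (s₁ a') (s₂ b) (η₁ (s₁ a))
      calc _ = (η₁ (s₁ a) * ⁅η₁ (s₁ a'), η₂ (s₂ b)⁆) * (η₁ (s₁ a))⁻¹ * ⁅η₁ (s₁ a), η₂ (s₂ b)⁆ := by
            simp only [commutatorElement_def]; group
        _ = _ := by rw [h3]; group)
  obtain ⟨g, hg⟩ := tm_lift c
  have hg' : ∀ x y, ⁅η₁ x, η₂ y⁆ ∈ g.range.map (MM _).subtype := fun x y =>
    ⟨_, ⟨tm (pe _ x) (pe _ y), hg _ _⟩, (he x y).symm⟩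
  have m₁ : ∀ m : MM (pr Q₁), η₁ m ∈ MM (pr (Q₁ × Q₂)) := fun m => mem_MM.2 ⟨by
    rw [h₁, (mem_MM.1 m.2).1, map_one], by
      have := mem_map_of_mem η₁ (mem_MM.1 m.2).2
      rw [_root_.commutator_def, map_commutator] at this
      exact commutator_mono le_top le_top this⟩
  have m₂ : ∀ m : MM (pr Q₂), η₂ m ∈ MM (pr (Q₁ × Q₂)) := fun m => mem_MM.2 ⟨by
    rw [h₂, (mem_MM.1 m.2).1, map_one], by
      have := mem_map_of_mem η₂ (mem_MM.1 m.2).2
      rw [_root_.commutator_def, map_commutator] at this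
      exact commutator_mono le_top le_top this⟩
  refine ⟨((η₁.comp (MM _).subtype).codRestrict _ m₁).coprod
    (((η₂.comp (MM _).subtype).codRestrict _ m₂).coprod g), ?_⟩
  -- every commutator is a product
  set C := g.range.map (MM (pr (Q₁ × Q₂))).subtype
  have hCc : C ≤ center _ := (map_subtype_le _).trans (MM_central _)
  have hx : ∀ x y, ∃ c ∈ C, η₂ y * η₁ x = η₁ x * η₂ y * c := fun x y =>
    ⟨_, inv_mem (hg' x y), by
      rw [mem_center_iff.1 (hCc (inv_mem (hg' x y))), commutatorElement_def]; group⟩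
  let W : Subgroup (EE (pr (Q₁ × Q₂))) :=
    { carrier := {w | ∃ x ∈ commutator _, ∃ y ∈ commutator _, ∃ c ∈ C, w = η₁ x * η₂ y * c}
      one_mem' := ⟨1, one_mem _, 1, one_mem _, 1, one_mem _, by simp⟩
      mul_mem' := by
        rintro _ _ ⟨x, hx1, y, hy, c, hc1, rfl⟩ ⟨x', hx', y', hy', c', hc', rfl⟩
        obtain ⟨d, hd, hd2⟩ := hx x' y
        refine ⟨_, mul_mem hx1 hx', _, mul_mem hy hy', _, mul_mem hd (mul_mem hc1 hc'), ?_⟩
        have e1 := mem_center_iff.1 (hCc hc1)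
        have e2 := mem_center_iff.1 (hCc hd)
        calc _ = η₁ x * η₂ y * (c * (η₁ x' * η₂ y')) * c' := by group
          _ = η₁ x * (η₂ y * η₁ x') * η₂ y' * c * c' := by rw [← e1]; group
          _ = η₁ x * η₁ x' * η₂ y * (d * η₂ y') * c * c' := by rw [hd2]; group
          _ = _ := by rw [← e2, map_mul, map_mul]; group
      inv_mem' := by
        rintro _ ⟨x, hx1, y, hy, c, hc1, rfl⟩
        obtain ⟨d, hd, hd2⟩ := hx x⁻¹ y⁻¹
        refine ⟨_, inv_mem hx1, _, inv_mem hy, _, mul_mem hd (inv_mem hc1), ?_⟩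
        rw [← mul_assoc, ← hd2, mem_center_iff.1 (hCc (inv_mem hc1))]; simp [mul_assoc] }
  have hW : commutator _ ≤ W := by
    rw [_root_.commutator_def, commutator_le]
    intro a _ b _
    rw [comm_eq_of_map_eq hc (a' := η₁ (s₁ (ξ a).1) * η₂ (s₂ (ξ a).2))
      (b' := η₁ (s₁ (ξ b).1) * η₂ (s₂ (ξ b).2)) (by simp [h₁, h₂, hs₁, hs₂])
      (by simp [h₁, h₂, hs₁, hs₂])]
    generalize s₁ (ξ a).1 = x, s₂ (ξ a).2 = y, s₁ (ξ b).1 = x', s₂ (ξ b).2 = y'
    have : C.Normal := normal_of_le_ctr hCc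
    have hq : ∀ x y, Commute ((η₁ x : _ ⧸ C)) (η₂ y) := fun x y => by
      rw [← commutatorElement_eq_one_iff_commute]
      exact (QuotientGroup.eq_one_iff _).2 (hg' x y)
    refine ⟨⁅x, x'⁆, commutator_mem_commutator (mem_top _) (mem_top _), ⁅y, y'⁆,
      commutator_mem_commutator (mem_top _) (mem_top _),
      (η₁ ⁅x, x'⁆ * η₂ ⁅y, y'⁆)⁻¹ * ⁅η₁ x * η₂ y, η₁ x' * η₂ y'⁆, ?_, by group⟩
    rw [← QuotientGroup.eq]
    simp only [commutatorElement_def, QuotientGroup.mk_mul, map_mul, QuotientGroup.mk_inv, map_inv,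
      mul_inv_rev]
    have a1 := (hq x' y).eq
    have a2 := (hq x y').inv_left.eq
    have a3 := (hq x' y).inv_left.eq
    have a4 := (hq x y).inv_left.eq
    have a5 := (hq x' y').inv_left.eq
    have a6 := (hq x' y).inv_inv.eq
    have a7 := (hq x y).inv_inv.eq
    have a8 := (hq x y').inv_inv.eq
    have a9 := (hq x' y').inv_inv.eq
    generalize ((η₁ x : _ ⧸ C)) = A, ((η₁ x' : _ ⧸ C)) = A', ((η₂ y : _ ⧸ C)) = B,
      ((η₂ y' : _ ⧸ C)) = B' at *
    calc _ = A * A' * A⁻¹ * (A'⁻¹ * B) * B' * B⁻¹ * B'⁻¹ := by group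
      _ = A * A' * (A⁻¹ * B) * (A'⁻¹ * B') * B⁻¹ * B'⁻¹ := by rw [a3]; group
      _ = A * (A' * B) * (A⁻¹ * B') * (A'⁻¹ * B⁻¹) * B'⁻¹ := by rw [a4, a5]; group
      _ = A * B * A' * B' * (A⁻¹ * B⁻¹) * (A'⁻¹ * B'⁻¹) := by rw [a1, a2, a6]; group
      _ = _ := by rw [a7, a9]; group
  rintro ⟨m, hm1⟩
  obtain ⟨x, hx1, y, hy, _, ⟨c, ⟨t, rfl⟩, rfl⟩, rfl⟩ := hW (mem_MM.1 hm1).2
  have h3 := (mem_MM.1 hm1).1
  rw [map_mul, map_mul, h₁, h₂, show pe _ ((MM _).subtype (g t)) = 1 from (mem_MM.1 (g t).2).1] at h3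
  refine ⟨(⟨x, mem_MM.2 ⟨by simpa using congrArg Prod.fst h3, hx1⟩⟩,
    ⟨y, mem_MM.2 ⟨by simpa using congrArg Prod.snd h3, hy⟩⟩, t), Subtype.ext ?_⟩
  exact (mul_assoc _ _ _).symm

theorem hasMult_prod [Finite Q₁] [Finite Q₂] {A B : Type*} [CommGroup A] [CommGroup B]
    (hA : HasSchurMultiplier Q₁ A) (hB : HasSchurMultiplier Q₂ B) :
    HasSchurMultiplier (Q₁ × Q₂) (A × B × TT Q₁ Q₂) := by
  obtain ⟨eA⟩ := equiv_MM hA
  obtain ⟨eB⟩ := equiv_MM hB
  obtain ⟨Γ₁, i1, i2, σ₁, h1, ⟨e1⟩⟩ := hA.1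
  obtain ⟨Γ₂, j1, j2, σ₂, h2, ⟨e2⟩⟩ := hB.1
  let β : Γ₁ × Γ₂ →* Γ₁ × Γ₂ →* TT Q₁ Q₂ := MonoidHom.mk' (fun a => MonoidHom.mk'
    (fun b => tm (σ₁ a.1) (σ₂ b.2)) fun b b' => by simp [tm_mul_right]) fun a a' => by
      ext1 b; simp [tm_mul_left]
  have hβ : ∀ a b, β a b = tm (σ₁ a.1) (σ₂ b.2) := fun _ _ => rfl
  have t1 : ∀ b : Q₂, tm (1 : Q₁) b = 1 := fun b => by simp [tm]
  have t2 : ∀ a : Q₁, tm a (1 : Q₂) = 1 := fun b => by simp [tm]
  let ξ : BExt β →* Q₁ × Q₂ := (σ₁.prodMap σ₂).comp (BExt.fst β)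
  have hk : ∀ x, x ∈ ξ.ker ↔ σ₁ x.g.1 = 1 ∧ σ₂ x.g.2 = 1 := fun x => Prod.ext_iff
  have hT : ∀ t, BExt.inr β t ∈ commutator _ := fun t => by
    have := tm_top ((commutator _).comap (BExt.inr β)) fun a b => by
      obtain ⟨a, rfl⟩ := h1.1 a
      obtain ⟨b, rfl⟩ := h2.1 b
      have := BExt.comm_eq (β := β) (a := (a, 1)) (b := (1, b)) (by simp)
      rw [hβ, hβ] at this
      simp only [map_one, t1, div_one] at this
      rw [mem_comap, ← this]; exact commutator_mem_commutator (mem_top _) (mem_top _)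
    exact (this.ge (mem_top t))
  have hξ : IsStemExtension ξ := by
    refine ⟨(h1.1.prodMap h2.1).comp BExt.fst_surj, fun x hx => ?_, fun x hx => ?_⟩
    · rw [hk] at hx
      refine BExt.central ?_ fun g => by rw [hβ, hβ, hx.1, hx.2, t1, t2]
      rw [mem_center_iff]; intro g
      exact Prod.ext (mem_center_iff.1 (h1.2.1 hx.1) _) (mem_center_iff.1 (h2.2.1 hx.2) _)
    · rw [hk] at hx
      have h3 : x.g ∈ commutator (Γ₁ × Γ₂) := by
        rw [_root_.commutator_def, ← top_prod_top, commutator_prod_prod]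
        exact ⟨h1.2.2 hx.1, h2.2.2 hx.2⟩
      rw [← map_comm_eq (ξ := MonoidHom.id _) (by simp) (η := BExt.fst β)
        (fun x => BExt.fst_surj x)] at h3
      obtain ⟨y, hy, hy2⟩ := h3
      have : x = y * BExt.inr β (y.t⁻¹ * x.t) := by
        ext1
        · exact hy2.symm.trans (mul_one _).symm
        · simp [BExt.inr]
      rw [this]; exact mul_mem hy (hT _)
  let g : ξ.ker →* A × B × TT Q₁ Q₂ := MonoidHom.mk'
    (fun x => (e1 ⟨x.1.g.1, ((hk _).1 x.2).1⟩, e2 ⟨x.1.g.2, ((hk _).1 x.2).2⟩, x.1.t)) fun x y => by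
      refine Prod.ext (map_mul e1 ⟨x.1.g.1, ((hk _).1 x.2).1⟩ ⟨y.1.g.1, ((hk _).1 y.2).1⟩)
        (Prod.ext (map_mul e2 ⟨x.1.g.2, ((hk _).1 x.2).2⟩ ⟨y.1.g.2, ((hk _).1 y.2).2⟩) ?_)
      show x.1.t * y.1.t * β _ _ = x.1.t * y.1.t
      rw [hβ, ((hk _).1 x.2).1, t1, mul_one]
  have hg : Function.Surjective g := fun ⟨a, b, t⟩ =>
    ⟨⟨⟨(e1.symm a, e2.symm b), t⟩, (hk _).2 ⟨(e1.symm a).2, (e2.symm b).2⟩⟩,
      Prod.ext (e1.apply_symm_apply a) (Prod.ext (e2.apply_symm_apply b) rfl)⟩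
  obtain ⟨f, hf⟩ := surj_MM' (pr_surj _) hξ
  have : Finite (A × B × TT Q₁ Q₂) := Finite.of_surjective _ (hg.comp hf)
  obtain ⟨k, hk⟩ := card_MM_prod (Q₁ := Q₁) (Q₂ := Q₂)
  exact hasMult_of_card hξ g hg (Nat.card_le_card_of_surjective
    (k ∘ Prod.map eA (Prod.map eB id)) (hk.comp (eA.surjective.prodMap
      (eB.surjective.prodMap Function.surjective_id))))

theorem tm_triv [Finite Q₁] [Finite Q₂]
    (h : (Nat.card (Abelianization Q₁)).Coprime (Nat.card (Abelianization Q₂))) :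
    Subsingleton (TT Q₁ Q₂) := by
  have := tm_top (Q₁ := Q₁) (Q₂ := Q₂) ⊥ fun a b => by
    rw [mem_bot, ← pow_one (tm a b), ← h, ← orderOf_dvd_iff_pow_eq_one]
    refine Nat.dvd_gcd ?_ ?_ <;> rw [orderOf_dvd_iff_pow_eq_one, tm, ← ofAdd_nsmul]
    · rw [TensorProduct.smul_tmul', ← ofMul_pow, pow_card_eq_one']; simp
    · rw [← TensorProduct.tmul_smul, ← ofMul_pow, pow_card_eq_one']; simp
  exact ⟨fun a b => by rw [mem_bot.1 (this.ge (mem_top a)), mem_bot.1 (this.ge (mem_top b))]⟩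

end Prod

section Meta
variable {X : Type*} [Group X] [Finite (commutator X)]

/-- commutator subgroup in a central extension of a metacyclic group -/
theorem meta_comm {A B z : X} {r : ℤ} (hz : z ∈ center X) (h : B * A * B⁻¹ = A ^ r * z)
    (hg : closure {A, B} ⊔ center X = ⊤) :
    commutator X = zpowers ⁅B, A⁆ ∧ (∀ j : ℤ, ⁅B, A ^ j⁆ = ⁅B, A⁆ ^ j) ∧
      ∀ n : ℕ, ⁅B ^ n, A⁆ = ⁅B, A⁆ ^ ∑ i ∈ Finset.range n, r ^ i := by
  have hc : ⁅B, A⁆ = A ^ (r - 1) * z := by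
    rw [commutatorElement_def, h, mul_assoc, ← mem_center_iff.1 hz]; group
  have c1 : Commute A z := mem_center_iff.1 hz A
  have cA : Commute ⁅B, A⁆ A := by
    rw [hc]; exact ((Commute.refl A).zpow_left _).mul_left c1.symm
  have h1 : ∀ j : ℤ, ⁅B, A ^ j⁆ = ⁅B, A⁆ ^ j := fun j => by
    rw [commutatorElement_def, ← conj_zpow, show B * A * B⁻¹ = ⁅B, A⁆ * A by
      simp [commutatorElement_def], cA.mul_zpow]; group
  have hB : B * ⁅B, A⁆ * B⁻¹ = ⁅B, A⁆ ^ r := by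
    have e1 : B * ⁅B, A⁆ * B⁻¹ = ⁅B, A⁆ ^ (r - 1) * (A ^ (r - 1) * z) := by
      rw [← h1]
      conv_lhs => rw [hc]
      rw [← mul_assoc, mul_assoc _ z, ← mem_center_iff.1 hz, commutatorElement_def]; group
    rw [e1, ← hc, ← zpow_add_one, sub_add_cancel]
  refine ⟨le_antisymm ?_ (zpowers_le.2 (commutator_mem_commutator (mem_top _) (mem_top _))), h1, ?_⟩
  · have : Finite (zpowers ⁅B, A⁆) := Finite.of_injective _ (inclusion_injective
      (show _ ≤ commutator X from zpowers_le.2 (commutator_mem_commutator (mem_top B) (mem_top A))))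
    have hall : ∀ K : Subgroup X, A ∈ K → B ∈ K → center X ≤ K → K = ⊤ := fun K h1 h2 h3 => by
      rw [eq_top_iff, ← hg]
      exact sup_le ((closure_le _).2 (Set.pair_subset h1 h2)) h3
    have : (zpowers ⁅B, A⁆).Normal := by
      rw [← normalizer_eq_top_iff]
      refine hall _ (mem_normalizer_fintype ?_) (mem_normalizer_fintype ?_) (center_le_normalizer _)
      · rintro _ ⟨j, rfl⟩
        exact ⟨j, by simp only; rw [← (cA.zpow_left j).eq]; group⟩
      · rintro _ ⟨j, rfl⟩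
        exact ⟨r * j, by simp only; rw [← conj_zpow, hB, zpow_mul]⟩
    let q := QuotientGroup.mk' (zpowers ⁅B, A⁆)
    have hq : ∀ x, x ∈ center X → ∀ y, q y * q x = q x * q y := fun x hx y => by
      rw [← map_mul, ← map_mul, mem_center_iff.1 hx]
    have hAB : q B * q A = q A * q B := by
      rw [← commutatorElement_eq_one_iff_mul_comm, ← map_commutatorElement]
      exact (QuotientGroup.eq_one_iff _).2 (mem_zpowers _)
    have h3 : ∀ x, q A * q x = q x * q A → q B * q x = q x * q B → ∀ y, q y * q x = q x * q y :=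
      fun x h1 h2 y => by
        have := hall ((centralizer {q x}).comap q) (mem_centralizer_singleton_iff.2 h1)
          (mem_centralizer_singleton_iff.2 h2)
          (fun w hw => mem_centralizer_singleton_iff.2 (hq w hw x).symm)
        exact mem_centralizer_singleton_iff.1 (this.ge (mem_top y))
    rw [_root_.commutator_def, commutator_le]
    intro x _ y _
    rw [← QuotientGroup.eq_one_iff]
    show q _ = 1
    rw [map_commutatorElement, commutatorElement_eq_one_iff_mul_comm]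
    exact h3 y (h3 A rfl hAB y).symm (h3 B hAB.symm rfl y).symm x
  · intro n
    induction n with
    | zero => simp
    | succ n ih =>
      rw [Finset.sum_range_succ', pow_zero, zpow_add, zpow_one]
      simp_rw [pow_succ' r]
      rw [← Finset.mul_sum, zpow_mul, ← hB, conj_zpow, ← ih, pow_succ']
      simp only [commutatorElement_def]; group

theorem meta_cyc {Q : Type u} [Group Q] [Finite Q] {a b : Q} {r : ℤ} (hg : closure {a, b} = ⊤)
    (h : b * a * b⁻¹ = a ^ r) {g k : ℕ} (hk : k * orderOf (a ^ (r - 1)) = g)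
    (up : ∀ o : ℕ, (∀ j : ℤ, a ^ j ∈ zpowers b → (o : ℤ) ∣ j) →
      (∀ n : ℕ, b ^ n ∈ zpowers a → (o : ℤ) ∣ ∑ i ∈ Finset.range n, r ^ i) → o ∣ g)
    {X Y : Type*} [Group X] [Group Y] (f : Q →* Y) {ξ : X →* Y} (hs : Function.Surjective ξ)
    (hc : ξ.ker ≤ center X) {x y : X} (hx : ξ x = f a) (hy : ξ y = f b) (low : g ∣ orderOf ⁅y, x⁆) :
    HasCyclicSchurMultiplier Q k := by
  obtain ⟨A, hA⟩ := pe_surj (pr_surj Q) a
  obtain ⟨B, hB⟩ := pe_surj (pr_surj Q) b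
  have hz := pe_central (pr Q)
  obtain ⟨h1, h2, h3⟩ := meta_comm (A := A) (B := B) (r := r) (z := (A ^ r)⁻¹ * (B * A * B⁻¹))
    (hz (by simp [hA, hB, h])) (by group) (by
      rw [eq_top_iff, ← comap_top (pe (pr Q)), ← hg, ← hA, ← hB, ← Set.image_pair,
        ← MonoidHom.map_closure, comap_map_eq]
      exact sup_le_sup_left hz _)
  have h4 : orderOf ⁅B, A⁆ ∣ g := up _ (fun j ⟨i, hi⟩ => by
      rw [orderOf_dvd_iff_zpow_eq_one, ← h2, comm_eq_of_map_eq hz (a' := B) (b' := B ^ i) rfl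
        (by simpa [hA, hB] using hi.symm), commutatorElement_eq_one_iff_commute]
      exact (Commute.refl B).zpow_right i) (fun n ⟨i, hi⟩ => by
      rw [orderOf_dvd_iff_zpow_eq_one, ← h3, comm_eq_of_map_eq hz (a' := A ^ i) (b' := A)
        (by simpa [hA, hB] using hi.symm) rfl, commutatorElement_eq_one_iff_commute]
      exact (Commute.refl A).zpow_left i)
  obtain ⟨η, hη⟩ := lift_ex (π := pr Q) f ξ (fun q => hs _) hc
  have h5 : g ∣ orderOf ⁅B, A⁆ := by
    refine low.trans ?_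
    rw [← comm_eq_of_map_eq hc (a := η B) (b := η A) (by rw [hη, hB, hy]) (by rw [hη, hA, hx]),
      ← map_commutatorElement]
    exact orderOf_map_dvd _ _
  have h6 : pe _ ⁅B, A⁆ = a ^ (r - 1) := by
    rw [map_commutatorElement, hA, hB, commutatorElement_def, h]; group
  have h7 : Nat.card (MM (pr Q)) * orderOf (a ^ (r - 1)) = g := by
    rw [Nat.dvd_antisymm h5 h4, ← Nat.card_zpowers ⁅B, A⁆, ← h6, ← Nat.card_zpowers,
      ← MonoidHom.map_zpowers, ← h1, MM, ← relIndex_ker, ← inf_relIndex_right, ← relIndex_bot_left,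
      ← relIndex_bot_left]
    exact relIndex_mul_relIndex _ _ _ bot_le inf_le_right
  have h8 : Nat.card (MM (pr Q)) = k :=
    Nat.eq_of_mul_eq_mul_right (orderOf_pos _) (h7.trans hk.symm)
  have : IsCyclic (MM (pr Q)) := by
    have : IsCyclic (commutator (EE (pr Q))) := by rw [h1]; infer_instance
    exact isCyclic_of_injective _ (inclusion_injective (inf_le_right : MM (pr Q) ≤ _))
  have : NeZero k := ⟨h8 ▸ Nat.card_pos.ne'⟩
  exact hasMult_of_equiv (mulEquivOfCyclicCardEq (by simp [h8]))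

end Meta

end H1B
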