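import Cfsg.Agent.H1.Schur2
import Mathlib.GroupTheory.Rank
import Mathlib.GroupTheory.FreeGroup.GeneratorEquiv

/-! Schur multipliers: transfer, exponent, rank, uniqueness of covers. -/

set_option linter.unusedSectionVars false

namespace H1B
open Subgroup Cfsg
open scoped commutatorElement IsMulCommutative

universe u v w

instance finite_ab {Q : Type*} [Group Q] [Finite Q] : Finite (Abelianization Q) :=
  inferInstanceAs (Finite (Q ⧸ commutator Q))

instance kerComm {F Q : Type*} [Group F] [Group Q] (π : F →* Q) : CommGroup (pe π).ker :=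
  { (inferInstance : Group (pe π).ker) with
    mul_comm := fun a b => Subtype.ext (mem_center_iff.1 (pe_central _ b.2) a) }

theorem transfer_MM {F G : Type*} [Group F] [Group G] [Finite G] {π : F →* G}
    (hπ : Function.Surjective π) (U : Subgroup G) :
    ∃ (i : MM (π.subgroupComap U) →* MM π) (t : MM π →* MM (π.subgroupComap U)),
      ∀ m, i (t m) = m ^ U.index := by
  classical
  set H := U.comap π
  set πU := π.subgroupComap U
  have hidx : H.index = U.index := index_comap_of_surjective _ hπ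
  have : H.FiniteIndex := ⟨hidx ▸ FiniteIndex.index_ne_zero⟩
  have := H.fintypeQuotientOfFiniteIndex
  let τ : F → F ⧸ H → H := fun f q => ⟨(f • q).out⁻¹ * f * q.out, by
    rw [mul_assoc, ← QuotientGroup.eq, QuotientGroup.out_eq', ← smul_eq_mul,
      MulAction.Quotient.mk_smul_out]⟩
  have hτ : ∀ f g q, τ (f * g) q = τ f (g • q) * τ g q := fun f g q => Subtype.ext (by
    simp [τ, mul_smul, mul_assoc])
  have hτ1 : ∀ q, τ 1 q = 1 := fun q => Subtype.ext (by simp [τ])
  have hR : ∀ r ∈ π.ker, ∀ q : F ⧸ H, r • q = q := fun r hr q => by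
    induction q using QuotientGroup.induction_on with | H x => ?_
    rw [MulAction.Quotient.smul_mk, QuotientGroup.eq]
    show π _ ∈ U
    simp [show π r = 1 from hr]
  have hK : ∀ r ∈ π.ker, ∀ q, ((τ r q : H) : EE πU) ∈ (pe πU).ker := fun r hr q => Subtype.ext (by
    show π ((r • q).out⁻¹ * r * q.out) = 1
    simp [hR r hr, show π r = 1 from hr])
  let V : F →* Abelianization (EE πU) := MonoidHom.mk'
    (fun f => ∏ q, Abelianization.of ((τ f q : H) : EE πU)) fun f g => by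
      simp only [hτ, QuotientGroup.mk_mul, map_mul, Finset.prod_mul_distrib]
      congr 1
      exact Equiv.prod_comp (MulAction.toPerm g) fun q => Abelianization.of ((τ f q : H) : EE πU)
  let T : π.ker →* (pe πU).ker := MonoidHom.mk' (fun r => ∏ q, ⟨_, hK r r.2 q⟩) fun r s => by
    rw [← Finset.prod_mul_distrib]
    refine Finset.prod_congr rfl fun q _ => Subtype.ext ?_
    show ((τ (r * s) q : H) : EE πU) = (τ r q : H) * (τ s q : H)
    rw [hτ, hR s s.2]; rfl
  have hT : ∀ (r : π.ker) (f : F), T ⟨f * r * f⁻¹, by simp [show π r = 1 from r.2]⟩ = T r := by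
    intro r f
    refine Eq.trans ?_ (Equiv.prod_comp (MulAction.toPerm f⁻¹) fun q => (⟨_, hK r r.2 q⟩ : (pe πU).ker))
    refine Finset.prod_congr rfl fun q _ => Subtype.ext ?_
    show ((τ (f * r * f⁻¹) q : H) : EE πU) = (τ r (f⁻¹ • q) : H)
    rw [hτ, hτ, hR r r.2, QuotientGroup.mk_mul, QuotientGroup.mk_mul,
      mem_center_iff.1 (pe_central _ (hK r r.2 _)), mul_assoc, ← QuotientGroup.mk_mul, ← hτ,
      mul_inv_cancel, hτ1]; simp
  let ρ : π.ker →* (pe π).ker := ((QuotientGroup.mk' _).comp π.ker.subtype).codRestrict _ fun r => r.2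
  have hρ : Function.Surjective ρ := by
    rintro ⟨x, hx⟩
    induction x using QuotientGroup.induction_on with | H x => exact ⟨⟨x, hx⟩, rfl⟩
  obtain ⟨T', hT'⟩ := exists_factor hρ T (fun r hr => by
    have h1 : (r : F) ∈ ⁅π.ker, (⊤ : Subgroup F)⁆ :=
      (QuotientGroup.eq_one_iff _).1 (congrArg Subtype.val hr)
    have h2 : ⁅π.ker, (⊤ : Subgroup F)⁆ ≤ T.ker.map π.ker.subtype := by
      rw [commutator_le]
      intro a ha b _
      refine ⟨⟨a, ha⟩ * ⟨b * (⟨a, ha⟩⁻¹ : π.ker) * b⁻¹, by simp [show π a = 1 from ha]⟩, ?_,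
        by simp [commutatorElement_def, mul_assoc]⟩
      rw [SetLike.mem_coe, MonoidHom.mem_ker, map_mul, hT, ← map_mul]; simp
    obtain ⟨y, hy, hy2⟩ := h2 h1
    rwa [← show y = r from Subtype.ext hy2])
  let V' : EE π →* Abelianization (EE πU) := QuotientGroup.lift _ V
    ((commutator_mono le_top le_top).trans (Abelianization.commutator_subset_ker V))
  have ht : ∀ m : MM π, (T' ⟨m, m.2.1⟩ : EE πU) ∈ MM πU := fun m => by
    refine ⟨(T' _).2, ?_⟩
    obtain ⟨r, hr⟩ := hρ ⟨m, m.2.1⟩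
    have h1 : V' m = 1 := Abelianization.commutator_subset_ker V' m.2.2
    rw [← show (ρ r : EE π) = m from congrArg Subtype.val hr] at h1
    rw [← hr, hT', ← Abelianization.ker_of]
    exact (map_prod (Abelianization.of.comp (pe πU).ker.subtype) _ _).trans h1
  let i : EE πU →* EE π := QuotientGroup.map _ _ H.subtype (by
    rw [← map_le_iff_le_comap, map_commutator]
    refine commutator_mono ?_ le_top
    rintro _ ⟨x, hx, rfl⟩; exact congrArg Subtype.val hx)
  have hi : ∀ x, pe π (i x) = pe πU x := fun x => by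
    induction x using QuotientGroup.induction_on with | H x => rfl
  have hi' : ∀ x : (pe πU).ker, i x ∈ (pe π).ker := fun x => by
    rw [MonoidHom.mem_ker, hi, show pe πU x = 1 from x.2]; rfl
  refine ⟨(i.comp (MM _).subtype).codRestrict _ fun m => ⟨hi' ⟨m, m.2.1⟩, ?_⟩,
    (((pe πU).ker.subtype.comp T').comp (inclusion (MM_le π))).codRestrict _ ht, fun m => ?_⟩
  · have := mem_map_of_mem i m.2.2
    rw [_root_.commutator_def, map_commutator] at this
    exact commutator_mono le_top le_top this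
  · obtain ⟨r, hr⟩ := hρ ⟨m, m.2.1⟩
    let i' : (pe πU).ker →* (pe π).ker := (i.comp (pe πU).ker.subtype).codRestrict _ hi'
    have h1 : i' (T r) = ρ r ^ U.index := by
      refine (map_prod i' _ _).trans ?_
      rw [← hidx, index_eq_card, Nat.card_eq_fintype_card, ← Finset.card_univ, ← Finset.prod_const]
      refine Finset.prod_congr rfl fun q _ => Subtype.ext ?_
      show (((r • q).out⁻¹ * r * q.out : F) : EE π) = ((r : F) : EE π)
      rw [show r • q = q from hR r r.2 q, QuotientGroup.mk_mul, QuotientGroup.mk_mul,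
        mem_center_iff.1 (pe_central π (show ((r : F) : EE π) ∈ (pe π).ker from r.2))]
      simp
    rw [← hT', hr] at h1
    have h2 := congrArg Subtype.val h1
    exact Subtype.ext h2

theorem transfer_mult {G : Type u} [Group G] [Finite G] (U : Subgroup G) {A B : Type*} [CommGroup A]
    [CommGroup B] (hA : HasSchurMultiplier G A) (hB : HasSchurMultiplier U B) :
    ∃ (i : B →* A) (t : A →* B), ∀ m, i (t m) = m ^ U.index := by
  obtain ⟨i, t, h⟩ := transfer_MM (pr_surj G) U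
  obtain ⟨eA⟩ := equiv_MM hA
  obtain ⟨eB⟩ := equiv_MM' (MonoidHom.subgroupComap_surjective_of_surjective _ U (pr_surj G)) hB
  exact ⟨eA.symm.toMonoidHom.comp (i.comp eB.toMonoidHom),
    eB.symm.toMonoidHom.comp (t.comp eA.toMonoidHom), fun m => by simp [h]⟩

theorem mult_pow_card {G : Type u} [Group G] [Finite G] {A : Type*} [CommGroup A]
    (hA : HasSchurMultiplier G A) (a : A) : a ^ Nat.card G = 1 := by
  obtain ⟨eA⟩ := equiv_MM hA
  apply eA.injective
  rw [map_pow, map_one]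
  exact Subtype.ext (pow_card_of_central (pe_central _) (eA a).2.2)

theorem pow_index_mem_comm {Γ : Type*} [Group Γ] [Finite Γ] (S : Subgroup Γ) {z : Γ}
    (hz : z ∈ center Γ) (hz' : z ∈ commutator Γ) : z ^ S.index ∈ ⁅S, S⁆ := by
  have key : ∀ (k : ℕ) (g₀ : Γ), g₀⁻¹ * z ^ k * g₀ ∈ S → g₀⁻¹ * z ^ k * g₀ = z ^ k := by
    intro k g _
    rw [mul_assoc, ← mem_center_iff.1 (pow_mem hz k) g, inv_mul_cancel_left]
  have h1 := MonoidHom.transfer_eq_pow (Abelianization.of : S →* Abelianization S) z key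
  have h2 : MonoidHom.transfer (Abelianization.of : S →* Abelianization S) z = 1 :=
    Abelianization.commutator_subset_ker _ hz'
  rw [h2, eq_comm, ← MonoidHom.mem_ker, Abelianization.ker_of] at h1
  have := mem_map_of_mem S.subtype h1
  rwa [_root_.commutator_def, map_commutator, ← MonoidHom.range_eq_map, range_subtype] at this

theorem mem_comm_sub {Γ : Type*} [Group Γ] {S : Subgroup Γ} {z : Γ} (h : z ∈ ⁅S, S⁆) :
    ∃ hz : z ∈ S, (⟨z, hz⟩ : S) ∈ commutator S := by
  have : ⁅S, S⁆ = (commutator S).map S.subtype := by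
    rw [_root_.commutator_def, map_commutator, ← MonoidHom.range_eq_map, range_subtype]
  rw [this] at h
  obtain ⟨y, hy, rfl⟩ := h
  exact ⟨y.2, hy⟩

theorem sq_ord_dvd {p : ℕ} [hp : Fact p.Prime] (n : ℕ) : ∀ (S : Type u) [Group S] [Finite S],
    Nat.card S = n → IsPGroup p S → ∀ z ∈ center S, z ∈ commutator S →
      orderOf z ^ 2 ∣ (center S).index := by
  induction n using Nat.strong_induction_on with | _ n ih => ?_
  intro S _ _ hn hS z hz hz'
  by_cases h1 : z = 1
  · simp [h1]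
  by_cases h2 : ∃ N : Subgroup S, N.Normal ∧ N ≠ ⊥ ∧ N ⊓ zpowers z = ⊥
  · obtain ⟨N, hN, hN1, hN2⟩ := h2
    have hm : center S ≤ (center (S ⧸ N)).comap (QuotientGroup.mk' N) := fun x hx => by
      rw [mem_comap, mem_center_iff]; intro y
      induction y using QuotientGroup.induction_on with | H y => ?_
      exact congrArg (QuotientGroup.mk' N) (mem_center_iff.1 hx y)
    have := ih _ (by
      rw [← hn, ← index_eq_card, ← N.index_mul_card]
      exact lt_mul_of_one_lt_right (Nat.pos_of_ne_zero FiniteIndex.index_ne_zero)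
        (one_lt_card_iff_ne_bot _ |>.2 hN1)) (S ⧸ N) rfl (hS.to_quotient N) z (hm hz) (by
      have := mem_map_of_mem (QuotientGroup.mk' N) hz'
      rw [_root_.commutator_def, map_commutator] at this
      exact commutator_mono le_top le_top this)
    rw [show orderOf (z : S ⧸ N) = orderOf z from orderOf_eq_orderOf_iff.2 fun k => by
      rw [← QuotientGroup.mk_pow, QuotientGroup.eq_one_iff]
      exact ⟨fun h => mem_bot.1 (hN2 ▸ ⟨h, npow_mem_zpowers z k⟩), fun h => h ▸ one_mem _⟩] at this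
    refine this.trans ?_
    rw [← index_comap_of_surjective _ (QuotientGroup.mk'_surjective N)]
    exact index_dvd_of_le hm
  push Not at h2
  have hnc : center S ≠ ⊤ := fun h => h1 (by
    have : commutator S = ⊥ := by
      rw [_root_.commutator_def, commutator_eq_bot_iff_le_centralizer]
      exact fun x _ y _ => mem_center_iff.1 (h.ge (mem_top x)) y
    rwa [this, mem_bot] at hz')
  have : Nontrivial (S ⧸ center S) := QuotientGroup.nontrivial_iff.2 hnc
  have := (hS.to_quotient (center S)).center_nontrivial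
  have hdv : p ∣ Nat.card (center (S ⧸ center S)) := by
    obtain ⟨k, hk, hk2⟩ := ((hS.to_quotient (center S)).to_subgroup (center _)).nontrivial_iff_card.1 this
    rw [hk2]; exact dvd_pow_self p hk.ne'
  obtain ⟨⟨a, ha⟩, ha2⟩ := exists_prime_orderOf_dvd_card' p hdv
  induction a using QuotientGroup.induction_on with | H a => ?_
  rw [orderOf_mk] at ha2
  have ha3 : a ^ p ∈ center S := by
    rw [← QuotientGroup.eq_one_iff, QuotientGroup.mk_pow, ← ha2, pow_orderOf_eq_one]
  have ha4 : a ∉ center S := fun h => by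
    rw [(QuotientGroup.eq_one_iff a).2 h, orderOf_one] at ha2; exact hp.out.ne_one ha2.symm
  have hc : ∀ s, ⁅s, a⁆ ∈ center S := fun s => by
    rw [← QuotientGroup.eq_one_iff]
    show QuotientGroup.mk' _ _ = 1
    rw [map_commutatorElement, commutatorElement_eq_one_iff_mul_comm]
    exact mem_center_iff.1 ha _
  let φ : S →* S := MonoidHom.mk' (fun s => ⁅s, a⁆) fun s t => by
    have := mem_center_iff.1 (hc t) s
    calc ⁅s * t, a⁆ = (s * ⁅t, a⁆) * s⁻¹ * ⁅s, a⁆ := by simp only [commutatorElement_def]; group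
      _ = _ := by rw [this, mul_inv_cancel_right, mem_center_iff.1 (hc s)]
  have hpw : ∀ s, ⁅s, a⁆ ^ p = 1 := fun s => by
    have h3 : s * a * s⁻¹ = ⁅s, a⁆ * a := by simp [commutatorElement_def]
    have h4 : (s * a * s⁻¹) ^ p = a ^ p := by
      rw [conj_pow, mem_center_iff.1 ha3, mul_inv_cancel_right]
    rw [h3, (show Commute ⁅s, a⁆ a from (mem_center_iff.1 (hc s) a).symm).mul_pow] at h4
    simpa using h4
  have hr : φ.range ≤ zpowers z := by
    rintro _ ⟨s, rfl⟩
    by_cases h : φ s = 1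
    · rw [h]; exact one_mem _
    have ho : Nat.card (zpowers (φ s)) = p := by
      rw [Nat.card_zpowers]; exact orderOf_eq_prime (hpw s) h
    have := h2 _ (normal_of_le_ctr (zpowers_le.2 (hc s))) (zpowers_ne_bot.2 h)
    have h5 : Nat.card ↥(zpowers (φ s) ⊓ zpowers z) ∣ p := ho ▸ card_dvd_of_le inf_le_left
    rcases (Nat.dvd_prime hp.out).1 h5 with h6 | h6
    · exact absurd (card_eq_one.1 h6) this
    · have := eq_of_le_of_card_ge (inf_le_left : zpowers (φ s) ⊓ zpowers z ≤ _) (by rw [h6, ho])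
      exact (this.ge (mem_zpowers _)).2
  have hrc : IsCyclic φ.range := isCyclic_of_injective _ (inclusion_injective hr)
  have hidx : φ.ker.index = p := by
    rw [index_ker, ← IsCyclic.exponent_eq_card]
    have : Nontrivial φ.range := by
      rw [nontrivial_iff_ne_bot]; intro h
      refine ha4 (mem_center_iff.2 fun s => ?_)
      rw [← commutatorElement_eq_one_iff_mul_comm]
      exact mem_bot.1 (h.le ⟨s, rfl⟩)
    refine (Nat.dvd_prime hp.out).1 (Monoid.exponent_dvd_of_forall_pow_eq_one ?_) |>.resolve_left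
      Monoid.one_lt_exponent.ne'
    rintro ⟨_, s, rfl⟩; exact Subtype.ext (hpw s)
  set H := φ.ker
  obtain ⟨hzH, hzH'⟩ := mem_comm_sub (pow_index_mem_comm H hz hz')
  have hA : center S ⊔ zpowers a ≤ H := sup_le (fun x hx => by
    show ⁅x, a⁆ = 1
    rw [commutatorElement_eq_one_iff_mul_comm, mem_center_iff.1 hx]) (zpowers_le.2 (by
      show ⁅a, a⁆ = 1
      simp))
  have hA2 : (center S ⊔ zpowers a).subgroupOf H ≤ center H := by
    rw [← map_le_map_iff_of_injective H.subtype_injective, subgroupOf_map_subtype, inf_eq_left.2 hA]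
    refine sup_le (fun x hx => ⟨⟨x, hA (mem_sup_left hx)⟩, mem_center_iff.2 fun y =>
      Subtype.ext (mem_center_iff.1 hx _), rfl⟩) (zpowers_le.2 ⟨⟨a, hA (mem_sup_right
        (mem_zpowers a))⟩, mem_center_iff.2 fun y => Subtype.ext
          (commutatorElement_eq_one_iff_mul_comm.1 y.2), rfl⟩)
  have := ih _ (by
    rw [← hn, ← H.index_mul_card, hidx]
    exact lt_mul_of_one_lt_left Nat.card_pos hp.out.one_lt) H rfl (hS.to_subgroup H) _
    (mem_center_iff.2 fun y => Subtype.ext (mem_center_iff.1 (pow_mem hz _) _)) hzH'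
  rw [orderOf_mk, hidx] at this
  have h7 : orderOf z = p * orderOf (z ^ p) := by
    obtain ⟨k, hk⟩ := (IsPGroup.iff_orderOf.1 hS) z
    have : p ∣ orderOf z := by
      rw [hk]; refine dvd_pow_self p ?_
      rintro rfl; exact h1 (orderOf_eq_one_iff.1 hk)
    rw [orderOf_pow_of_dvd hp.out.ne_zero this, Nat.mul_div_cancel' this]
  have h8 : p ∣ (center S).relIndex (center S ⊔ zpowers a) := by
    obtain ⟨k, hk⟩ := (hS.to_subgroup (center S ⊔ zpowers a)).index
      ((center S).subgroupOf (center S ⊔ zpowers a))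
    rw [relIndex, hk]; refine dvd_pow_self p ?_
    rintro rfl
    exact ha4 (relIndex_eq_one.1 hk (mem_sup_right (mem_zpowers a)))
  rw [h7, ← relIndex_mul_index (le_sup_left : center S ≤ center S ⊔ zpowers a),
    ← relIndex_mul_index hA, hidx, mul_pow, sq p, mul_assoc, mul_comm p (orderOf _ ^ 2)]
  exact mul_dvd_mul h8 (mul_dvd_mul_right (this.trans (index_dvd_of_le hA2)) _)

theorem exp_sq_dvd {Q : Type u} [Group Q] [Finite Q] {A : Type*} [CommGroup A]
    (hA : HasSchurMultiplier Q A) : Monoid.exponent A ^ 2 ∣ Nat.card Q := by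
  obtain ⟨Γ, _, _, σ, h1, ⟨e⟩⟩ := hA.1
  have : Finite A := Finite.of_equiv _ e.toEquiv
  obtain ⟨a, ha⟩ := Monoid.exists_orderOf_eq_exponent (G := A) Monoid.ExponentExists.of_finite
  have he : Monoid.exponent A ≠ 0 := Monoid.exponent_ne_zero_of_finite
  rw [← Nat.factorization_prime_le_iff_dvd (pow_ne_zero 2 he) Nat.card_pos.ne']
  intro p hp
  have := Fact.mk hp
  rw [← hp.pow_dvd_iff_le_factorization Nat.card_pos.ne', Nat.factorization_pow, Finsupp.smul_apply,
    smul_eq_mul, mul_comm, pow_mul]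
  set v := (Monoid.exponent A).factorization p
  let z : σ.ker := e.symm (a ^ (Monoid.exponent A / p ^ v))
  have hz : orderOf (z : Γ) = p ^ v := by
    rw [orderOf_coe, MulEquiv.orderOf_eq, ← ha]
    exact orderOf_pow_orderOf_div (ha ▸ he) (ha ▸ Nat.ordProj_dvd _ _)
  obtain ⟨S⟩ : Nonempty (Sylow p Γ) := inferInstance
  obtain ⟨h2, h3⟩ := mem_comm_sub (H0.central_mem_commutator (S : Subgroup Γ) (h1.2.1 z.2)
    (h1.2.2 z.2) (pow_orderOf_eq_one _) (by
      rw [hz]; exact ((hp.coprime_iff_not_dvd.2 S.not_dvd_index).symm).pow_right _))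
  have := sq_ord_dvd _ S rfl S.isPGroup' _
    (mem_center_iff.2 fun y => Subtype.ext (mem_center_iff.1 (h1.2.1 z.2) _)) h3
  rw [orderOf_mk, hz] at this
  refine this.trans ((index_dvd_of_le (H := σ.ker.subgroupOf S) fun x hx =>
    mem_center_iff.2 fun y => Subtype.ext (mem_center_iff.1 (h1.2.1 hx) _)).trans ?_)
  refine (relIndex_dvd_index_of_normal σ.ker S).trans ?_
  rw [index_ker]; exact card_subgroup_dvd_card _

theorem rank_MM (n : ℕ) (rels : Finset (FreeGroup (Fin n)))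
    [Finite (PresentedGroup (rels : Set (FreeGroup (Fin n))))] :
    Group.rank (MM (PresentedGroup.mk (rels : Set (FreeGroup (Fin n))))) ≤ rels.card - n := by
  classical
  set π := PresentedGroup.mk (rels : Set (FreeGroup (Fin n)))
  have hr : ∀ r : rels, ((r : FreeGroup (Fin n)) : EE π) ∈ (pe π).ker := fun r =>
    PresentedGroup.one_of_mem r.2
  let ψ : (rels → ℤ) →ₗ[ℤ] Additive (pe π).ker :=
    Fintype.linearCombination ℤ fun r => Additive.ofMul ⟨_, hr r⟩
  have hψ : Function.Surjective ψ := by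
    let K := (AddSubgroup.toSubgroup' ψ.range.toAddSubgroup).map (pe π).ker.subtype
    have : K.Normal := normal_of_le_ctr ((map_subtype_le _).trans (pe_central π))
    have h1 : normalClosure (rels : Set (FreeGroup (Fin n))) ≤ K.comap (QuotientGroup.mk' _) :=
      normalClosure_le_normal fun r hr' => ⟨⟨_, hr ⟨r, hr'⟩⟩, ⟨Pi.single ⟨r, hr'⟩ 1, by
        simp [ψ]; rfl⟩, rfl⟩
    intro x
    obtain ⟨x, hx⟩ := x
    induction x using QuotientGroup.induction_on with | H x => ?_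
    obtain ⟨y, ⟨c, hc⟩, hy⟩ := h1 (PresentedGroup.mk_eq_one_iff.1 hx)
    exact ⟨c, hc.trans (Subtype.ext hy)⟩
  let φ : Additive (pe π).ker →ₗ[ℤ] FreeAbelianGroup (Fin n) :=
    (MonoidHom.toAdditive ((abE π).comp (pe π).ker.subtype)).toIntLinearMap
  have hφ : ∀ k, φ k = 0 ↔ ((k.toMul : (pe π).ker) : EE π) ∈ commutator _ := fun k => by
    rw [← abE_ker]; rfl
  have h1 := Submodule.finrank_quotient_add_finrank (φ ∘ₗ ψ).ker
  rw [(φ ∘ₗ ψ).quotKerEquivRange.finrank_eq] at h1
  have h2 : n ≤ Module.finrank ℤ (φ ∘ₗ ψ).range := by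
    set N := Nat.card (PresentedGroup (rels : Set (FreeGroup (Fin n))))
    have h3 : ∀ x : FreeAbelianGroup (Fin n), ((N : ℤ) • LinearMap.id (R := ℤ)) x ∈ (φ ∘ₗ ψ).range := by
      intro x
      obtain ⟨f, hf⟩ := QuotientGroup.mk_surjective
        (Additive.toMul x : FreeGroup (Fin n) ⧸ commutator _)
      obtain ⟨c, hc⟩ := hψ (Additive.ofMul ⟨((f ^ N : FreeGroup (Fin n)) : EE π), by
        show π (f ^ N) = 1
        rw [map_pow]; exact pow_card_eq_one'⟩)
      refine ⟨c, ?_⟩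
      rw [LinearMap.comp_apply, hc, LinearMap.smul_apply, LinearMap.id_apply, natCast_zsmul]
      show Additive.ofMul (Abelianization.of (f ^ N)) = _
      rw [map_pow, show Abelianization.of f = _ from hf]; rfl
    have := LinearMap.finrank_le_finrank_of_injective (f := LinearMap.codRestrict _ _ h3)
      (fun x y hxy => smul_right_injective _ (Int.natCast_ne_zero.2 Nat.card_pos.ne')
        (congrArg Subtype.val hxy))
    rwa [Module.finrank_eq_card_basis (FreeAbelianGroup.basis _), Fintype.card_fin] at this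
  rw [Module.finrank_fintype_fun_eq_card, Fintype.card_coe] at h1
  let b := Module.finBasis ℤ (φ ∘ₗ ψ).ker
  let g : (φ ∘ₗ ψ).ker → MM π := fun w => ⟨(ψ w).toMul, (ψ w).toMul.2, (hφ _).1 w.2⟩
  refine (Group.rank_le (S := Finset.univ.image (g ∘ b)) ?_).trans
    (Finset.card_image_le.trans (by simp; omega))
  rw [eq_top_iff]
  rintro m -
  obtain ⟨c, hc⟩ := hψ (Additive.ofMul ⟨m, m.2.1⟩)
  have : m = g ⟨c, by rw [LinearMap.mem_ker, LinearMap.comp_apply, hc, hφ]; exact m.2.2⟩ :=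
    Subtype.ext (by simp [g, hc])
  rw [this]
  generalize (⟨c, _⟩ : (φ ∘ₗ ψ).ker) = w
  have hw : w ∈ Submodule.span ℤ (Set.range b) := by rw [b.span_eq]; trivial
  induction hw using Submodule.span_induction with
  | mem x hx => obtain ⟨i, rfl⟩ := hx; exact subset_closure (by simp)
  | zero => rw [show g 0 = 1 from Subtype.ext (by simp [g])]; exact one_mem _
  | add x y _ _ hx hy =>
    rw [show g (x + y) = g x * g y from Subtype.ext (by simp [g])]; exact mul_mem hx hy
  | smul a x _ hx =>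
    rw [show g (a • x) = g x ^ a from Subtype.ext (by
      simp only [g, Submodule.coe_smul, map_zsmul]; rfl)]
    exact zpow_mem hx a

theorem pow_extend {E S D : Type*} [Group E] [Group S] [CommGroup D] (i : S →* E) (θ : S →* D)
    (h : ∀ s, i s ∈ commutator E → θ s = 1) {N e : ℕ}
    (hN : ∀ x, ∃ s, Abelianization.of (i s) = Abelianization.of x ^ N) (he : ∀ d : D, (d ^ N) ^ e = d) :
    ∃ l : E →* D, ∀ s, l (i s) = θ s := by
  let j : S →* Abelianization E := Abelianization.of.comp i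
  obtain ⟨θ', hθ'⟩ := exists_factor j.rangeRestrict_surjective θ fun s hs => h s (by
      rw [MonoidHom.ker_rangeRestrict] at hs
      rw [← Abelianization.ker_of]; exact hs)
  let P : E →* j.range := ((powMonoidHom N).comp Abelianization.of).codRestrict _ hN
  refine ⟨(powMonoidHom e).comp (θ'.comp P), fun s => ?_⟩
  have : P (i s) = j.rangeRestrict s ^ N := rfl
  simp [this, hθ', he]

theorem cover_hom {Q : Type u} [Group Q] [Finite Q]
    (hc : (Nat.card (Abelianization Q)).Coprime (Nat.card (MM (pr Q)))) {Γ₁ Γ₂ : Type*} [Group Γ₁]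
    [Group Γ₂] {σ₁ : Γ₁ →* Q} {σ₂ : Γ₂ →* Q} (h₁ : IsStemExtension σ₁) (h₂ : IsStemExtension σ₂)
    (c₁ : Nat.card σ₁.ker = Nat.card (MM (pr Q))) :
    ∃ k : Γ₁ →* Γ₂, ∀ x, σ₂ (k x) = σ₁ x := by
  obtain ⟨β₁, b₁⟩ := lift_ex' (pr Q) h₁.1 h₁.2.1
  obtain ⟨β₂, b₂⟩ := lift_ex' (pr Q) h₂.1 h₂.2.1
  obtain ⟨f, hf, -⟩ := surj_MM (pr_surj Q) h₂ b₂
  letI : CommGroup σ₂.ker := { (inferInstance : Group σ₂.ker) with
    mul_comm := fun a b => Subtype.ext (mem_center_iff.1 (h₂.2.1 b.2) a) }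
  have hi := cover_inj h₁ c₁ b₁
  have hk : ∀ s : β₁.ker, β₂ s ∈ σ₂.ker := fun s => by
    rw [MonoidHom.mem_ker, b₂, ← b₁, show β₁ s = 1 from s.2, map_one]
  obtain ⟨e, he⟩ : ∃ e, ∀ d : σ₂.ker, (d ^ Nat.card (Abelianization Q)) ^ e = d := by
    refine ⟨Nat.card (Abelianization Q) ^ (Nat.totient (Nat.card (MM (pr Q))) - 1), fun d => ?_⟩
    obtain ⟨m, rfl⟩ := hf d
    rw [← map_pow, ← map_pow, ← pow_mul, ← pow_succ', Nat.sub_add_cancel
      (Nat.totient_pos.2 Nat.card_pos)]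
    congr 1
    conv_rhs => rw [← pow_one m]
    exact pow_eq_pow_iff_modEq.2 ((Nat.ModEq.pow_totient hc).of_dvd (orderOf_dvd_natCard m))
  obtain ⟨l, hl⟩ := pow_extend β₁.ker.subtype ((β₂.comp β₁.ker.subtype).codRestrict _ hk)
    (fun s hs => by
      have : (s : EE (pr Q)) ∈ (⊥ : Subgroup _) := hi ▸ ⟨s.2, hs⟩
      rw [show s = 1 from Subtype.ext this, map_one]) (N := Nat.card (Abelianization Q)) (fun x => by
      have h3 : σ₁ (β₁ x ^ Nat.card (Abelianization Q)) ∈ commutator Q := by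
        rw [← Abelianization.ker_of, MonoidHom.mem_ker, map_pow, map_pow]; exact pow_card_eq_one'
      rw [← map_comm_eq (ξ := MonoidHom.id Q) (by simp) (η := σ₁) (fun x => h₁.1 x)] at h3
      obtain ⟨y, hy, hy2⟩ := h3
      have h4 : β₁ x ^ Nat.card (Abelianization Q) ∈ commutator Γ₁ := by
        have := mul_mem hy (h₁.2.2 (show y⁻¹ * β₁ x ^ Nat.card (Abelianization Q) ∈ σ₁.ker by
          rw [MonoidHom.mem_ker, map_mul, map_inv, hy2, inv_mul_cancel]))
        simpa using this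
      rw [← map_comm_eq (ξ := MonoidHom.id Γ₁) (by simp) (η := β₁)
        (fun x => lift_surj (pr_surj Q) h₁ b₁ x)] at h4
      obtain ⟨w, hw, hw2⟩ := h4
      refine ⟨⟨w⁻¹ * x ^ Nat.card (Abelianization Q), by simp [hw2]⟩, ?_⟩
      have : Abelianization.of w = 1 := Abelianization.commutator_subset_ker _ hw
      simp [this]) he
  let η' : EE (pr Q) →* Γ₂ := MonoidHom.mk' (fun e => β₂ e * (l e : Γ₂)⁻¹) (fun a b => by
    rw [map_mul, map_mul, coe_mul, mul_inv_rev]
    have := mem_center_iff.1 (inv_mem (h₂.2.1 (l a).2))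
    calc β₂ a * β₂ b * ((l b : Γ₂)⁻¹ * (l a : Γ₂)⁻¹)
        = β₂ a * ((β₂ b * (l b : Γ₂)⁻¹) * (l a : Γ₂)⁻¹) := by group
      _ = _ := by rw [this]; group)
  obtain ⟨k, hk⟩ := exists_factor (lift_surj (pr_surj Q) h₁ b₁) η' fun s hs => by
    have := congrArg Subtype.val (hl ⟨s, hs⟩)
    show β₂ s * (l s : Γ₂)⁻¹ = 1
    rw [mul_inv_eq_one]; exact this.symm
  refine ⟨k, fun x => ?_⟩
  obtain ⟨e, rfl⟩ := lift_surj (pr_surj Q) h₁ b₁ x
  rw [hk]
  show σ₂ (β₂ e * (l e : Γ₂)⁻¹) = _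
  rw [map_mul, map_inv, b₁, b₂, show σ₂ (l e) = 1 from (l e).2]; simp

theorem exists_two_covers {Q : Type u} [Group Q] [Finite Q] {p : ℕ} (hp : p.Prime)
    (p1 : p ∣ Nat.card (Abelianization Q)) (p2 : p ∣ Nat.card (MM (pr Q))) :
    ∃ (Γ₁ Γ₂ : Type u) (_ : Group Γ₁) (_ : Finite Γ₁) (_ : Group Γ₂) (_ : Finite Γ₂) (σ₁ : Γ₁ →* Q)
      (σ₂ : Γ₂ →* Q), IsStemExtension σ₁ ∧ IsStemExtension σ₂ ∧ Nonempty (σ₁.ker ≃* MM (pr Q)) ∧
      Nonempty (σ₂.ker ≃* MM (pr Q)) ∧ ∀ e : Γ₁ →* Γ₂, σ₂.comp e ≠ σ₁ := by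
  have := Fact.mk hp
  obtain ⟨a, ha⟩ : ∃ a : MM (pr Q), ∀ b, b ^ p ≠ a := by
    by_contra h
    push Not at h
    obtain ⟨x, hx⟩ := exists_prime_orderOf_dvd_card' p p2
    have := Finite.injective_iff_surjective.2 (show Function.Surjective (· ^ p : MM (pr Q) → _) from h)
      (show x ^ p = 1 ^ p by rw [one_pow, ← hx, pow_orderOf_eq_one])
    rw [this, orderOf_one] at hx; exact hp.ne_one hx.symm
  set N := Monoid.exponent (Abelianization Q)
  have hN : N ≠ 0 := Monoid.exponent_ne_zero_of_finite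
  have pN : p ∣ N := by
    obtain ⟨x, hx⟩ := exists_prime_orderOf_dvd_card' p p1
    exact hx ▸ Monoid.order_dvd_exponent x
  obtain ⟨y, hy⟩ := Monoid.exists_orderOf_eq_exponent (G := Abelianization Q)
    Monoid.ExponentExists.of_finite
  obtain ⟨y, rfl⟩ : ∃ x, Abelianization.of x = y := QuotientGroup.mk_surjective y
  have : NeZero N := ⟨hN⟩
  obtain ⟨ζ', hζ'⟩ := HasEnoughRootsOfUnity.exists_primitiveRoot ℂ N
  have hζ := hζ'.isUnit_unit hN
  set ζ := (hζ'.isUnit hN).unit
  obtain ⟨ψ, hψ⟩ := div_extend (D := ℂˣ) (fun a k hk => by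
    obtain ⟨b, hb⟩ := IsAlgClosed.exists_pow_nat_eq (a : ℂ) (Nat.pos_of_ne_zero hk)
    have hb0 : b ≠ 0 := by rintro rfl; rw [zero_pow hk] at hb; exact a.ne_zero hb.symm
    exact ⟨Units.mk0 b hb0, by ext; simp [hb]⟩) (zpowersHom Q y) (zpowersHom _ ζ) fun s hs => by
      rw [← Abelianization.ker_of, MonoidHom.mem_ker, zpowersHom_apply, map_zpow,
        ← orderOf_dvd_iff_zpow_eq_one, hy] at hs
      exact (hζ.zpow_eq_one_iff_dvd _).2 hs
  have hψy : ψ y = ζ := by simpa using hψ (Multiplicative.ofAdd 1)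
  obtain ⟨χ, hχ⟩ := lift_ex (π := pr Q) ψ (zpowersHom _ ζ) (fun q => by
    have : ψ q ^ N = 1 := by
      rw [← Abelianization.lift_apply_of ψ, ← map_pow, Monoid.pow_exponent_eq_one, map_one]
    obtain ⟨i, -, hi⟩ := hζ.eq_pow_of_mem_rootsOfUnity ((mem_rootsOfUnity _ _).2 this)
    exact ⟨Multiplicative.ofAdd i, by simpa using hi⟩) (by rw [CommGroup.center_eq_top]; exact le_top)
  have hd : ∀ x ∈ (pe (pr Q)).ker, (N : ℤ) ∣ (χ x).toAdd := fun x hx => by
    have := hχ x
    rw [show pe _ x = 1 from hx, map_one] at this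
    exact (hζ.zpow_eq_one_iff_dvd _).1 this
  obtain ⟨S, s1, s2, s3⟩ := exists_compl (pe (pr Q)).ker le_rfl
  have hz := pe_central (pr Q)
  let θ : S →* EE (pr Q) := MonoidHom.mk' (fun s => s * (a : EE (pr Q)) ^ ((χ s).toAdd / N))
    fun s t => by
      rw [coe_mul, map_mul, toAdd_mul, Int.add_ediv_of_dvd_left (hd _ (s1 s.2)), zpow_add, mul_assoc,
        mul_assoc, ← mul_assoc (t : EE (pr Q)), ← mem_center_iff.1 (hz (s1 t.2)), mul_assoc]
  have a1 : (a : EE (pr Q)) ∈ (pe (pr Q)).ker := a.2.1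
  have a2 : (a : EE (pr Q)) ∈ commutator _ := a.2.2
  have hθ : ∀ s : S, θ s = s * (a : EE (pr Q)) ^ ((χ s).toAdd / N) := fun s => rfl
  have t1 : θ.range ≤ (pe (pr Q)).ker := by
    rintro _ ⟨s, rfl⟩; exact mul_mem (s1 s.2) (zpow_mem a1 _)
  have t2 : θ.range ⊓ commutator _ = ⊥ := by
    rw [eq_bot_iff]
    rintro _ ⟨⟨s, rfl⟩, hs⟩
    have : (s : EE (pr Q)) ∈ (⊥ : Subgroup _) := s2 ▸ mem_inf.2 ⟨s.2, by
      have := mul_mem (show θ s ∈ commutator _ from hs) (inv_mem (zpow_mem a2 ((χ s).toAdd / N)))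
      rwa [hθ, mul_inv_cancel_right] at this⟩
    rw [show s = 1 from Subtype.ext this, map_one]; exact one_mem _
  have t3 : (pe (pr Q)).ker ≤ θ.range ⊔ MM _ := s3.trans (sup_le (fun s hs => by
    have := mul_mem (mem_sup_left (T := MM (pr Q)) (show θ ⟨s, hs⟩ ∈ θ.range from ⟨_, rfl⟩))
      (mem_sup_right (inv_mem (zpow_mem a.2 ((χ s).toAdd / N))))
    rwa [hθ, mul_inv_cancel_right] at this) le_sup_right)
  have : S.Normal := normal_of_le_ctr (s1.trans hz)
  have : θ.range.Normal := normal_of_le_ctr (t1.trans hz)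
  obtain ⟨f1, g1, e1⟩ := cover_of (pr_surj Q) s1 s2 s3
  obtain ⟨f2, g2, e2⟩ := cover_of (pr_surj Q) t1 t2 t3
  refine ⟨_, _, _, f1, _, f2, _, _, g1, g2, e1, e2, fun e he => ?_⟩
  have he' : ∀ x : EE (pr Q), QuotientGroup.lift _ (pe (pr Q)) t1 (e (x : _ ⧸ S)) = pe _ x :=
    fun x => DFunLike.congr_fun he (x : _ ⧸ S)
  obtain ⟨Y, hY⟩ := pe_surj (pr_surj Q) y
  obtain ⟨b, hb, hb2⟩ : ((Y : _ ⧸ θ.range)⁻¹ * e (Y : _ ⧸ S)) ∈ (MM (pr Q)).map
      (QuotientGroup.mk' θ.range) := by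
    rw [map_MM (pr_surj Q) g2.2.1 (fun e => rfl), inf_eq_left.2 g2.2.2, MonoidHom.mem_ker, map_mul,
      map_inv, he']; exact inv_mul_cancel _
  obtain ⟨s, hs, c, hc, hsc⟩ : ∃ s ∈ S, ∃ c ∈ commutator _, s * c = Y ^ N := by
    have h3 : pe _ (Y ^ N) ∈ commutator Q := by
      rw [← Abelianization.ker_of, MonoidHom.mem_ker, map_pow, map_pow]
      exact Monoid.pow_exponent_eq_one _
    rw [← map_comm_eq (ξ := MonoidHom.id Q) (by simp) (η := pe (pr Q))
      (fun x => pe_surj (pr_surj Q) x)] at h3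
    obtain ⟨w, hw, hw2⟩ := h3
    have h4 := s3 (show Y ^ N * w⁻¹ ∈ (pe (pr Q)).ker by
      rw [MonoidHom.mem_ker, map_mul, map_inv, hw2, mul_inv_cancel])
    rw [← SetLike.mem_coe, normal_mul] at h4
    obtain ⟨s, hs, m, hm, h5⟩ := h4
    exact ⟨s, hs, m * w, mul_mem hm.2 hw, by rw [← mul_assoc, show s * m = _ from h5]; simp⟩
  have h5 : e (c : _ ⧸ S) = (c : _ ⧸ θ.range) :=
    lift_uniq g2.2.1 (η₁ := e.comp (QuotientGroup.mk' S)) (η₂ := QuotientGroup.mk' _) he' hc
  have h6 : e (Y : _ ⧸ S) = ((Y * b : EE (pr Q)) : _ ⧸ θ.range) := by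
    rw [QuotientGroup.mk_mul, show ((b : EE (pr Q)) : _ ⧸ θ.range) = _ from hb2]; simp
  have h7 := congrArg (· ^ N) h6
  simp only [← map_pow, ← QuotientGroup.mk_pow] at h7
  rw [(show Commute Y b from mem_center_iff.1 (hz hb.1) Y).mul_pow, ← hsc, QuotientGroup.mk_mul,
    (QuotientGroup.eq_one_iff s).2 hs, one_mul, h5, QuotientGroup.eq,
    ← mem_center_iff.1 (hz (s1 hs)) c, ← mul_assoc, inv_mul_cancel_left] at h7
  obtain ⟨s', hs'⟩ := h7
  rw [hθ] at hs'
  have h8 : s⁻¹ * s' = b ^ N * ((a : EE (pr Q)) ^ ((χ s').toAdd / N))⁻¹ := by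
    rw [eq_mul_inv_iff_mul_eq, mul_assoc, hs']; simp
  have h9 : s⁻¹ * s' ∈ (⊥ : Subgroup _) := s2 ▸ mem_inf.2 ⟨mul_mem (inv_mem hs) s'.2, by
    rw [h8]; exact mul_mem (pow_mem (mem_MM.1 hb).2 _) (inv_mem (zpow_mem a2 _))⟩
  rw [mem_bot] at h9
  rw [h9, eq_comm, mul_inv_eq_one, ← inv_mul_eq_one.1 h9] at h8
  have h10 : (χ s).toAdd / N = (χ Y).toAdd := by
    have := congrArg χ hsc
    rw [map_mul, show χ c = 1 from Abelianization.commutator_subset_ker _ hc, mul_one] at this
    rw [this, map_pow, toAdd_pow, nsmul_eq_mul, Int.mul_ediv_cancel_left _ (by exact_mod_cast hN)]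
  have h11 : (N : ℤ) ∣ (χ Y).toAdd - 1 := by
    have := hχ Y
    rw [hY, hψy, zpowersHom_apply] at this
    rw [← hζ.zpow_eq_one_iff_dvd, zpow_sub_one, this, mul_inv_cancel]
  obtain ⟨k, hk⟩ := h11
  obtain ⟨j, hj⟩ := pN
  apply ha ((⟨b, hb⟩ * a ^ (-k)) ^ j)
  rw [← pow_mul, mul_comm j, ← hj, mul_pow, show (⟨b, hb⟩ : MM (pr Q)) ^ N = a ^ (χ Y).toAdd from
    Subtype.ext (by rw [← h10]; exact h8), ← zpow_natCast, ← zpow_mul, ← zpow_add]
  rw [show (χ Y).toAdd + -k * N = 1 by linarith, zpow_one]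

end H1B
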