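import Cfsg.Agent.H1.Schur3
import Mathlib.GroupTheory.SpecificGroups.Quaternion

/-! Schur multipliers: models for dihedral and metacyclic groups. -/

set_option linter.unusedSectionVars false

namespace H1B
open Subgroup Cfsg
open scoped commutatorElement IsMulCommutative

section QD
open QuaternionGroup DihedralGroup

def quatDih (n : ℕ) : QuaternionGroup n →* DihedralGroup n := MonoidHom.mk'
  (fun x => match x with
    | .a i => .r (ZMod.castHom (dvd_mul_left n 2) (ZMod n) i)
    | .xa i => .sr (ZMod.castHom (dvd_mul_left n 2) (ZMod n) i)) (by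
  rintro (i | i) (j | j) <;> simp only [a_mul_a, a_mul_xa, xa_mul_a, xa_mul_xa, r_mul_r, r_mul_sr,
    sr_mul_r, sr_mul_sr, map_add, map_sub, map_natCast, ZMod.natCast_self, zero_add])

theorem quatDih_ker {n : ℕ} [NeZero n] {x : QuaternionGroup n} :
    x ∈ (quatDih n).ker ↔ x = 1 ∨ x = .a n := by
  rcases x with i | i
  · rw [MonoidHom.mem_ker]
    show DihedralGroup.r (ZMod.castHom (dvd_mul_left n 2) (ZMod n) i) = .r 0 ↔ _ = QuaternionGroup.a 0 ∨ _
    simp only [DihedralGroup.r.injEq, QuaternionGroup.a.injEq]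
    constructor
    · intro h
      have : NeZero (2 * n) := ⟨by have := NeZero.ne n; omega⟩
      obtain ⟨k, hk, rfl⟩ : ∃ k, k < 2 * n ∧ (k : ZMod (2 * n)) = i := ⟨i.val, i.val_lt, by simp⟩
      rw [map_natCast, ZMod.natCast_eq_zero_iff] at h
      obtain ⟨c, rfl⟩ := h
      have : c < 2 := by rw [mul_comm 2] at hk; exact lt_of_mul_lt_mul_left hk (Nat.zero_le _)
      interval_cases c <;> simp
    · rintro (rfl | rfl)
      · exact map_zero _
      · rw [map_natCast, ZMod.natCast_self]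
  · rw [MonoidHom.mem_ker]
    show DihedralGroup.sr _ = .r 0 ↔ _ = QuaternionGroup.a 0 ∨ _
    simp only [reduceCtorEq, or_self]

theorem quatDih_surj (n : ℕ) : Function.Surjective (quatDih n) := by
  rintro (i | i) <;> obtain ⟨j, rfl⟩ := ZMod.castHom_surjective (dvd_mul_left n 2) i
  exacts [⟨.a j, rfl⟩, ⟨.xa j, rfl⟩]

theorem quat_nn (n : ℕ) : (n : ZMod (2 * n)) + n = 0 := by
  rw [← Nat.cast_add, ← two_mul, ZMod.natCast_self]

theorem quatDih_central (n : ℕ) [NeZero n] : (quatDih n).ker ≤ center _ := fun x hx => by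
  rcases quatDih_ker.1 hx with rfl | rfl
  · exact one_mem _
  · rw [mem_center_iff]
    rintro (i | i)
    · simp [add_comm]
    · simp only [xa_mul_a, a_mul_xa, xa.injEq]
      linear_combination quat_nn n

theorem quat_conj (n : ℕ) : (xa 0 : QuaternionGroup n) * (a 1 : QuaternionGroup n) *
    (xa 0 : QuaternionGroup n)⁻¹ = (a 1 : QuaternionGroup n) ^ (-1 : ℤ) := by
  rw [zpow_neg_one, mul_inv_eq_iff_eq_mul, eq_inv_mul_iff_mul_eq]; simp

theorem quat_gen (n : ℕ) [NeZero n] : closure {(a 1 : QuaternionGroup n), xa 0} = ⊤ := by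
  have : NeZero (2 * n) := ⟨by have := NeZero.ne n; omega⟩
  have h : ∀ i, a i ∈ closure {(a 1 : QuaternionGroup n), xa 0} := fun i => by
    have := pow_mem (subset_closure (by simp) : a 1 ∈ closure {(a 1 : QuaternionGroup n), xa 0}) i.val
    simpa using this
  rw [eq_top_iff]
  rintro (i | i) -
  · exact h i
  · have := mul_mem (subset_closure (by simp) : xa 0 ∈ closure {(a 1 : QuaternionGroup n), xa 0}) (h i)
    simpa using this

theorem quat_ord (n : ℕ) [NeZero n] : orderOf ((a 1 : QuaternionGroup n) ^ (-1 - 1 : ℤ)) = n := by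
  rw [show (-1 - 1 : ℤ) = -(2 : ℕ) by norm_num, zpow_neg, orderOf_inv, zpow_natCast, orderOf_pow,
    orderOf_a_one]; simp

theorem quat_comm (n : ℕ) : ⁅(xa 0 : QuaternionGroup n), (a 1 : QuaternionGroup n)⁆ =
    (a 1 : QuaternionGroup n) ^ (-1 - 1 : ℤ) := by
  rw [commutatorElement_def, quat_conj, zpow_sub_one]

theorem dih_conj_sch (n : ℕ) : (sr 0 : DihedralGroup n) * (r 1 : DihedralGroup n) *
    (sr 0 : DihedralGroup n)⁻¹ = (r 1 : DihedralGroup n) ^ (-1 : ℤ) := by
  simp

theorem dih_gen (n : ℕ) [NeZero n] : closure {(r 1 : DihedralGroup n), sr 0} = ⊤ := by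
  have h : ∀ i, r i ∈ closure {(r 1 : DihedralGroup n), sr 0} := fun i => by
    have := pow_mem (subset_closure (by simp) : r 1 ∈ closure {(r 1 : DihedralGroup n), sr 0}) i.val
    simpa using this
  rw [eq_top_iff]
  rintro (i | i) -
  · exact h i
  · have := mul_mem (subset_closure (by simp) : sr 0 ∈ closure {(r 1 : DihedralGroup n), sr 0}) (h i)
    simpa using this

theorem dih_ord (n : ℕ) [NeZero n] :
    orderOf ((r 1 : DihedralGroup n) ^ (-1 - 1 : ℤ)) = n / Nat.gcd n 2 := by
  rw [show (-1 - 1 : ℤ) = -(2 : ℕ) by norm_num, zpow_neg, orderOf_inv, zpow_natCast, orderOf_pow,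
    orderOf_r_one]

end QD

section SD
open SemidirectProduct
variable {N : Type*} [CommGroup N] (φ : MulAut N)

abbrev ZX := N ⋊[zpowersHom _ φ] Multiplicative ℤ

def zB : ZX φ := inr (Multiplicative.ofAdd 1)

theorem zB_conj (x : N) : zB φ * inl x * (zB φ)⁻¹ = inl (φ x) := by
  rw [zB, ← map_inv, ← inl_aut]; simp

theorem zX_central {w : ZX φ} (h1 : ∀ x, inl x * w = w * inl x) (h2 : zB φ * w = w * zB φ) :
    w ∈ center _ := by
  rw [mem_center_iff]; intro g
  have h3 : inr g.right ∈ centralizer {w} := by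
    have := zpow_mem (mem_centralizer_singleton_iff.2 h2) g.right.toAdd
    rwa [zB, ← map_zpow, ← ofAdd_zsmul, smul_eq_mul, mul_one] at this
  rw [← inl_left_mul_inr_right g]
  exact mem_centralizer_singleton_iff.1 (mul_mem (mem_centralizer_singleton_iff.2 (h1 _)) h3)

theorem zX_inl {x : N} (h : φ x = x) : (inl x : ZX φ) ∈ center _ :=
  zX_central φ (fun y => by rw [← map_mul, ← map_mul, mul_comm]) (by
    rw [← mul_inv_eq_iff_eq_mul, zB_conj, h])

theorem zX_pow {n : ℕ} (h : φ ^ n = 1) : zB φ ^ n ∈ center _ :=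
  zX_central φ (fun y => by
    rw [eq_comm, ← mul_inv_eq_iff_eq_mul, zB, ← map_pow, ← map_inv, ← inl_aut]; simp [h])
    (by rw [← pow_succ, ← pow_succ'])

end SD

/-- the automorphism `(i, j) ↦ (i, i + r j)` -/
def shear {g : ℕ} (r : (ZMod g)ˣ) : MulAut (Multiplicative (ℤ × ZMod g)) :=
  AddEquiv.toMultiplicative
    { toFun := fun x => (x.1, x.1 + r * x.2)
      invFun := fun x => (x.1, (r⁻¹ : (ZMod g)ˣ) * (x.2 - x.1))
      left_inv := fun x => by simp
      right_inv := fun x => by simp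
      map_add' := fun x y => by simp; ring }

theorem shear_apply {g : ℕ} (r : (ZMod g)ˣ) (i : ℤ) (j : ZMod g) :
    shear r (Multiplicative.ofAdd (i, j)) = Multiplicative.ofAdd (i, (i : ZMod g) + (r : ZMod g) * j) := rfl

theorem shear_pow {g : ℕ} (r : (ZMod g)ˣ) (n : ℕ) (i : ℤ) (j : ZMod g) :
    (shear r ^ n) (Multiplicative.ofAdd (i, j)) =
      Multiplicative.ofAdd (i, i * ∑ k ∈ Finset.range n, (r : ZMod g) ^ k + (r : ZMod g) ^ n * j) := by
  induction n with
  | zero => simp
  | succ n ih =>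
    rw [pow_succ', MulAut.mul_apply, ih, shear_apply, Finset.sum_range_succ']
    simp_rw [pow_succ' (r : ZMod g)]
    rw [← Finset.mul_sum]; congr 2; ring

def scal {g : ℕ} (r : (ZMod g)ˣ) : MulAut (Multiplicative (ZMod g)) :=
  AddEquiv.toMultiplicative
    { toFun := fun x => r * x
      invFun := fun x => (r⁻¹ : (ZMod g)ˣ) * x
      left_inv := fun x => by simp
      right_inv := fun x => by simp
      map_add' := fun x y => by ring }

theorem scal_apply {g : ℕ} (r : (ZMod g)ˣ) (j : ZMod g) :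
    scal r (Multiplicative.ofAdd j) = Multiplicative.ofAdd (r * j) := rfl

theorem scal_pow {g : ℕ} (r : (ZMod g)ˣ) (n : ℕ) (j : ZMod g) :
    (scal r ^ n) (Multiplicative.ofAdd j) = Multiplicative.ofAdd ((r : ZMod g) ^ n * j) := by
  induction n with
  | zero => simp
  | succ n ih => rw [pow_succ', MulAut.mul_apply, ih, scal_apply, pow_succ', mul_assoc]

theorem exists_unit {g r n : ℕ} (hn : 0 < n) (h : r ^ n ≡ 1 [MOD g]) :
    ∃ u : (ZMod g)ˣ, (u : ZMod g) = r ∧ (r : ZMod g) ^ n = 1 := by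
  have h1 : (r : ZMod g) ^ n = 1 := by
    simpa using (ZMod.natCast_eq_natCast_iff _ _ _).2 h
  exact ⟨Units.ofPowEqOne _ n h1 hn.ne', rfl, h1⟩

abbrev mrels (m n r t : ℕ) : Set (FreeGroup Bool) :=
  {FreeGroup.of true ^ m, (FreeGroup.of false) ^ n * (FreeGroup.of true ^ t)⁻¹,
    FreeGroup.of false * FreeGroup.of true * (FreeGroup.of false)⁻¹ * (FreeGroup.of true ^ r)⁻¹}

theorem mrels_hom {m n r t : ℕ} {Y : Type*} [Group Y] {a b : Y} (h1 : a ^ m = 1) (h2 : b ^ n = a ^ t)
    (h3 : b * a * b⁻¹ = a ^ r) :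
    ∃ f : PresentedGroup (mrels m n r t) →* Y, f (.of true) = a ∧ f (.of false) = b := by
  have h : ∀ w ∈ mrels m n r t, FreeGroup.lift (fun x => if x then a else b) w = 1 := by
    rintro _ (rfl | rfl | rfl) <;> simp [h1, h2, h3]
  exact ⟨PresentedGroup.toGroup h, by simp, by simp⟩

theorem meta_pres {m n r t g k : ℕ} (hm : 0 < m) (hn : 0 < n) (hr : 0 < r) (hrn : r ^ n ≡ 1 [MOD m])
    (ht : m ∣ (r - 1) * t) (hg : g = Nat.gcd (Nat.gcd m (∑ i ∈ Finset.range n, r ^ i)) t)
    (hk : k * (m / Nat.gcd m (r - 1)) = g) :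
    HasCyclicSchurMultiplier (PresentedGroup (mrels m n r t)) k := by
  set a : PresentedGroup (mrels m n r t) := .of true
  set b : PresentedGroup (mrels m n r t) := .of false
  have r1 : a ^ m = 1 := PresentedGroup.one_of_mem (rels := mrels m n r t) (Or.inl rfl)
  have r2 : b ^ n = a ^ t := mul_inv_eq_one.1
    (PresentedGroup.one_of_mem (rels := mrels m n r t) (Or.inr (Or.inl rfl)))
  have r3 : b * a * b⁻¹ = a ^ r := mul_inv_eq_one.1
    (PresentedGroup.one_of_mem (rels := mrels m n r t) (Or.inr (Or.inr rfl)))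
  have hall : ∀ K : Subgroup (PresentedGroup (mrels m n r t)), a ∈ K → b ∈ K → K = ⊤ :=
    fun K h1 h2 => eq_top_iff.2 fun x _ => PresentedGroup.generated_by _ K (by
      rintro (_ | _); exacts [h2, h1]) x
  have fa : IsOfFinOrder a := isOfFinOrder_iff_pow_eq_one.2 ⟨m, hm, r1⟩
  have : Finite (zpowers a) := finite_zpowers.2 fa
  have : (zpowers a).Normal := by
    rw [← normalizer_eq_top_iff]
    refine hall _ (le_normalizer (mem_zpowers a)) (mem_normalizer_fintype ?_)
    rintro _ ⟨j, rfl⟩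
    exact ⟨r * j, by simp only; rw [← conj_zpow, r3, zpow_mul, zpow_natCast]⟩
  have : Finite (PresentedGroup (mrels m n r t) ⧸ zpowers a) := by
    have h1 : zpowers (b : _ ⧸ zpowers a) = ⊤ := by
      have := hall ((zpowers (b : _ ⧸ zpowers a)).comap (QuotientGroup.mk' _))
        (by rw [mem_comap, QuotientGroup.mk'_apply, (QuotientGroup.eq_one_iff a).2 (mem_zpowers a)]
            exact one_mem _) (mem_zpowers _)
      rw [eq_top_iff]; intro x _
      induction x using QuotientGroup.induction_on with | H x => exact this.ge (mem_top x)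
    have h2 : Finite (zpowers (b : _ ⧸ zpowers a)) := finite_zpowers.2
      (isOfFinOrder_iff_pow_eq_one.2 ⟨n, hn, by
        rw [← QuotientGroup.mk_pow, QuotientGroup.eq_one_iff, r2]; exact npow_mem_zpowers a t⟩)
    rw [h1] at h2
    exact Finite.of_equiv _ topEquiv.toEquiv
  have : Finite (PresentedGroup (mrels m n r t)) := by
    have : Finite (QuotientGroup.mk' (zpowers a)).ker := by rwa [QuotientGroup.ker_mk']
    exact finite_of_ker (QuotientGroup.mk' (zpowers a))
  have hr1 : ((r - 1 : ℕ) : ℤ) = r - 1 := by omega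
  have ho : orderOf a = m := by
    refine Nat.dvd_antisymm (orderOf_dvd_of_pow_eq_one r1) ?_
    obtain ⟨u, hu, hu2⟩ := exists_unit hn hrn
    let A : ZX (scal u) := SemidirectProduct.inl (Multiplicative.ofAdd 1)
    have hA : ∀ j : ℕ, A ^ j = SemidirectProduct.inl (Multiplicative.ofAdd (j : ZMod m)) := fun j => by
      rw [← map_pow, ← ofAdd_nsmul]; simp
    have c1 : A ^ t ∈ center _ := by
      rw [hA]; refine zX_inl _ ?_
      rw [scal_apply, hu]; congr 1
      have := (ZMod.natCast_eq_zero_iff _ _).2 ht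
      rw [Nat.cast_mul, Nat.cast_sub hr] at this
      linear_combination this
    have c2 : zB (scal u) ^ n ∈ center _ := zX_pow _ (MulEquiv.ext fun x =>
      (scal_pow u n x.toAdd).trans (by simp [hu, hu2]))
    obtain ⟨y, hy⟩ : ∃ y, y = zB (scal u) ^ n * (A ^ t)⁻¹ := ⟨_, rfl⟩
    have : (zpowers y).Normal :=
      normal_of_le_ctr (zpowers_le.2 (hy ▸ mul_mem c2 (inv_mem c1)))
    let q := QuotientGroup.mk' (zpowers y)
    obtain ⟨f, f1, -⟩ := mrels_hom (m := m) (n := n) (r := r) (t := t) (a := q A) (b := q (zB _))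
      (by rw [← map_pow, hA]; simp) (by
        rw [← mul_inv_eq_one, ← map_pow, ← map_pow, ← map_inv, ← map_mul, ← hy]
        exact (QuotientGroup.eq_one_iff _).2 (mem_zpowers _)) (by
        rw [← map_mul, ← map_inv, ← map_mul, ← map_pow, hA, zB_conj, scal_apply, hu, mul_one])
    have h1 : q (A ^ orderOf a) = 1 := by
      rw [map_pow, ← f1, ← map_pow, pow_orderOf_eq_one, map_one]
    obtain ⟨i, hi⟩ := (QuotientGroup.eq_one_iff _).1 h1
    have h2 := congrArg (fun x => (SemidirectProduct.rightHom x).toAdd) hi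
    simp only [hy, map_zpow, map_mul, map_inv, map_pow, zB, A, SemidirectProduct.rightHom_inr,
      SemidirectProduct.rightHom_inl] at h2
    have h3 : i = 0 := by simpa [hn.ne'] using h2
    rw [h3, hA] at hi
    have := SemidirectProduct.inl_injective (hi.symm.trans ((zpow_zero _).trans (map_one _).symm))
    exact (ZMod.natCast_eq_zero_iff _ _).1 this
  have g1 : g ∣ m := hg ▸ (Nat.gcd_dvd_left _ _).trans (Nat.gcd_dvd_left _ _)
  have g2 : g ∣ ∑ i ∈ Finset.range n, r ^ i := hg ▸ (Nat.gcd_dvd_left _ _).trans (Nat.gcd_dvd_right _ _)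
  have g3 : g ∣ t := hg ▸ Nat.gcd_dvd_right _ _
  obtain ⟨u, hu, hu2⟩ := exists_unit hn (hrn.of_dvd g1)
  let A : ZX (shear u) := SemidirectProduct.inl (Multiplicative.ofAdd (1, 0))
  have hA : ∀ j : ℕ, A ^ j = SemidirectProduct.inl (Multiplicative.ofAdd ((j : ℤ), (0 : ZMod g))) :=
    fun j => by rw [← map_pow, ← ofAdd_nsmul]; simp
  have c1 : ∀ j, g ∣ j → A ^ j ∈ center _ := fun j hj => by
    rw [hA]; refine zX_inl _ ?_
    rw [shear_apply]; simp [(ZMod.natCast_eq_zero_iff _ _).2 hj]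
  have c2 : zB (shear u) ^ n ∈ center _ := zX_pow _ (MulEquiv.ext fun x =>
    (shear_pow u n x.toAdd.1 x.toAdd.2).trans (by
      have := (ZMod.natCast_eq_zero_iff _ _).2 g2
      push_cast at this
      simp [hu, hu2, this]))
  let q := QuotientGroup.mk' (center (ZX (shear u)))
  have hq : ∀ x ∈ center (ZX (shear u)), q x = 1 := fun x hx => (QuotientGroup.eq_one_iff _).2 hx
  obtain ⟨f, f1, f2⟩ := mrels_hom (m := m) (n := n) (r := r) (t := t) (a := q A) (b := q (zB _))
    (by rw [← map_pow, hq _ (c1 m g1)]) (by rw [← map_pow, ← map_pow, hq _ c2, hq _ (c1 t g3)]) (by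
      rw [← map_mul, ← map_inv, ← map_mul, ← map_pow, hA, zB_conj, ← mul_inv_eq_one, ← map_inv,
        ← map_mul, ← map_inv, ← map_mul]
      refine hq _ (zX_inl _ ?_)
      rw [shear_apply, ← ofAdd_neg, ← ofAdd_add, Prod.neg_mk, Prod.mk_add_mk, shear_apply]
      simp [hu])
  refine meta_cyc (a := a) (b := b) (r := r) (hall _ (subset_closure (by simp))
    (subset_closure (by simp))) (by rw [r3, zpow_natCast]) (g := g) (by
      rw [← hr1, zpow_natCast, orderOf_pow, ho, hk]) (fun o h1 h2 => ?_) f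
    (QuotientGroup.mk'_surjective _) (by simp) f1.symm f2.symm ?_
  · rw [hg]
    refine Nat.dvd_gcd (Nat.dvd_gcd ?_ ?_) ?_
    · exact_mod_cast h1 m (by rw [zpow_natCast, r1]; exact one_mem _)
    · exact_mod_cast h2 n (by rw [r2]; exact npow_mem_zpowers a t)
    · exact_mod_cast h1 t (by rw [zpow_natCast, ← r2]; exact npow_mem_zpowers b n)
  · rw [commutatorElement_def, zB_conj, ← map_inv, ← map_mul, shear_apply,
      orderOf_injective _ SemidirectProduct.inl_injective, ← ZMod.natCast_eq_zero_iff]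
    generalize hx : (_ * _ : Multiplicative (ℤ × ZMod g)) = x
    have h1 : x = Multiplicative.ofAdd (0, 1) := by
      rw [← hx, ← ofAdd_neg, ← ofAdd_add]; simp
    have h2 := congrArg (fun y => y.toAdd.2) (pow_orderOf_eq_one x)
    generalize orderOf x = o at h2 ⊢
    simpa [h1] using h2

end H1B
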