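import Cfsg.Agent.H1.TG0
import Cfsg.Agent.H1.Mono

/-! The ternary Golay code: hexads. -/

set_option maxRecDepth 100000

namespace H1B
open Cfsg Finset

namespace TG

theorem wt {x : ArrayPt → ZMod 3} (hx : x ∈ ternaryGolayCode) (h0 : x ≠ 0) :
    (ternarySupport x).card = 6 ∨ (ternarySupport x).card = 9 ∨ (ternarySupport x).card = 12 := by
  rw [← eq_enc hx] at h0 ⊢
  refine (wt_chk _).resolve_left fun h => h0 ?_
  rw [h]; decide +kernel

theorem card_code : Nat.card ternaryGolayCode = 729 := by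
  have := set_eq (fun _ => True)
  simp only [and_true, filter_true] at this
  rw [← SetLike.coe_sort_coe, Nat.card_coe_set_eq]
  exact this.trans (by decide +kernel)

theorem dot {x y : ArrayPt → ZMod 3} (hx : x ∈ ternaryGolayCode) (hy : y ∈ ternaryGolayCode) :
    ∑ p, x p * y p = 0 := by
  rw [← eq_enc hx, ← eq_enc hy]
  generalize inf x = v
  generalize inf y = w
  obtain ⟨a, b, c, d, e, f⟩ := v
  obtain ⟨a', b', c', d', e', f'⟩ := w
  have h3 : (3 : ZMod 3) = 0 := rfl
  rw [Fintype.sum_prod_type, Fin.sum_univ_four]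
  have : ∀ g : ZMod 3 → ZMod 3, ∑ r, g r = g 0 + g 1 + g 2 := fun g => Fin.sum_univ_three g
  simp only [this]
  show a * a' + b * b' + c * c' + (d * d' + e * e' + (a + b + c + 2 * d + 2 * e) * (a' + b' + c' + 2 * d' + 2 * e')) + (f * f' + (2 * b + c + 2 * d + e + f) * (2 * b' + c' + 2 * d' + e' + f') + (a + 2 * b + d + 2 * e + f) * (a' + 2 * b' + d' + 2 * e' + f')) + ((a + 2 * b + 2 * c + 2 * d + 2 * f) * (a' + 2 * b' + 2 * c' + 2 * d' + 2 * f') + (a + c + d + e + 2 * f) * (a' + c' + d' + e' + 2 * f') + (2 * a + 2 * b + c + 2 * e + 2 * f) * (2 * a' + 2 * b' + c' + 2 * e' + 2 * f')) = 0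
  linear_combination (3 * a * a' + 3 * a * b' + 2 * a * c' + 2 * a * d' + 3 * a * e' + 3 * a * f' + 3 * b * a' + 6 * b * b' + 3 * b * c' + 4 * b * d' + 4 * b * e' + 4 * b * f' + 2 * c * a' + 3 * c * b' + 3 * c * c' + 3 * c * d' + 2 * c * e' + 3 * c * f' + 2 * d * a' + 4 * d * b' + 3 * d * c' + 5 * d * d' + 3 * d * e' + 3 * d * f' + 3 * e * a' + 4 * e * b' + 2 * e * c' + 3 * e * d' + 5 * e * e' + 3 * e * f' + 3 * f * a' + 4 * f * b' + 3 * f * c' + 3 * f * d' + 3 * f * e' + 5 * f * f') * h3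

theorem mem_supp {x : ArrayPt → ZMod 3} {p : ArrayPt} : p ∈ ternarySupport x ↔ x p ≠ 0 := by
  simp [ternarySupport]

theorem wt_id (x y : ArrayPt → ZMod 3) :
    (ternarySupport (x + y)).card + (ternarySupport (x - y)).card +
      3 * (ternarySupport x ∩ ternarySupport y).card =
      2 * (ternarySupport x).card + 2 * (ternarySupport y).card := by
  unfold ternarySupport
  rw [← filter_and]
  simp only [card_filter, mul_sum, ← sum_add_distrib]
  refine sum_congr rfl fun p _ => ?_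
  have : ∀ a b : ZMod 3, (((if a + b ≠ 0 then 1 else 0) + if a - b ≠ 0 then 1 else 0) +
      3 * if a ≠ 0 ∧ b ≠ 0 then 1 else 0) =
      (2 * if a ≠ 0 then 1 else 0) + 2 * if b ≠ 0 then 1 else 0 := by decide
  exact this (x p) (y p)

theorem supp_neg (x : ArrayPt → ZMod 3) : ternarySupport (-x) = ternarySupport x := by
  ext p; simp [mem_supp]

theorem pm {x y : ArrayPt → ZMod 3} (hx : x ∈ ternaryGolayCode) (hy : y ∈ ternaryGolayCode)
    (h1 : (ternarySupport x).card = 6) (h2 : (ternarySupport y).card = 6)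
    (h : 5 ≤ (ternarySupport x ∩ ternarySupport y).card) : y = x ∨ y = -x := by
  by_contra hc
  push Not at hc
  have h3 := wt (ternaryGolayCode.add_mem hx hy) fun h => hc.2 (eq_neg_of_add_eq_zero_right h)
  have h4 := wt (ternaryGolayCode.sub_mem hx hy) fun h => hc.1 (sub_eq_zero.1 h).symm
  have := wt_id x y
  omega

/-- the hexads -/
abbrev Hex : Set (Finset ArrayPt) := {h | ∃ x ∈ ternaryGolayCode, ternarySupport x = h ∧ h.card = 6}

theorem hex_uniq {b c : Finset ArrayPt} (hb : b ∈ Hex) (hc : c ∈ Hex) (h : 5 ≤ (b ∩ c).card) :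
    b = c := by
  obtain ⟨x, hx, rfl, h1⟩ := hb
  obtain ⟨y, hy, rfl, h2⟩ := hc
  rcases pm hx hy h1 h2 h with rfl | rfl
  · rfl
  · exact (supp_neg x).symm

theorem card_hex : Hex.ncard = 132 := by
  classical
  let W : Finset (ArrayPt → ZMod 3) :=
    univ.filter fun x => x ∈ ternaryGolayCode ∧ (ternarySupport x).card = 6
  have hW : W.card = 264 := by
    rw [← c6, ← set_eq (fun x => (ternarySupport x).card = 6), ← Set.ncard_coe_finset]
    congr 1
    ext x; simp [W]
  have h1 : Hex = ↑(W.image ternarySupport) := by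
    ext b
    simp only [Set.mem_setOf_eq, coe_image, Set.mem_image, W, coe_filter, mem_univ, true_and]
    exact ⟨by rintro ⟨x, hx, rfl, h⟩; exact ⟨x, ⟨hx, h⟩, rfl⟩,
      by rintro ⟨x, ⟨hx, h⟩, rfl⟩; exact ⟨x, hx, rfl, h⟩⟩
  have h2 : ∀ b ∈ W.image ternarySupport, (W.filter (ternarySupport · = b)).card = 2 := by
    intro b hb
    obtain ⟨x, hx, rfl⟩ := mem_image.1 hb
    simp only [W, mem_filter, mem_univ, true_and] at hx
    have hne : x ≠ -x := by
      intro h
      obtain ⟨p, hp⟩ : (ternarySupport x).Nonempty := card_pos.1 (by omega)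
      have h1 := congrFun h p
      rw [mem_supp] at hp
      simp only [Pi.neg_apply] at h1
      generalize x p = a at hp h1
      revert a; decide
    refine Eq.trans ?_ (card_pair hne)
    congr 1
    ext y
    simp only [W, mem_filter, mem_univ, true_and, mem_insert, mem_singleton]
    constructor
    · rintro ⟨⟨hy, h6⟩, h⟩
      exact pm hx.1 hy hx.2 h6 (by rw [h, inter_self]; omega)
    · rintro (rfl | rfl)
      · exact ⟨hx, rfl⟩
      · exact ⟨⟨ternaryGolayCode.neg_mem hx.1, by rw [supp_neg]; exact hx.2⟩, supp_neg x⟩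
  rw [h1, Set.ncard_coe_finset]
  rw [card_eq_sum_card_image ternarySupport, sum_congr rfl h2, sum_const, smul_eq_mul] at hW
  omega

theorem steiner : IsSteinerSystem 5 6 Hex := by
  classical
  refine ⟨fun b hb => hb.choose_spec.2.2, fun s hs => ?_⟩
  let B : Finset (Finset ArrayPt) := univ.filter (· ∈ Hex)
  have hB : B.card = 132 := by
    rw [← card_hex, ← Set.ncard_coe_finset]
    congr 1
    ext x; simp only [B, coe_filter, mem_univ, true_and, Set.setOf_mem_eq]
  have hmem : ∀ b, b ∈ B ↔ b ∈ Hex := fun b => by simp only [B, mem_filter, mem_univ, true_and]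
  have hc : (B.biUnion (powersetCard 5)).card = 792 := by
    rw [card_biUnion, sum_congr rfl (g := fun _ => 6), sum_const, hB]
    · rfl
    · intro b hb
      rw [card_powersetCard, ((hmem b).1 hb).choose_spec.2.2]; rfl
    · intro b hb c hc hbc
      rw [Function.onFun, disjoint_left]
      intro t ht1 ht2
      rw [mem_powersetCard] at ht1 ht2
      exact hbc (hex_uniq ((hmem b).1 hb) ((hmem c).1 hc)
        (ht1.2 ▸ card_le_card (subset_inter ht1.1 ht2.1)))
  have heq : B.biUnion (powersetCard 5) = powersetCard 5 univ := by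
    refine eq_of_subset_of_card_le (fun t ht => ?_) ?_
    · obtain ⟨b, -, ht⟩ := mem_biUnion.1 ht
      exact mem_powersetCard.2 ⟨subset_univ _, (mem_powersetCard.1 ht).2⟩
    · rw [hc, card_powersetCard]; decide
  have : s ∈ B.biUnion (powersetCard 5) := heq ▸ mem_powersetCard.2 ⟨subset_univ _, hs⟩
  obtain ⟨b, hb, ht⟩ := mem_biUnion.1 this
  refine ⟨b, ⟨(hmem b).1 hb, (mem_powersetCard.1 ht).1⟩, fun c hc => ?_⟩
  exact hex_uniq hc.1 ((hmem b).1 hb) (hs ▸ card_le_card (subset_inter hc.2 (mem_powersetCard.1 ht).1))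

theorem signs (c : ArrayPt → (ZMod 3)ˣ)
    (h : ∀ x ∈ ternaryGolayCode, monomialMap 1 c x ∈ ternaryGolayCode) :
    (∀ p, c p = 1) ∨ (∀ p, c p = -1) := by
  have key : ∀ p q, c p = c q := by
    intro p q
    obtain ⟨s, hs1, -, hs⟩ := exists_subsuperset_card_eq (subset_univ ({p, q} : Finset ArrayPt))
      (n := 5) (card_le_two.trans (by norm_num)) (by decide)
    obtain ⟨b, ⟨⟨x, hx, rfl, h6⟩, hb⟩, -⟩ := steiner.2 s hs
    have hsup : ternarySupport (monomialMap 1 c x) = ternarySupport x := by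
      ext r; simp [mem_supp, monomialMap, Equiv.Perm.one_symm]
    have hp : x p ≠ 0 := mem_supp.1 (hb (hs1 (by simp)))
    have hq : x q ≠ 0 := mem_supp.1 (hb (hs1 (by simp)))
    apply Units.ext
    rcases pm hx (h x hx) h6 (hsup ▸ h6) (by rw [hsup, inter_self]; omega) with h1 | h1
    · have e1 : (c p : ZMod 3) * x p = 1 * x p := by rw [one_mul]; exact congrFun h1 p
      have e2 : (c q : ZMod 3) * x q = 1 * x q := by rw [one_mul]; exact congrFun h1 q
      rw [mul_right_cancel₀ hp e1, mul_right_cancel₀ hq e2]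
    · have e1 : (c p : ZMod 3) * x p = -1 * x p := by rw [neg_one_mul]; exact congrFun h1 p
      have e2 : (c q : ZMod 3) * x q = -1 * x q := by rw [neg_one_mul]; exact congrFun h1 q
      rw [mul_right_cancel₀ hp e1, mul_right_cancel₀ hq e2]
  have : ∀ u : (ZMod 3)ˣ, u = 1 ∨ u = -1 := by decide
  rcases this (c (0, 0)) with h1 | h1
  · exact Or.inl fun p => (key p _).trans h1
  · exact Or.inr fun p => (key p _).trans h1

/-- points by index -/
def pt (n : ℕ) : ArrayPt := (Fin.ofNat 4 (n / 3), (n : ZMod 3))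

/-- index of a point -/
def ix (p : ArrayPt) : ℕ := 3 * p.1.val + p.2.val

/-- decoded permutation -/
def pf (a : ℕ) (p : ArrayPt) : ArrayPt := pt (a / 16 ^ ix p % 16)

/-- decoded signs -/
def sg (s : ℕ) (p : ArrayPt) : (ZMod 3)ˣ := if s.testBit (ix p) then -1 else 1

/-- the data -/
def dat : List (ℕ × ℕ) := [(0xba9876543210, 0), (0x687a9b543201, 0), (0x9ba768543102, 0), (0xb9867a542103, 630), (0x87ba96532104, 630), (0xab7869432105, 630), (0xb8a745932106, 634), (0x65498ab32107, 636), (0x5964b7a32108, 624), (0x7a8b54632109, 634), (0x46957b83210a, 624), (0x9456a873210b, 636), (0x876ba9543120, 0), (0xa6798b542130, 1866), (0x6a97b8532140, 1866), (0x986b7a432150, 1866), (0x5748ab932160, 1862), (0xa98546b32170, 2236), (0x74b965a32180, 2224), (0x4b5a87632190, 1862), (0xb576948321a0, 2224), (0x86a4597321b0, 2236), (0x98ba67542310, 2764), (0x7b86a9532410, 2764), (0xb7a986432510, 2764), (0x8ab574932610, 2758), (0x546a98b32710, 1338), (0x96574ba32810, 1328), (0xa874b5632910,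 2758), (0x694b57832a10, 1328), (0x45986a732b10, 1338), (0x867b9a534210, 0), (0xa9b768435210, 0), (0xb58a47936210, 6), (0x6a5489b37210, 4090), (0x5796b4a38210, 4092), (0x74a85b639210, 6), (0x4b697583a210, 4092), (0x9845a673b210, 4090), (0x786ab9453210, 0), (0xa74b85963210, 6), (0x49865ab73210, 4090), (0x64b597a83210, 4092), (0x8b57a4693210, 6), (0x95746b8a3210, 4092), (0x56a9487b3210, 4090)]

/-- a basis -/
def bas : List P6 := [(1, 0, 0, 0, 0, 0), (0, 1, 0, 0, 0, 0), (0, 0, 1, 0, 0, 0), (0, 0, 0, 1, 0, 0),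
  (0, 0, 0, 0, 1, 0), (0, 0, 0, 0, 0, 1)]

theorem dat_ok : ∀ e ∈ dat, (∀ p q, pf e.1 p = pf e.1 q → p = q) ∧ ∀ v ∈ bas, ∀ p,
    enc (inf fun i => (sg e.2 i : ZMod 3) * enc v (pf e.1 i)) p =
      (sg e.2 p : ZMod 3) * enc v (pf e.1 p) := by decide +kernel

theorem dat_step : ∀ k < 5, ∀ q : ArrayPt, (∀ j < k, q ≠ pt j) →
    ∃ e ∈ dat, (∀ j < k, pf e.1 (pt j) = pt j) ∧ pf e.1 (pt k) = q := by decide +kernel

theorem le_span : ternaryGolayCode ≤ Submodule.span (ZMod 3) {x | ∃ v ∈ bas, enc v = x} := by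
  intro x hx
  rw [← eq_enc hx]
  obtain ⟨a, b, c, d, e, f⟩ := inf x
  have : enc (a, b, c, d, e, f) = a • enc (1, 0, 0, 0, 0, 0) + b • enc (0, 1, 0, 0, 0, 0) +
      c • enc (0, 0, 1, 0, 0, 0) + d • enc (0, 0, 0, 1, 0, 0) + e • enc (0, 0, 0, 0, 1, 0) +
      f • enc (0, 0, 0, 0, 0, 1) := by
    funext ⟨i, r⟩
    fin_cases i <;> fin_cases r <;> simp [enc] <;> ring
  rw [this]
  refine add_mem (add_mem (add_mem (add_mem (add_mem ?_ ?_) ?_) ?_) ?_) ?_ <;>
    exact Submodule.smul_mem _ _ (Submodule.subset_span ⟨_, by simp [bas], rfl⟩)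

theorem step : ∀ k < 5, ∀ q : ArrayPt, (∀ j < k, q ≠ pt j) →
    ∃ h ∈ monoP ternaryGolayCode, (∀ j < k, h (pt j) = pt j) ∧ h (pt k) = q := by
  intro k hk q hq
  obtain ⟨e, he, h1, h2⟩ := dat_step k hk q hq
  obtain ⟨σ, hσ, h⟩ := mono_of_fun ternaryGolayCode (f := pf e.1) (dat_ok e he).1 (sg e.2)
    fun x hx => span_map_mem (pf e.1) (fun i => (sg e.2 i : ZMod 3)) (by
      rintro _ ⟨v, hv, rfl⟩
      exact mem_iff.2 (funext ((dat_ok e he).2 v hv))) x (le_span hx)
  exact ⟨σ, hσ, fun j hj => (h _).trans (h1 j hj), (h _).trans h2⟩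

theorem card_diag : Nat.card {c : ArrayPt → (ZMod 3)ˣ //
    ∀ x ∈ ternaryGolayCode, monomialMap 1 c x ∈ ternaryGolayCode} = 2 := by
  rw [Nat.card_eq_two_iff]
  refine ⟨⟨fun _ => 1, fun x hx => ?_⟩, ⟨fun _ => -1, fun x hx => ?_⟩, fun h => ?_, ?_⟩
  · convert hx using 1
    funext i; simp [monomialMap, Equiv.Perm.one_symm]
  · convert ternaryGolayCode.neg_mem hx using 1
    funext i; simp [monomialMap, Equiv.Perm.one_symm]
  · exact absurd (congrFun (congrArg Subtype.val h) (0, 0)) (by decide)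
  · rw [Set.eq_univ_iff_forall]
    rintro ⟨c, hc⟩
    rcases signs c hc with h | h
    · exact Or.inl (Subtype.ext (funext h))
    · exact Or.inr (Subtype.ext (funext h))

end TG
end H1B
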