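import Cfsg.Prelude.Def_SporadicCombinatorics

/-! The ternary Golay code. -/

set_option maxRecDepth 100000

namespace H1B
open Cfsg Finset

namespace TG

abbrev P6 := ZMod 3 × ZMod 3 × ZMod 3 × ZMod 3 × ZMod 3 × ZMod 3

/-- the systematic encoder -/
def enc : P6 → ArrayPt → ZMod 3
  | (a, b, c, d, e, f), p =>
    ![![a, b, c], ![d, e, a + b + c + 2 * d + 2 * e],
      ![f, 2 * b + c + 2 * d + e + f, a + 2 * b + d + 2 * e + f],
      ![a + 2 * b + 2 * c + 2 * d + 2 * f, a + c + d + e + 2 * f,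
        2 * a + 2 * b + c + 2 * e + 2 * f]] p.1 p.2

/-- the information symbols -/
def inf (x : ArrayPt → ZMod 3) : P6 := (x (0, 0), x (0, 1), x (0, 2), x (1, 0), x (1, 1), x (2, 0))

theorem inf_enc (v : P6) : inf (enc v) = v := rfl

theorem enc_inj : Function.Injective enc := fun v w h => by rw [← inf_enc v, h, inf_enc]

theorem tet (a b : ZMod 3) (t : Fin 4 → ZMod 3)
    (h : t = a • ![0, 1, 1, 1] + b • ![1, 0, 1, 2]) : t ∈ tetracode :=
  Submodule.mem_span_pair.2 ⟨a, b, h.symm⟩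

theorem enc_chk : ∀ v : P6, (∀ i : Fin 4, ∑ r : ZMod 3, enc v (i, r) = -(-(v.1 + v.2.1 + v.2.2.1))) ∧
    ∀ a b : ZMod 3, ∑ i : Fin 4, enc v (i, (a • ![0, 1, 1, 1] + b • ![1, 0, 1, 2] : Fin 4 → ZMod 3) i)
      = -(v.1 + v.2.1 + v.2.2.1) := by decide +kernel

theorem enc_mem (v : P6) : enc v ∈ ternaryGolayCode := by
  refine ⟨-(v.1 + v.2.1 + v.2.2.1), (enc_chk v).1, fun t ht => ?_⟩
  obtain ⟨a, b, rfl⟩ := Submodule.mem_span_pair.1 ht
  exact (enc_chk v).2 a b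

theorem eq_enc {x : ArrayPt → ZMod 3} (hx : x ∈ ternaryGolayCode) : enc (inf x) = x := by
  obtain ⟨s, hs, ht⟩ := hx
  have h3 : (3 : ZMod 3) = 0 := rfl
  have c0 : x (0, 0) + x (0, 1) + x (0, 2) = -s := (Fin.sum_univ_three _).symm.trans (hs 0)
  have c1 : x (1, 0) + x (1, 1) + x (1, 2) = -s := (Fin.sum_univ_three _).symm.trans (hs 1)
  have c2 : x (2, 0) + x (2, 1) + x (2, 2) = -s := (Fin.sum_univ_three _).symm.trans (hs 2)
  have c3 : x (3, 0) + x (3, 1) + x (3, 2) = -s := (Fin.sum_univ_three _).symm.trans (hs 3)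
  have t00 : x (0, 0) + x (1, 0) + x (2, 0) + x (3, 0) = s := (Fin.sum_univ_four _).symm.trans (ht ![0, 0, 0, 0] (tet 0 0 _ (by decide)))
  have t01 : x (0, 1) + x (1, 0) + x (2, 1) + x (3, 2) = s := (Fin.sum_univ_four _).symm.trans (ht ![1, 0, 1, 2] (tet 0 1 _ (by decide)))
  have t10 : x (0, 0) + x (1, 1) + x (2, 1) + x (3, 1) = s := (Fin.sum_univ_four _).symm.trans (ht ![0, 1, 1, 1] (tet 1 0 _ (by decide)))
  have e5 : x (1, 2) = x (0, 0) + x (0, 1) + x (0, 2) + 2 * x (1, 0) + 2 * x (1, 1) := by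
    linear_combination 2 * c0 + 1 * c1 + ((-1) * x (0, 0) + (-1) * x (0, 1) + (-1) * x (0, 2) + (-1) * x (1, 0) + (-1) * x (1, 1) + (-1) * s) * h3
  have e7 : x (2, 1) = 2 * x (0, 1) + x (0, 2) + 2 * x (1, 0) + x (1, 1) + x (2, 0) := by
    linear_combination 2 * c0 + 1 * c3 + 2 * t00 + 2 * t01 + 2 * t10 + ((-2) * x (0, 0) + (-2) * x (0, 1) + (-1) * x (0, 2) + (-2) * x (1, 0) + (-1) * x (1, 1) + (-1) * x (2, 0) + (-1) * x (2, 1) + (-1) * x (3, 0) + (-1) * x (3, 1) + (-1) * x (3, 2) + (1) * s) * h3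
  have e8 : x (2, 2) = x (0, 0) + 2 * x (0, 1) + x (1, 0) + 2 * x (1, 1) + x (2, 0) := by
    linear_combination 1 * c2 + 2 * c3 + 1 * t00 + 1 * t01 + 1 * t10 + ((-1) * x (0, 0) + (-1) * x (0, 1) + (-1) * x (1, 0) + (-1) * x (1, 1) + (-1) * x (2, 0) + (-1) * x (2, 1) + (-1) * x (3, 0) + (-1) * x (3, 1) + (-1) * x (3, 2)) * h3
  have e9 : x (3, 0) = x (0, 0) + 2 * x (0, 1) + 2 * x (0, 2) + 2 * x (1, 0) + 2 * x (2, 0) := by
    linear_combination 1 * c0 + 1 * t00 + ((-1) * x (0, 0) + (-1) * x (0, 1) + (-1) * x (0, 2) + (-1) * x (1, 0) + (-1) * x (2, 0)) * h3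
  have e10 : x (3, 1) = x (0, 0) + x (0, 2) + x (1, 0) + x (1, 1) + 2 * x (2, 0) := by
    linear_combination 2 * c0 + 2 * c3 + 1 * t00 + 1 * t01 + 2 * t10 + ((-2) * x (0, 0) + (-1) * x (0, 1) + (-1) * x (0, 2) + (-1) * x (1, 0) + (-1) * x (1, 1) + (-1) * x (2, 0) + (-1) * x (2, 1) + (-1) * x (3, 0) + (-1) * x (3, 1) + (-1) * x (3, 2)) * h3
  have e11 : x (3, 2) = 2 * x (0, 0) + 2 * x (0, 1) + x (0, 2) + 2 * x (1, 1) + 2 * x (2, 0) := by
    linear_combination 2 * c0 + 2 * c3 + 1 * t00 + 2 * t01 + 1 * t10 + ((-2) * x (0, 0) + (-2) * x (0, 1) + (-1) * x (0, 2) + (-1) * x (1, 0) + (-1) * x (1, 1) + (-1) * x (2, 0) + (-1) * x (2, 1) + (-1) * x (3, 0) + (-1) * x (3, 1) + (-1) * x (3, 2)) * h3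

  funext ⟨i, r⟩
  fin_cases i <;> fin_cases r
  exacts [rfl, rfl, rfl, rfl, rfl, e5.symm, rfl, e7.symm, e8.symm, e9.symm, e10.symm, e11.symm]

theorem mem_iff {x : ArrayPt → ZMod 3} : x ∈ ternaryGolayCode ↔ enc (inf x) = x :=
  ⟨eq_enc, fun h => h ▸ enc_mem _⟩

theorem set_eq (q : (ArrayPt → ZMod 3) → Prop) [DecidablePred q] :
    {x | x ∈ ternaryGolayCode ∧ q x}.ncard = (univ.filter fun v : P6 => q (enc v)).card := by
  rw [← Set.ncard_coe_finset, ← Set.ncard_image_of_injective _ enc_inj]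
  congr 1
  ext x
  simp only [Set.mem_setOf_eq, coe_filter, mem_univ, true_and, Set.mem_image]
  exact ⟨fun h => ⟨inf x, by rw [eq_enc h.1]; exact h.2, eq_enc h.1⟩,
    by rintro ⟨v, h, rfl⟩; exact ⟨enc_mem v, h⟩⟩

theorem wt_chk : ∀ v : P6, v = 0 ∨ (ternarySupport (enc v)).card = 6 ∨
    (ternarySupport (enc v)).card = 9 ∨ (ternarySupport (enc v)).card = 12 := by decide +kernel

theorem c6 : (univ.filter fun v : P6 => (ternarySupport (enc v)).card = 6).card = 264 := by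
  decide +kernel
theorem c9 : (univ.filter fun v : P6 => (ternarySupport (enc v)).card = 9).card = 440 := by
  decide +kernel
theorem c12 : (univ.filter fun v : P6 => (ternarySupport (enc v)).card = 12).card = 24 := by
  decide +kernel

end TG
end H1B
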