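import Cfsg.Agent.H1.Zsig

/-! The primitive part of `q ^ e - 1` is large. -/

namespace H1B
open Polynomial Finset

theorem tot_pow_ge {m : ℕ} (h : ∀ p, p.Prime → p ∣ m → 5 ≤ p) : m ^ 3 ≤ m.totient ^ 4 := by
  induction m using Nat.recOnPosPrimePosCoprime with
  | zero => simp
  | one => simp
  | prime_pow p k hp hk =>
    obtain ⟨k, rfl⟩ : ∃ j, k = j + 1 := ⟨k - 1, by omega⟩
    obtain ⟨t, rfl⟩ : ∃ t, p = t + 5 := ⟨p - 5, by have := h p hp (dvd_pow_self p (by simp)); omega⟩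
    rw [Nat.totient_prime_pow_succ hp, pow_succ (t + 5) k, mul_pow, mul_pow, show t + 5 - 1 = t + 4 by omega]
    exact Nat.mul_le_mul (Nat.pow_le_pow_right (by positivity) (by norm_num)) (by nlinarith [Nat.zero_le (t ^ 2), Nat.zero_le (t ^ 3), Nat.zero_le (t ^ 4)])
  | coprime a b _ _ c iha ihb =>
    rw [Nat.totient_mul c, mul_pow, mul_pow]
    exact Nat.mul_le_mul (iha fun p hp d => h p hp (d.mul_right b)) (ihb fun p hp d => h p hp (d.mul_left a))

theorem tot_ge (e : ℕ) : 2 * e ^ 3 ≤ 27 * e.totient ^ 4 := by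
  rcases eq_or_ne e 0 with rfl | e0
  · simp
  obtain ⟨a, m, h2, rfl⟩ := Nat.exists_eq_pow_mul_and_not_dvd e0 2 (by norm_num)
  obtain ⟨b, m, h3, rfl⟩ := Nat.exists_eq_pow_mul_and_not_dvd (right_ne_zero_of_mul e0) 3 (by norm_num)
  have k := tot_pow_ge (m := m) fun p hp d => by
    by_contra c
    have := hp.two_le
    have : p < 5 := by omega
    interval_cases p
    · exact h2 (d.mul_left _)
    · exact h3 d
    · exact absurd hp (by decide)
  have k2 : (2 ^ a) ^ 3 ≤ 8 * (2 ^ a).totient ^ 4 := by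
    rcases a with _ | a
    · simp
    · rw [Nat.totient_prime_pow_succ Nat.prime_two, pow_succ 2 a, mul_pow, mul_comm]
      exact Nat.mul_le_mul (by norm_num) (by simpa using Nat.pow_le_pow_right (by positivity) (by norm_num))
  have k3 : 16 * (3 ^ b) ^ 3 ≤ 27 * (3 ^ b).totient ^ 4 := by
    rcases b with _ | b
    · simp
    · rw [Nat.totient_prime_pow_succ Nat.prime_three, pow_succ 3 b, mul_pow, mul_pow]
      have : (3 ^ b) ^ 3 ≤ (3 ^ b) ^ 4 := Nat.pow_le_pow_right (by positivity) (by norm_num)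
      norm_num
      omega
  rw [Nat.totient_mul ((Nat.prime_two.coprime_iff_not_dvd.2 h2).pow_left a),
    Nat.totient_mul ((Nat.prime_three.coprime_iff_not_dvd.2 h3).pow_left b), mul_pow, mul_pow, mul_pow _ _ 4, mul_pow _ _ 4]
  have := Nat.mul_le_mul k2 (Nat.mul_le_mul k3 k)
  nlinarith

theorem big_tot {e : ℕ} (h : 300 < e) : (e * (3 * e + 1)) ^ 2 ≤ 2 ^ e.totient := by
  have k := tot_ge e
  generalize e.totient = t at k
  have t38 : 38 ≤ t := by
    by_contra c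
    have := Nat.pow_le_pow_left (show t ≤ 37 by omega) 4
    have := Nat.pow_le_pow_left (show 301 ≤ e by omega) 3
    omega
  have a : 33215063 * t ^ 16 ≤ 8 ^ t := by
    clear k
    induction t, t38 using Nat.le_induction with
    | base => norm_num
    | succ t ht ih =>
      have := Nat.pow_le_pow_left (show (t + 1) * 38 ≤ t * 39 by omega) 16
      rw [mul_pow, mul_pow] at this
      rw [pow_succ 8]
      norm_num at this
      omega
  have b := Nat.pow_le_pow_left k 4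
  have c : (e * (3 * e + 1)) ^ 2 ≤ 10 * e ^ 4 := by nlinarith [Nat.mul_le_mul h.le (le_refl (e ^ 3)), Nat.mul_le_mul h.le (le_refl (e ^ 2))]
  have d := Nat.pow_le_pow_left c 3
  rw [← Nat.pow_le_pow_iff_left three_ne_zero, ← pow_mul 2, mul_comm t, pow_mul]
  rw [mul_pow, mul_pow, ← pow_mul, ← pow_mul] at b
  rw [mul_pow 10, ← pow_mul e] at d
  norm_num at b d ⊢
  omega

/-- `Φ_e(q)` as a natural number -/
noncomputable def cyv (e q : ℕ) : ℕ := ((cyclotomic e ℤ).eval (q : ℤ)).natAbs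

theorem cyv_cast {e q : ℕ} (hq : 1 < q) : (cyv e q : ℝ) = (cyclotomic e ℝ).eval (q : ℝ) := by
  have := cyclotomic_pos' e (x := (q : ℤ)) (by exact_mod_cast hq)
  rw [cyv, Nat.cast_natAbs, abs_of_pos this, ← map_cyclotomic_int e ℝ, ← Int.cast_natCast (R := ℝ), eval_intCast_map]
  rfl

theorem cyv_ge {e q : ℕ} (hq : 1 < q) : (q - 1) ^ e.totient ≤ cyv e q := by
  have := sub_one_pow_totient_le_cyclotomic_eval (q := (q : ℝ)) (by exact_mod_cast hq) e
  rw [← cyv_cast hq] at this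
  have e1 : ((q - 1 : ℕ) : ℝ) = q - 1 := by rw [Nat.cast_sub hq.le, Nat.cast_one]
  exact_mod_cast e1 ▸ this

theorem cyv_two {e : ℕ} (he : 3 ≤ e) : 2 ^ e.totient ≤ cyv e 2 ^ 2 := by
  have A : ∀ r m, r.Prime → r ∣ m → 2 ^ (m * r).totient ≤ cyv (m * r) 2 ^ 2 := fun r m hr d => by
    have ex := congrArg (eval (2 : ℤ)) (cyclotomic_expand_eq_cyclotomic hr d ℤ)
    rw [expand_eval] at ex
    have := cyv_ge (e := m) (Nat.one_lt_two_pow hr.ne_zero)
    rw [cyv, Nat.cast_pow, Nat.cast_ofNat, ex] at this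
    rw [mul_comm m r, Nat.totient_mul_of_prime_of_dvd hr d, pow_mul, mul_comm r m]
    refine le_trans ?_ (Nat.pow_le_pow_left this 2)
    rw [← pow_mul (2 ^ r - 1), mul_comm m.totient 2, pow_mul]
    refine Nat.pow_le_pow_left ?_ _
    have := Nat.pow_le_pow_right two_pos hr.two_le
    generalize 2 ^ r = x at this
    obtain ⟨y, rfl⟩ : ∃ y, x = y + 4 := ⟨x - 4, by omega⟩
    rw [show y + 4 - 1 = y + 3 by omega]
    nlinarith
  by_cases h4 : 4 ∣ e
  · obtain ⟨m, rfl⟩ := h4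
    rw [show 4 * m = 2 * m * 2 by ring]
    exact A 2 _ Nat.prime_two (Dvd.intro _ rfl)
  obtain ⟨r, hr, d, r2⟩ : ∃ r, r.Prime ∧ r ∣ e ∧ r ≠ 2 := by
    by_contra c
    push Not at c
    have := Nat.eq_prime_pow_of_unique_prime_dvd (by omega : e ≠ 0) fun {d} a b => c d a b
    generalize e.primeFactorsList.length = j at this
    rcases j with _ | _ | j
    · omega
    · omega
    · exact h4 (this ▸ pow_dvd_pow 2 (show 2 ≤ _ by omega))
  obtain ⟨m, rfl⟩ := d
  rw [mul_comm]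
  by_cases hm : r ∣ m
  · exact A r m hr hm
  obtain ⟨s, rfl⟩ : ∃ s, r = s + 3 := ⟨r - 3, by have := hr.two_le; omega⟩
  have ex := congrArg (eval (2 : ℝ)) (cyclotomic_expand_eq_cyclotomic_mul hr hm ℝ)
  have b1 := cyv_ge (e := m) (Nat.one_lt_two_pow hr.ne_zero)
  have b2 := cyclotomic_eval_le_add_one_pow_totient (q := (2 : ℝ)) one_lt_two m
  have c1 := cyv_cast (e := m) (Nat.one_lt_two_pow hr.ne_zero)
  have c2 := cyv_cast (e := m * (s + 3)) one_lt_two
  have c3 := cyv_cast (e := m) one_lt_two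
  rw [expand_eval, eval_mul] at ex
  push_cast at c1 c2 c3
  rw [← c1, ← c2, ← c3] at ex
  rw [← c3] at b2
  have b3 : cyv m 2 ≤ 3 ^ m.totient := by norm_num at b2; exact_mod_cast b2
  have e1 : cyv m (2 ^ (s + 3)) = cyv (m * (s + 3)) 2 * cyv m 2 := by exact_mod_cast ex
  have b4 : (2 ^ (s + 1)) ^ m.totient * 3 ^ m.totient ≤ cyv (m * (s + 3)) 2 * 3 ^ m.totient := by
    refine le_trans ?_ (b1.trans (e1.le.trans (Nat.mul_le_mul_left _ b3)))
    rw [← mul_pow]
    refine Nat.pow_le_pow_left ?_ _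
    have : 0 < 2 ^ s := by positivity
    rw [pow_add, pow_add]
    omega
  refine le_trans ?_ (Nat.pow_le_pow_left (Nat.le_of_mul_le_mul_right b4 (by positivity)) 2)
  rw [mul_comm m, Nat.totient_mul_of_prime_of_not_dvd hr hm, ← pow_mul, ← pow_mul]
  refine Nat.pow_le_pow_right two_pos ?_
  rw [show s + 3 - 1 = s + 2 by omega]
  nlinarith [Nat.zero_le (s * m.totient)]

/-- primitive divisor of `q ^ e - 1` -/
def PrimD (q e m : ℕ) : Prop := m ∣ q ^ e - 1 ∧ ∀ i : ℕ, 1 ≤ i → i < e → m.Coprime (q ^ i - 1)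

theorem exists_prim {q e : ℕ} (hq : 1 < q) (he : 3 ≤ e) : ∃ m, PrimD q e m ∧ cyv e q ≤ e * m := by
  have D : cyv e q ∣ q ^ e - 1 := by
    have := eval_dvd (x := (q : ℤ)) (cyclotomic.dvd_X_pow_sub_one e ℤ)
    rw [← Int.natAbs_dvd_natAbs] at this
    simp only [eval_sub, eval_pow, eval_X, eval_one] at this
    rwa [show (q : ℤ) ^ e - 1 = ((q ^ e - 1 : ℕ) : ℤ) by rw [Nat.cast_sub (Nat.one_le_pow _ _ (by omega))]; simp,
      Int.natAbs_natCast] at this
  have key : ∀ r, r.Prime → r ∣ cyv e q → (∀ i, 1 ≤ i → i < e → ¬ r ∣ q ^ i - 1) ∨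
      ∃ k m, e = r ^ (k + 1) * m ∧ m ∣ r - 1 ∧ (q : ZMod r) ^ m = 1 := fun r hr d => by
    haveI := Fact.mk hr
    obtain ⟨k, m, h, hm, p⟩ := zs_ord (a := q) (by omega : e ≠ 0) (Int.natCast_dvd.2 d)
    have m0 : m ≠ 0 := by rintro rfl; simp at hm
    rcases k with _ | k
    · rw [pow_zero, one_mul] at h
      subst h
      exact .inl fun i i0 i1 h => p.pow_ne_one_of_pos_of_lt (by omega) i1 ((zs_dvd hq.le).1 h)
    exact .inr ⟨k, m, h, p.dvd_of_pow_eq_one _ (ZMod.pow_card_sub_one_eq_one (p.ne_zero m0)), p.pow_eq_one⟩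
  have P : ∀ m, m ∣ cyv e q → (∀ r, r.Prime → r ∣ m → ∀ i, 1 ≤ i → i < e → ¬ r ∣ q ^ i - 1) → PrimD q e m :=
    fun m d h => ⟨d.trans D, fun i a b => Nat.coprime_of_dvd fun r hr c => h r hr c i a b⟩
  by_cases h : ∃ r, r.Prime ∧ r ∣ cyv e q ∧ ∃ k m, e = r ^ (k + 1) * m ∧ m ∣ r - 1 ∧ (q : ZMod r) ^ m = 1
  swap
  · exact ⟨_, P _ dvd_rfl fun r hr d => (key r hr d).resolve_right fun c => h ⟨r, hr, d, c⟩,
      Nat.le_mul_of_pos_left _ (by omega)⟩
  obtain ⟨r, hr, ⟨N, hN⟩, k, m, h1, dm, am⟩ := h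
  haveI := Fact.mk hr
  have le : ∀ s t k m k' m', s.Prime → t.Prime → e = s ^ (k + 1) * m → e = t ^ (k' + 1) * m' → m' ∣ t - 1 → s ≤ t :=
    fun s t k m k' m' hs ht e1 e' d' => by
    rcases (Nat.Prime.dvd_mul hs).1 (e' ▸ e1 ▸ (dvd_pow_self s k.succ_ne_zero).mul_right m) with h | h
    · exact Nat.le_of_dvd ht.pos (hs.dvd_of_dvd_pow h)
    · exact (Nat.le_of_dvd (Nat.sub_pos_of_lt ht.one_lt) (h.trans d')).trans (Nat.sub_le _ _)
  have m0 : m ≠ 0 := by rintro rfl; simp at h1; omega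
  have e2 : e = r ^ k * m * r := by rw [h1]; ring
  have r2 : r = 2 → m = 1 := by rintro rfl; simpa using dm
  have sq := zs_sq (a := q) (m := r ^ k * m) (r := r) hq (by have := hr.pos; positivity) (by rw [mul_comm, pow_mul, am, one_pow])
    fun h => by
      rcases k with _ | k
      · rw [r2 h, h] at h1; omega
      · exact h ▸ (dvd_pow_self r k.succ_ne_zero).mul_right m
  rw [← e2] at sq
  refine ⟨N, P _ (hN ▸ Dvd.intro_left _ rfl) fun s hs d => (key s hs (hN ▸ d.mul_left r)).resolve_right ?_,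
    hN ▸ Nat.mul_le_mul_right _ (Nat.le_of_dvd (by omega) (e2 ▸ Dvd.intro_left _ rfl))⟩
  rintro ⟨k', m', h2, dm', -⟩
  obtain rfl := le_antisymm (le _ _ _ _ _ _ hs hr h2 h1 dm) (le _ _ _ _ _ _ hr hs h1 h2 dm')
  exact sq (by exact_mod_cast Int.natCast_dvd.2 (show s ^ 2 ∣ cyv e q by rw [hN, pow_two]; exact Nat.mul_dvd_mul_left s d))

/-- exceptional pairs -/
def exL : List (ℕ × ℕ) :=
  [(2, 6), (2, 4), (2, 10), (2, 12), (2, 18), (3, 4), (3, 6), (5, 6), (2, 3), (2, 8), (2, 20), (4, 3), (4, 6)]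

/-- product of the smaller values -/
def prP (q e : ℕ) : ℕ := ∏ i ∈ range e, if i = 0 then 1 else q ^ i - 1

/-- check for one pair -/
def ck1 (q e : ℕ) : Bool := (q, e) ∈ exL ||
  (3 * e + 1 ≤ (q ^ e - 1) / Nat.gcd (q ^ e - 1) (prP q e ^ 3) &&
    Nat.gcd ((q ^ e - 1) / Nat.gcd (q ^ e - 1) (prP q e ^ 3)) (prP q e) == 1)

/-- check for one exponent -/
def ck2 (e t : ℕ) : Bool := (e * (3 * e + 1)) ^ 2 ≤ 2 ^ t ||
  (List.range (2 * e)).all fun j => (j ≠ 0 && e * (3 * e + 1) ≤ (j + 1) ^ t) || ck1 (j + 2) e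

theorem ck_all : (List.range 298).all (fun i => ck2 (i + 3) (i + 3).totient) = true := by decide +kernel

theorem dvd_prP {q e i : ℕ} (h1 : 1 ≤ i) (h2 : i < e) : q ^ i - 1 ∣ prP q e := by
  have := dvd_prod_of_mem (fun i => if i = 0 then 1 else q ^ i - 1) (mem_range.2 h2)
  rwa [if_neg (by omega)] at this

theorem prim_big {q e : ℕ} (hq : 1 < q) (he : 3 ≤ e) (h : (q, e) ∉ exL) : ∃ m, PrimD q e m ∧ 3 * e + 1 ≤ m := by
  obtain ⟨m, hm, l⟩ := exists_prim hq he
  have g := cyv_ge (e := e) hq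
  have A : e * (3 * e + 1) ≤ cyv e q → ∃ m, PrimD q e m ∧ 3 * e + 1 ≤ m := fun k =>
    ⟨m, hm, Nat.le_of_mul_le_mul_left (k.trans l) (by omega)⟩
  have B : (e * (3 * e + 1)) ^ 2 ≤ 2 ^ e.totient → ∃ m, PrimD q e m ∧ 3 * e + 1 ≤ m := fun k => A (by
    rw [← Nat.pow_le_pow_iff_left two_ne_zero]
    rcases eq_or_ne q 2 with rfl | q2
    · exact k.trans (cyv_two he)
    · exact k.trans (((Nat.pow_le_pow_left (by omega) _).trans g).trans (Nat.le_self_pow two_ne_zero _)))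
  by_cases e3 : 300 < e
  · exact B (big_tot e3)
  by_cases q2 : 2 * e + 2 ≤ q
  · refine A (le_trans ?_ g)
    have t : 2 ≤ e.totient := Nat.le_of_dvd (Nat.totient_pos.2 (by omega)) (Nat.totient_even he).two_dvd
    refine le_trans ?_ ((Nat.pow_le_pow_left (show 2 * e + 1 ≤ q - 1 by omega) 2).trans (Nat.pow_le_pow_right (by omega) t))
    nlinarith
  have c := List.all_eq_true.1 ck_all (e - 3) (List.mem_range.2 (by omega))
  rw [Nat.sub_add_cancel he, ck2, Bool.or_eq_true, decide_eq_true_eq, List.all_eq_true] at c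
  refine c.elim B fun c => ?_
  have c := c (q - 2) (List.mem_range.2 (by omega))
  rw [Nat.sub_add_cancel hq, show q - 2 + 1 = q - 1 by omega, ck1] at c
  simp only [Bool.or_eq_true, Bool.and_eq_true, decide_eq_true_eq, beq_iff_eq, h, false_or] at c
  exact c.elim (fun c => A (c.2.trans g)) fun c => ⟨_, ⟨Nat.div_dvd_of_dvd (Nat.gcd_dvd_left _ _),
    fun i a b => Nat.Coprime.coprime_dvd_right (dvd_prP a b) c.2⟩, c.1⟩

theorem prim_small : ∀ x ∈ exL, ∃ K ∈ List.range (2 * x.2 + 1), x.1 ^ x.2 - 1 ∣ (K + 1) * prP x.1 x.2 ^ 2 := by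
  decide +kernel

end H1B
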